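import Mathlib
import Cfsg.Prelude.Def_Classical

set_option autoImplicit false

namespace Cfsg.Agent.Helper6

section Klein

variable {F : Type*} [Field F]

/-- first index of the `k`-th oriented pair of `Fin 4` (Klein correspondence) -/
def kp1 : Fin 3 ⊕ Fin 3 → Fin 4 := Sum.elim ![0, 0, 0] ![2, 3, 1]

/-- second index of the `k`-th oriented pair of `Fin 4` -/
def kp2 : Fin 3 ⊕ Fin 3 → Fin 4 := Sum.elim ![1, 2, 3] ![3, 1, 2]

/-- the exterior square of a `4 × 4` matrix, in the basis `e_{p1 k} ∧ e_{p2 k}` -/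
def kl (g : Matrix (Fin 4) (Fin 4) F) : Matrix (Fin 3 ⊕ Fin 3) (Fin 3 ⊕ Fin 3) F :=
  Matrix.of fun k l => g (kp1 k) (kp1 l) * g (kp2 k) (kp2 l) - g (kp1 k) (kp2 l) * g (kp2 k) (kp1 l)

theorem kl_cb (G H : Matrix (Fin 4) (Fin 4) F) (i j i' j' : Fin 4) :
    (G * H) i i' * (G * H) j j' - (G * H) i j' * (G * H) j i'
      = ∑ k : Fin 3 ⊕ Fin 3, (G i (kp1 k) * G j (kp2 k) - G i (kp2 k) * G j (kp1 k))
          * (H (kp1 k) i' * H (kp2 k) j' - H (kp1 k) j' * H (kp2 k) i') := by
  simp only [Matrix.mul_apply, Fin.sum_univ_four, Fintype.sum_sum_type, Fin.sum_univ_three, kp1, kp2]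
  simp
  ring

theorem kl_mul (G H : Matrix (Fin 4) (Fin 4) F) : kl (G * H) = kl G * kl H := by
  ext k l
  rw [Matrix.mul_apply]
  exact kl_cb G H (kp1 k) (kp2 k) (kp1 l) (kp2 l)

theorem kl_one : kl (1 : Matrix (Fin 4) (Fin 4) F) = 1 := by
  ext k l
  rcases k with k | k <;> rcases l with l | l <;> fin_cases k <;> fin_cases l <;>
    simp [kl, kp1, kp2, Matrix.one_apply]

theorem kl_pf (g : Matrix (Fin 4) (Fin 4) F) (x : Fin 3 ⊕ Fin 3 → F) :
    Cfsg.quadFormPlus 3 F ((kl g).mulVec x) = g.det * Cfsg.quadFormPlus 3 F x := by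
  rw [Matrix.det_succ_row_zero]
  simp only [Cfsg.quadFormPlus, Fin.sum_univ_three, Matrix.mulVec, dotProduct, Fintype.sum_sum_type,
    kl, Matrix.of_apply, kp1, kp2, Fin.sum_univ_four, Matrix.det_fin_three]
  simp [Fin.succAbove]
  ring

/-- the kernel of the exterior square: diagonal matrices with pairwise products one -/
theorem kl_ker (g : Matrix (Fin 4) (Fin 4) F) (hk : kl g = 1) :
    (∀ c a : Fin 4, c ≠ a → g c a = 0) ∧ g 0 0 * g 1 1 = 1 ∧ g 2 2 * g 3 3 = 1 := by
  have h10 : g 1 0 = 0 := by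
    have e1 : g 0 0 * g 2 2 - g 0 2 * g 2 0 = 1 := by
      have h := congrFun (congrFun hk (.inl 1)) (.inl 1)
      simpa [kl, kp1, kp2] using h
    have e2 : g 1 0 * g 2 2 - g 1 2 * g 2 0 = 0 := by
      have h := congrFun (congrFun hk (.inr 2)) (.inl 1)
      simpa [kl, kp1, kp2] using h
    have e3 : g 0 0 * g 1 2 - g 0 2 * g 1 0 = 0 := by
      have h := congrFun (congrFun hk (.inl 0)) (.inl 1)
      simpa [kl, kp1, kp2] using h
    linear_combination (-g 1 0) * e1 + (1 * g 0 0) * e2 - (-1 * g 2 0) * e3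
  have h20 : g 2 0 = 0 := by
    have e1 : g 0 0 * g 1 1 - g 0 1 * g 1 0 = 1 := by
      have h := congrFun (congrFun hk (.inl 0)) (.inl 0)
      simpa [kl, kp1, kp2] using h
    have e2 : g 1 0 * g 2 1 - g 1 1 * g 2 0 = 0 := by
      have h := congrFun (congrFun hk (.inr 2)) (.inl 0)
      simpa [kl, kp1, kp2] using h
    have e3 : g 0 0 * g 2 1 - g 0 1 * g 2 0 = 0 := by
      have h := congrFun (congrFun hk (.inl 1)) (.inl 0)
      simpa [kl, kp1, kp2] using h
    linear_combination (-g 2 0) * e1 + (-1 * g 0 0) * e2 - (-1 * g 1 0) * e3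
  have h30 : g 3 0 = 0 := by
    have e1 : g 0 0 * g 1 1 - g 0 1 * g 1 0 = 1 := by
      have h := congrFun (congrFun hk (.inl 0)) (.inl 0)
      simpa [kl, kp1, kp2] using h
    have e2 : g 3 0 * g 1 1 - g 3 1 * g 1 0 = 0 := by
      have h := congrFun (congrFun hk (.inr 1)) (.inl 0)
      simpa [kl, kp1, kp2] using h
    have e3 : g 0 0 * g 3 1 - g 0 1 * g 3 0 = 0 := by
      have h := congrFun (congrFun hk (.inl 2)) (.inl 0)
      simpa [kl, kp1, kp2] using h
    linear_combination (-g 3 0) * e1 + (1 * g 0 0) * e2 - (-1 * g 1 0) * e3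
  have h01 : g 0 1 = 0 := by
    have e1 : g 1 1 * g 2 2 - g 1 2 * g 2 1 = 1 := by
      have h := congrFun (congrFun hk (.inr 2)) (.inr 2)
      simpa [kl, kp1, kp2] using h
    have e2 : g 0 1 * g 2 2 - g 0 2 * g 2 1 = 0 := by
      have h := congrFun (congrFun hk (.inl 1)) (.inr 2)
      simpa [kl, kp1, kp2] using h
    have e3 : g 0 1 * g 1 2 - g 0 2 * g 1 1 = 0 := by
      have h := congrFun (congrFun hk (.inl 0)) (.inr 2)
      simpa [kl, kp1, kp2] using h
    linear_combination (-g 0 1) * e1 + (1 * g 1 1) * e2 - (1 * g 2 1) * e3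
  have h21 : g 2 1 = 0 := by
    have e1 : g 0 0 * g 1 1 - g 0 1 * g 1 0 = 1 := by
      have h := congrFun (congrFun hk (.inl 0)) (.inl 0)
      simpa [kl, kp1, kp2] using h
    have e2 : g 0 0 * g 2 1 - g 0 1 * g 2 0 = 0 := by
      have h := congrFun (congrFun hk (.inl 1)) (.inl 0)
      simpa [kl, kp1, kp2] using h
    have e3 : g 1 0 * g 2 1 - g 1 1 * g 2 0 = 0 := by
      have h := congrFun (congrFun hk (.inr 2)) (.inl 0)
      simpa [kl, kp1, kp2] using h
    linear_combination (-g 2 1) * e1 + (1 * g 1 1) * e2 - (1 * g 0 1) * e3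
  have h31 : g 3 1 = 0 := by
    have e1 : g 0 0 * g 1 1 - g 0 1 * g 1 0 = 1 := by
      have h := congrFun (congrFun hk (.inl 0)) (.inl 0)
      simpa [kl, kp1, kp2] using h
    have e2 : g 0 0 * g 3 1 - g 0 1 * g 3 0 = 0 := by
      have h := congrFun (congrFun hk (.inl 2)) (.inl 0)
      simpa [kl, kp1, kp2] using h
    have e3 : g 3 0 * g 1 1 - g 3 1 * g 1 0 = 0 := by
      have h := congrFun (congrFun hk (.inr 1)) (.inl 0)
      simpa [kl, kp1, kp2] using h
    linear_combination (-g 3 1) * e1 + (1 * g 1 1) * e2 - (-1 * g 0 1) * e3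
  have h02 : g 0 2 = 0 := by
    have e1 : g 1 1 * g 2 2 - g 1 2 * g 2 1 = 1 := by
      have h := congrFun (congrFun hk (.inr 2)) (.inr 2)
      simpa [kl, kp1, kp2] using h
    have e2 : g 0 1 * g 1 2 - g 0 2 * g 1 1 = 0 := by
      have h := congrFun (congrFun hk (.inl 0)) (.inr 2)
      simpa [kl, kp1, kp2] using h
    have e3 : g 0 1 * g 2 2 - g 0 2 * g 2 1 = 0 := by
      have h := congrFun (congrFun hk (.inl 1)) (.inr 2)
      simpa [kl, kp1, kp2] using h
    linear_combination (-g 0 2) * e1 + (-1 * g 2 2) * e2 - (-1 * g 1 2) * e3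
  have h12 : g 1 2 = 0 := by
    have e1 : g 0 0 * g 2 2 - g 0 2 * g 2 0 = 1 := by
      have h := congrFun (congrFun hk (.inl 1)) (.inl 1)
      simpa [kl, kp1, kp2] using h
    have e2 : g 0 0 * g 1 2 - g 0 2 * g 1 0 = 0 := by
      have h := congrFun (congrFun hk (.inl 0)) (.inl 1)
      simpa [kl, kp1, kp2] using h
    have e3 : g 1 0 * g 2 2 - g 1 2 * g 2 0 = 0 := by
      have h := congrFun (congrFun hk (.inr 2)) (.inl 1)
      simpa [kl, kp1, kp2] using h
    linear_combination (-g 1 2) * e1 + (1 * g 2 2) * e2 - (-1 * g 0 2) * e3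
  have h32 : g 3 2 = 0 := by
    have e1 : g 0 0 * g 2 2 - g 0 2 * g 2 0 = 1 := by
      have h := congrFun (congrFun hk (.inl 1)) (.inl 1)
      simpa [kl, kp1, kp2] using h
    have e2 : g 0 0 * g 3 2 - g 0 2 * g 3 0 = 0 := by
      have h := congrFun (congrFun hk (.inl 2)) (.inl 1)
      simpa [kl, kp1, kp2] using h
    have e3 : g 2 0 * g 3 2 - g 2 2 * g 3 0 = 0 := by
      have h := congrFun (congrFun hk (.inr 0)) (.inl 1)
      simpa [kl, kp1, kp2] using h
    linear_combination (-g 3 2) * e1 + (1 * g 2 2) * e2 - (1 * g 0 2) * e3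
  have h03 : g 0 3 = 0 := by
    have e1 : g 3 3 * g 1 1 - g 3 1 * g 1 3 = 1 := by
      have h := congrFun (congrFun hk (.inr 1)) (.inr 1)
      simpa [kl, kp1, kp2] using h
    have e2 : g 0 3 * g 1 1 - g 0 1 * g 1 3 = 0 := by
      have h := congrFun (congrFun hk (.inl 0)) (.inr 1)
      simpa [kl, kp1, kp2] using h
    have e3 : g 0 3 * g 3 1 - g 0 1 * g 3 3 = 0 := by
      have h := congrFun (congrFun hk (.inl 2)) (.inr 1)
      simpa [kl, kp1, kp2] using h
    linear_combination (-g 0 3) * e1 + (1 * g 3 3) * e2 - (1 * g 1 3) * e3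
  have h13 : g 1 3 = 0 := by
    have e1 : g 0 0 * g 3 3 - g 0 3 * g 3 0 = 1 := by
      have h := congrFun (congrFun hk (.inl 2)) (.inl 2)
      simpa [kl, kp1, kp2] using h
    have e2 : g 0 0 * g 1 3 - g 0 3 * g 1 0 = 0 := by
      have h := congrFun (congrFun hk (.inl 0)) (.inl 2)
      simpa [kl, kp1, kp2] using h
    have e3 : g 3 0 * g 1 3 - g 3 3 * g 1 0 = 0 := by
      have h := congrFun (congrFun hk (.inr 1)) (.inl 2)
      simpa [kl, kp1, kp2] using h
    linear_combination (-g 1 3) * e1 + (1 * g 3 3) * e2 - (1 * g 0 3) * e3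
  have h23 : g 2 3 = 0 := by
    have e1 : g 0 0 * g 3 3 - g 0 3 * g 3 0 = 1 := by
      have h := congrFun (congrFun hk (.inl 2)) (.inl 2)
      simpa [kl, kp1, kp2] using h
    have e2 : g 0 0 * g 2 3 - g 0 3 * g 2 0 = 0 := by
      have h := congrFun (congrFun hk (.inl 1)) (.inl 2)
      simpa [kl, kp1, kp2] using h
    have e3 : g 2 0 * g 3 3 - g 2 3 * g 3 0 = 0 := by
      have h := congrFun (congrFun hk (.inr 0)) (.inl 2)
      simpa [kl, kp1, kp2] using h
    linear_combination (-g 2 3) * e1 + (1 * g 3 3) * e2 - (-1 * g 0 3) * e3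
  have d01 : g 0 0 * g 1 1 = 1 := by
    have e1 : g 0 0 * g 1 1 - g 0 1 * g 1 0 = 1 := by
      have h := congrFun (congrFun hk (.inl 0)) (.inl 0)
      simpa [kl, kp1, kp2] using h
    rw [h01] at e1
    linear_combination e1
  have d23 : g 2 2 * g 3 3 = 1 := by
    have e1 : g 2 2 * g 3 3 - g 2 3 * g 3 2 = 1 := by
      have h := congrFun (congrFun hk (.inr 0)) (.inr 0)
      simpa [kl, kp1, kp2] using h
    rw [h23] at e1
    linear_combination e1
  refine ⟨?_, d01, d23⟩
  intro c a hca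
  fin_cases c <;> fin_cases a <;> first | exact absurd rfl hca | assumption

end Klein

end Cfsg.Agent.Helper6
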