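import Mathlib

set_option autoImplicit false

namespace Cfsg.Agent.Helper6

open QuadraticMap

section HypFrames

variable {F : Type*} [Field F] {V : Type*} [AddCommGroup V] [Module F V]

theorem qf_hyp (Q : QuadraticForm F V) (u v x : V) (a b : F) (hu : Q u = 0) (hv : Q v = 0)
    (huv : polar Q u v = 1) (hux : polar Q u x = 0) (hvx : polar Q v x = 0) :
    Q (a • u + b • v + x) = a * b + Q x := by
  rw [QuadraticMap.map_add (⇑Q) (a • u + b • v) x, QuadraticMap.map_add (⇑Q) (a • u) (b • v)]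
  simp only [QuadraticMap.map_smul, polar_add_left, polar_smul_left, polar_smul_right, hu, hv,
    huv, hux, hvx, smul_eq_mul]
  ring

theorem qf_add_smul (Q : QuadraticForm F V) (x u : V) (t : F) :
    Q (x + t • u) = Q x + t * t * Q u + t * polar Q x u := by
  rw [QuadraticMap.map_add (⇑Q) x (t • u)]
  simp only [QuadraticMap.map_smul, polar_smul_right, smul_eq_mul]

/-- nondegeneracy of the polar form on a submodule -/
def NDon (Q : QuadraticForm F V) (W : Submodule F V) : Prop :=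
  ∀ x ∈ W, x ≠ 0 → ∃ y ∈ W, polar Q x y ≠ 0

/-- the orthogonal complement in `W` of a pair -/
def cp (Q : QuadraticForm F V) (W : Submodule F V) (u v : V) : Submodule F V where
  carrier := {x | x ∈ W ∧ polar Q u x = 0 ∧ polar Q v x = 0}
  add_mem' := by
    rintro x y ⟨hx, hx1, hx2⟩ ⟨hy, hy1, hy2⟩
    exact ⟨W.add_mem hx hy, by rw [polar_add_right, hx1, hy1, add_zero],
      by rw [polar_add_right, hx2, hy2, add_zero]⟩
  zero_mem' := ⟨W.zero_mem, polar_zero_right Q u, polar_zero_right Q v⟩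
  smul_mem' := by
    rintro a x ⟨hx, hx1, hx2⟩
    exact ⟨W.smul_mem a hx, by rw [polar_smul_right, hx1, smul_zero],
      by rw [polar_smul_right, hx2, smul_zero]⟩

theorem mem_cp (Q : QuadraticForm F V) (W : Submodule F V) (u v x : V) :
    x ∈ cp Q W u v ↔ x ∈ W ∧ polar Q u x = 0 ∧ polar Q v x = 0 := Iff.rfl

theorem cp_proj (Q : QuadraticForm F V) (W : Submodule F V) (u v : V) (hu : u ∈ W) (hv : v ∈ W)
    (hQu : Q u = 0) (hQv : Q v = 0) (huv : polar Q u v = 1) (x : V) (hx : x ∈ W) :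
    x - polar Q x v • u - polar Q x u • v ∈ cp Q W u v := by
  have h1 : polar Q u u = 0 := by rw [polar_self, hQu, smul_zero]
  have h2 : polar Q v v = 0 := by rw [polar_self, hQv, smul_zero]
  have h3 : polar Q v u = 1 := by rw [polar_comm, huv]
  refine ⟨W.sub_mem (W.sub_mem hx (W.smul_mem _ hu)) (W.smul_mem _ hv), ?_, ?_⟩
  · simp only [polar_sub_right, polar_smul_right, h1, huv, smul_eq_mul, mul_zero, mul_one,
      sub_zero]
    rw [polar_comm (⇑Q) x u, sub_self]
  · simp only [polar_sub_right, polar_smul_right, h2, h3, smul_eq_mul, mul_zero, mul_one,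
      sub_zero]
    rw [polar_comm (⇑Q) x v, sub_self]

/-- decomposition of `W` along a hyperbolic pair -/
noncomputable def cpEquiv (Q : QuadraticForm F V) (W : Submodule F V) (u v : V) (hu : u ∈ W)
    (hv : v ∈ W) (hQu : Q u = 0) (hQv : Q v = 0) (huv : polar Q u v = 1) :
    ↥W ≃ F × F × ↥(cp Q W u v) where
  toFun x := (polar Q x.1 v, polar Q x.1 u,
    ⟨x.1 - polar Q x.1 v • u - polar Q x.1 u • v, cp_proj Q W u v hu hv hQu hQv huv x.1 x.2⟩)
  invFun t := ⟨t.1 • u + t.2.1 • v + t.2.2.1,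
    W.add_mem (W.add_mem (W.smul_mem _ hu) (W.smul_mem _ hv)) t.2.2.2.1⟩
  left_inv x := Subtype.ext (by
    show polar Q x.1 v • u + polar Q x.1 u • v + (x.1 - polar Q x.1 v • u - polar Q x.1 u • v)
      = x.1
    abel)
  right_inv t := by
    obtain ⟨a, b, ⟨x', hx', hux, hvx⟩⟩ := t
    have h1 : polar Q u u = 0 := by rw [polar_self, hQu, smul_zero]
    have h2 : polar Q v v = 0 := by rw [polar_self, hQv, smul_zero]
    have h3 : polar Q v u = 1 := by rw [polar_comm, huv]
    have h4 : polar Q x' v = 0 := by rw [polar_comm, hvx]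
    have h5 : polar Q x' u = 0 := by rw [polar_comm, hux]
    have e1 : polar Q (a • u + b • v + x') v = a := by
      simp only [polar_add_left, polar_smul_left, huv, h2, h4, smul_eq_mul, mul_zero, mul_one,
        add_zero]
    have e2 : polar Q (a • u + b • v + x') u = b := by
      simp only [polar_add_left, polar_smul_left, h1, h3, h5, smul_eq_mul, mul_zero, mul_one,
        add_zero, zero_add]
    refine Prod.ext e1 (Prod.ext e2 (Subtype.ext ?_))
    show a • u + b • v + x' - polar Q (a • u + b • v + x') v • u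
      - polar Q (a • u + b • v + x') u • v = x'
    rw [e1, e2]
    abel

theorem cp_card [Fintype F] [Finite V] (Q : QuadraticForm F V) (W : Submodule F V) (u v : V)
    (hu : u ∈ W) (hv : v ∈ W) (hQu : Q u = 0) (hQv : Q v = 0) (huv : polar Q u v = 1) :
    Nat.card ↥W = Fintype.card F * Fintype.card F * Nat.card ↥(cp Q W u v) := by
  rw [Nat.card_congr (cpEquiv Q W u v hu hv hQu hQv huv), Nat.card_prod, Nat.card_prod,
    Nat.card_eq_fintype_card (α := F), mul_assoc]

theorem cnt_mul [Fintype F] [DecidableEq F] (d : F) :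
    Nat.card {p : F × F // p.1 * p.2 = d}
      = (Fintype.card F - 1) + if d = 0 then Fintype.card F else 0 := by
  have e : {p : F × F // p.1 * p.2 = d} ≃ (Σ a : F, {b : F // a * b = d}) :=
    { toFun := fun p => ⟨p.1.1, ⟨p.1.2, p.2⟩⟩
      invFun := fun s => ⟨(s.1, s.2.1), s.2.2⟩
      left_inv := fun p => rfl
      right_inv := fun s => rfl }
  rw [Nat.card_congr e, Nat.card_sigma,
    ← Finset.add_sum_erase Finset.univ _ (Finset.mem_univ (0 : F))]
  have h0 : Nat.card {b : F // (0 : F) * b = d} = if d = 0 then Fintype.card F else 0 := by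
    split_ifs with hd
    · rw [← Nat.card_eq_fintype_card]
      exact Nat.card_congr (Equiv.subtypeUnivEquiv (fun b => by rw [zero_mul, hd]))
    · haveI : IsEmpty {b : F // (0 : F) * b = d} := ⟨fun b => hd (by rw [← b.2, zero_mul])⟩
      exact Nat.card_of_isEmpty
  have h1 : ∀ a ∈ Finset.univ.erase (0 : F), Nat.card {b : F // a * b = d} = 1 := by
    intro a ha
    have ha0 : a ≠ 0 := Finset.ne_of_mem_erase ha
    rw [Nat.card_eq_one_iff_unique]
    exact ⟨⟨fun b c => Subtype.ext (mul_left_cancel₀ ha0 (b.2.trans c.2.symm))⟩,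
      ⟨⟨d / a, by field_simp⟩⟩⟩
  rw [h0, Finset.sum_congr rfl h1, Finset.sum_const, Finset.card_erase_of_mem (Finset.mem_univ _),
    Finset.card_univ, smul_eq_mul, mul_one, add_comm]

theorem cp_count [Fintype F] [Finite V] (Q : QuadraticForm F V) (W : Submodule F V) (u v : V)
    (hu : u ∈ W) (hv : v ∈ W) (hQu : Q u = 0) (hQv : Q v = 0) (huv : polar Q u v = 1) (c : F) :
    Nat.card {x : ↥W // Q x.1 = c}
      = Fintype.card F * Nat.card {x : ↥(cp Q W u v) // Q x.1 = c}
        + (Fintype.card F - 1) * Nat.card ↥(cp Q W u v) := by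
  classical
  have e1 : {x : ↥W // Q x.1 = c} ≃
      {t : F × F × ↥(cp Q W u v) // t.1 * t.2.1 + Q t.2.2.1 = c} :=
    (Equiv.subtypeEquiv (cpEquiv Q W u v hu hv hQu hQv huv).symm (fun t => by
      show t.1 * t.2.1 + Q t.2.2.1 = c ↔ Q (t.1 • u + t.2.1 • v + t.2.2.1) = c
      rw [qf_hyp Q u v t.2.2.1 t.1 t.2.1 hQu hQv huv t.2.2.2.2.1 t.2.2.2.2.2])).symm
  have e2 : {t : F × F × ↥(cp Q W u v) // t.1 * t.2.1 + Q t.2.2.1 = c} ≃
      (Σ x : ↥(cp Q W u v), {p : F × F // p.1 * p.2 = c - Q x.1}) :=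
    { toFun := fun t => ⟨t.1.2.2, ⟨(t.1.1, t.1.2.1), eq_sub_iff_add_eq.mpr t.2⟩⟩
      invFun := fun s => ⟨(s.2.1.1, s.2.1.2, s.1), eq_sub_iff_add_eq.mp s.2.2⟩
      left_inv := fun t => rfl
      right_inv := fun s => rfl }
  haveI : Fintype ↥(cp Q W u v) := Fintype.ofFinite _
  have hiff : ∀ x : ↥(cp Q W u v), (c - Q x.1 = 0) ↔ (Q x.1 = c) := fun x => by
    rw [sub_eq_zero, eq_comm]
  rw [Nat.card_congr (e1.trans e2), Nat.card_sigma]
  simp only [cnt_mul, hiff]
  rw [Finset.sum_add_distrib, Finset.sum_const, Finset.card_univ, smul_eq_mul,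
    ← Finset.sum_filter, Finset.sum_const, smul_eq_mul, ← Fintype.card_subtype]
  simp only [Fintype.card_eq_nat_card]
  ring

theorem cp_ND (Q : QuadraticForm F V) (W : Submodule F V) (u v : V) (hu : u ∈ W) (hv : v ∈ W)
    (hQu : Q u = 0) (hQv : Q v = 0) (huv : polar Q u v = 1) (hW : NDon Q W) :
    NDon Q (cp Q W u v) := by
  rintro x ⟨hx, hux, hvx⟩ hx0
  obtain ⟨y, hy, hxy⟩ := hW x hx hx0
  refine ⟨_, cp_proj Q W u v hu hv hQu hQv huv y hy, ?_⟩
  have h4 : polar Q x v = 0 := by rw [polar_comm, hvx]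
  have h5 : polar Q x u = 0 := by rw [polar_comm, hux]
  simp only [polar_sub_right, polar_smul_right, h4, h5, smul_eq_mul, mul_zero, sub_zero]
  exact hxy

/-- hyperbolic pairs in `W` -/
def HPs (Q : QuadraticForm F V) (W : Submodule F V) : Set (V × V) :=
  {p | p.1 ∈ W ∧ p.2 ∈ W ∧ Q p.1 = 0 ∧ Q p.2 = 0 ∧ polar Q p.1 p.2 = 1}

theorem hp_fiber [Fintype F] [Finite V] (Q : QuadraticForm F V) (W : Submodule F V)
    (hW : NDon Q W) (u : V) (hu : u ∈ W) (hQu : Q u = 0) (hu0 : u ≠ 0) :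
    Nat.card {v : ↥W // Q v.1 = 0 ∧ polar Q u v.1 = 1} * (Fintype.card F * Fintype.card F)
      = Nat.card ↥W := by
  obtain ⟨y, hy, hxy⟩ := hW u hu hu0
  obtain ⟨y0, hy0, huy0⟩ : ∃ y0 ∈ W, polar Q u y0 = 1 :=
    ⟨(polar Q u y)⁻¹ • y, W.smul_mem _ hy, by
      rw [polar_smul_right, smul_eq_mul, inv_mul_cancel₀ hxy]⟩
  have h1 : polar Q u u = 0 := by rw [polar_self, hQu, smul_zero]
  have ea : {v : ↥W // Q v.1 = 0 ∧ polar Q u v.1 = 1} × F ≃ {v : ↥W // polar Q u v.1 = 1} :=
    { toFun := fun t => ⟨⟨t.1.1.1 + t.2 • u, W.add_mem t.1.1.2 (W.smul_mem _ hu)⟩, by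
        show polar Q u (t.1.1.1 + t.2 • u) = 1
        rw [polar_add_right, polar_smul_right, h1, smul_zero, add_zero, t.1.2.2]⟩
      invFun := fun v => (⟨⟨v.1.1 + (-Q v.1.1) • u, W.add_mem v.1.2 (W.smul_mem _ hu)⟩, by
        constructor
        · show Q (v.1.1 + (-Q v.1.1) • u) = 0
          rw [qf_add_smul, hQu, polar_comm, v.2]
          ring
        · show polar Q u (v.1.1 + (-Q v.1.1) • u) = 1
          rw [polar_add_right, polar_smul_right, h1, smul_zero, add_zero, v.2]⟩, Q v.1.1)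
      left_inv := fun t => by
        have h : Q (t.1.1.1 + t.2 • u) = t.2 := by
          rw [qf_add_smul, hQu, polar_comm, t.1.2.2, t.1.2.1]
          ring
        refine Prod.ext (Subtype.ext (Subtype.ext ?_)) h
        show t.1.1.1 + t.2 • u + (-Q (t.1.1.1 + t.2 • u)) • u = t.1.1.1
        rw [h, neg_smul, add_neg_cancel_right]
      right_inv := fun v => Subtype.ext (Subtype.ext (by
        show v.1.1 + (-Q v.1.1) • u + Q v.1.1 • u = v.1.1
        rw [neg_smul, neg_add_cancel_right])) }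
  have eb : {v : ↥W // polar Q u v.1 = 1} × F ≃ ↥W :=
    { toFun := fun t => ⟨t.1.1.1 + (t.2 - 1) • y0, W.add_mem t.1.1.2 (W.smul_mem _ hy0)⟩
      invFun := fun x => (⟨⟨x.1 - (polar Q u x.1 - 1) • y0,
          W.sub_mem x.2 (W.smul_mem _ hy0)⟩, by
          show polar Q u (x.1 - (polar Q u x.1 - 1) • y0) = 1
          rw [polar_sub_right, polar_smul_right, huy0, smul_eq_mul, mul_one]
          ring⟩, polar Q u x.1)
      left_inv := fun t => by
        have h : polar Q u (t.1.1.1 + (t.2 - 1) • y0) = t.2 := by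
          rw [polar_add_right, polar_smul_right, huy0, t.1.2, smul_eq_mul, mul_one]
          ring
        refine Prod.ext (Subtype.ext (Subtype.ext ?_)) h
        show t.1.1.1 + (t.2 - 1) • y0 - (polar Q u (t.1.1.1 + (t.2 - 1) • y0) - 1) • y0
          = t.1.1.1
        rw [h, add_sub_cancel_right]
      right_inv := fun x => Subtype.ext (sub_add_cancel _ _) }
  rw [← Nat.card_congr eb, Nat.card_prod, ← Nat.card_congr ea, Nat.card_prod,
    Nat.card_eq_fintype_card (α := F)]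
  ring

theorem hp_card [Fintype F] [Finite V] (Q : QuadraticForm F V) (W : Submodule F V)
    (hW : NDon Q W) :
    Nat.card (HPs Q W) * (Fintype.card F * Fintype.card F)
      = (Nat.card {x : ↥W // Q x.1 = 0} - 1) * Nat.card ↥W := by
  classical
  have e : ↥(HPs Q W) ≃ (Σ u : {u : ↥W // Q u.1 = 0 ∧ u ≠ 0},
      {v : ↥W // Q v.1 = 0 ∧ polar Q u.1.1 v.1 = 1}) :=
    { toFun := fun p => ⟨⟨⟨p.1.1, p.2.1⟩, p.2.2.2.1, by
          intro h0
          have h := p.2.2.2.2.2
          have h0' : p.1.1 = 0 := congrArg Subtype.val h0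
          rw [h0', polar_zero_left] at h
          exact zero_ne_one h⟩, ⟨⟨p.1.2, p.2.2.1⟩, p.2.2.2.2.1, p.2.2.2.2.2⟩⟩
      invFun := fun s => ⟨(s.1.1.1, s.2.1.1), s.1.1.2, s.2.1.2, s.1.2.1, s.2.2.1, s.2.2.2⟩
      left_inv := fun p => rfl
      right_inv := fun s => rfl }
  haveI : Fintype {u : ↥W // Q u.1 = 0 ∧ u ≠ 0} := Fintype.ofFinite _
  rw [Nat.card_congr e, Nat.card_sigma, Finset.sum_mul]
  rw [Finset.sum_congr rfl (fun u _ => hp_fiber Q W hW u.1.1 u.1.2 u.2.1
    (fun h => u.2.2 (Subtype.ext h)))]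
  rw [Finset.sum_const, Finset.card_univ, smul_eq_mul, ← Nat.card_eq_fintype_card]
  congr 1
  have h0 : (0 : ↥W) ∈ {x : ↥W | Q x.1 = 0} := by
    show Q (0 : V) = 0
    exact QuadraticMap.map_zero Q
  have h := Set.ncard_sdiff_singleton_of_mem h0
  rw [← Nat.card_coe_set_eq, ← Nat.card_coe_set_eq] at h
  exact h

/-- hyperbolic orthogonal families -/
def frm (Q : QuadraticForm F V) (j : ℕ) : Set ((Fin j → V) × (Fin j → V)) :=
  {p | (∀ i k, polar Q (p.1 i) (p.1 k) = 0) ∧ (∀ i k, polar Q (p.2 i) (p.2 k) = 0) ∧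
    (∀ i k, polar Q (p.1 i) (p.2 k) = if i = k then 1 else 0) ∧ (∀ i, Q (p.1 i) = 0) ∧
    (∀ i, Q (p.2 i) = 0)}

/-- orthogonal complement of a family -/
def cpl (Q : QuadraticForm F V) {j : ℕ} (u v : Fin j → V) : Submodule F V where
  carrier := {x | ∀ i, polar Q (u i) x = 0 ∧ polar Q (v i) x = 0}
  add_mem' := by
    intro x y hx hy i
    exact ⟨by rw [polar_add_right, (hx i).1, (hy i).1, add_zero],
      by rw [polar_add_right, (hx i).2, (hy i).2, add_zero]⟩
  zero_mem' := fun i => ⟨polar_zero_right Q _, polar_zero_right Q _⟩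
  smul_mem' := by
    intro a x hx i
    exact ⟨by rw [polar_smul_right, (hx i).1, smul_zero],
      by rw [polar_smul_right, (hx i).2, smul_zero]⟩

theorem mem_cpl (Q : QuadraticForm F V) {j : ℕ} (u v : Fin j → V) (x : V) :
    x ∈ cpl Q u v ↔ ∀ i, polar Q (u i) x = 0 ∧ polar Q (v i) x = 0 := Iff.rfl

theorem cpl_cons (Q : QuadraticForm F V) {j : ℕ} (u0 v0 : V) (u v : Fin j → V) :
    cpl Q (Fin.cons u0 u : Fin (j + 1) → V) (Fin.cons v0 v : Fin (j + 1) → V)
      = cp Q (cpl Q u v) u0 v0 := by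
  ext x
  rw [mem_cpl, mem_cp, mem_cpl, Fin.forall_fin_succ]
  simp only [Fin.cons_zero, Fin.cons_succ]
  tauto

theorem frm_cons_iff (Q : QuadraticForm F V) {j : ℕ} (u0 v0 : V) (u v : Fin j → V) :
    ((Fin.cons u0 u : Fin (j + 1) → V), (Fin.cons v0 v : Fin (j + 1) → V)) ∈ frm Q (j + 1) ↔
      (u, v) ∈ frm Q j ∧ (u0, v0) ∈ HPs Q (cpl Q u v) := by
  constructor
  · rintro ⟨h1, h2, h3, h4, h5⟩
    refine ⟨⟨fun i k => ?_, fun i k => ?_, fun i k => ?_, fun i => ?_, fun i => ?_⟩,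
      ⟨fun i => ⟨?_, ?_⟩, fun i => ⟨?_, ?_⟩, ?_, ?_, ?_⟩⟩
    · simpa using h1 i.succ k.succ
    · simpa using h2 i.succ k.succ
    · simpa using h3 i.succ k.succ
    · simpa using h4 i.succ
    · simpa using h5 i.succ
    · simpa using h1 i.succ 0
    · have h := h3 0 i.succ
      rw [if_neg (Fin.succ_ne_zero i).symm] at h
      rw [polar_comm]
      simpa using h
    · have h := h3 i.succ 0
      rw [if_neg (Fin.succ_ne_zero i)] at h
      simpa using h
    · simpa using h2 i.succ 0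
    · simpa using h4 0
    · simpa using h5 0
    · simpa using h3 0 0
  · rintro ⟨⟨h1, h2, h3, h4, h5⟩, ⟨hu0, hv0, hQu, hQv, huv⟩⟩
    have huu : polar Q u0 u0 = 0 := by rw [polar_self, hQu, smul_zero]
    have hvv : polar Q v0 v0 = 0 := by rw [polar_self, hQv, smul_zero]
    refine ⟨?_, ?_, ?_, ?_, ?_⟩
    · intro i k
      rcases Fin.eq_zero_or_eq_succ i with rfl | ⟨i, rfl⟩ <;>
        rcases Fin.eq_zero_or_eq_succ k with rfl | ⟨k, rfl⟩
      · simpa using huu
      · simp only [Fin.cons_zero, Fin.cons_succ]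
        rw [polar_comm]
        exact (hu0 k).1
      · simp only [Fin.cons_zero, Fin.cons_succ]
        exact (hu0 i).1
      · simp only [Fin.cons_succ]
        exact h1 i k
    · intro i k
      rcases Fin.eq_zero_or_eq_succ i with rfl | ⟨i, rfl⟩ <;>
        rcases Fin.eq_zero_or_eq_succ k with rfl | ⟨k, rfl⟩
      · simpa using hvv
      · simp only [Fin.cons_zero, Fin.cons_succ]
        rw [polar_comm]
        exact (hv0 k).2
      · simp only [Fin.cons_zero, Fin.cons_succ]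
        exact (hv0 i).2
      · simp only [Fin.cons_succ]
        exact h2 i k
    · intro i k
      rcases Fin.eq_zero_or_eq_succ i with rfl | ⟨i, rfl⟩ <;>
        rcases Fin.eq_zero_or_eq_succ k with rfl | ⟨k, rfl⟩
      · simpa using huv
      · rw [if_neg (Fin.succ_ne_zero k).symm]
        simp only [Fin.cons_zero, Fin.cons_succ]
        rw [polar_comm]
        exact (hu0 k).2
      · rw [if_neg (Fin.succ_ne_zero i)]
        simp only [Fin.cons_zero, Fin.cons_succ]
        exact (hv0 i).1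
      · simp only [Fin.cons_succ, Fin.succ_inj]
        exact h3 i k
    · intro i
      rcases Fin.eq_zero_or_eq_succ i with rfl | ⟨i, rfl⟩
      · simpa using hQu
      · simpa using h4 i
    · intro i
      rcases Fin.eq_zero_or_eq_succ i with rfl | ⟨i, rfl⟩
      · simpa using hQv
      · simpa using h5 i

theorem frm_card_succ [Fintype F] [Finite V] (Q : QuadraticForm F V) (j : ℕ) (a w : ℕ)
    (hND : ∀ p ∈ frm Q j, NDon Q (cpl Q p.1 p.2))
    (ha : ∀ p ∈ frm Q j, Nat.card {x : ↥(cpl Q p.1 p.2) // Q x.1 = 0} = a)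
    (hw : ∀ p ∈ frm Q j, Nat.card ↥(cpl Q p.1 p.2) = w) :
    Nat.card (frm Q (j + 1)) * (Fintype.card F * Fintype.card F)
      = Nat.card (frm Q j) * ((a - 1) * w) := by
  classical
  have e1 : ↥(frm Q (j + 1)) ≃ {t : (V × V) × ((Fin j → V) × (Fin j → V)) //
      t.2 ∈ frm Q j ∧ t.1 ∈ HPs Q (cpl Q t.2.1 t.2.2)} :=
    { toFun := fun p => ⟨((p.1.1 0, p.1.2 0), (Fin.tail p.1.1, Fin.tail p.1.2)), by
        have h := p.2
        have h' : ((Fin.cons (p.1.1 0) (Fin.tail p.1.1) : Fin (j + 1) → V),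
            (Fin.cons (p.1.2 0) (Fin.tail p.1.2) : Fin (j + 1) → V)) ∈ frm Q (j + 1) := by
          rw [Fin.cons_self_tail, Fin.cons_self_tail]
          exact h
        exact (frm_cons_iff Q _ _ _ _).1 h'⟩
      invFun := fun t => ⟨(Fin.cons t.1.1.1 t.1.2.1, Fin.cons t.1.1.2 t.1.2.2),
        (frm_cons_iff Q _ _ _ _).2 t.2⟩
      left_inv := fun p => Subtype.ext (Prod.ext (Fin.cons_self_tail _) (Fin.cons_self_tail _))
      right_inv := fun t => Subtype.ext (Prod.ext (Prod.ext rfl rfl) (Prod.ext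
        (by
          show Fin.tail (Fin.cons t.1.1.1 t.1.2.1 : Fin (j + 1) → V) = t.1.2.1
          exact Fin.tail_cons _ _)
        (by
          show Fin.tail (Fin.cons t.1.1.2 t.1.2.2 : Fin (j + 1) → V) = t.1.2.2
          exact Fin.tail_cons _ _))) }
  have e2 : {t : (V × V) × ((Fin j → V) × (Fin j → V)) //
      t.2 ∈ frm Q j ∧ t.1 ∈ HPs Q (cpl Q t.2.1 t.2.2)} ≃
      (Σ p : ↥(frm Q j), ↥(HPs Q (cpl Q p.1.1 p.1.2))) :=
    { toFun := fun t => ⟨⟨t.1.2, t.2.1⟩, ⟨t.1.1, t.2.2⟩⟩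
      invFun := fun s => ⟨(s.2.1, s.1.1), ⟨s.1.2, s.2.2⟩⟩
      left_inv := fun t => rfl
      right_inv := fun s => rfl }
  haveI : Fintype ↥(frm Q j) := Fintype.ofFinite _
  rw [Nat.card_congr (e1.trans e2), Nat.card_sigma, Finset.sum_mul]
  rw [Finset.sum_congr rfl (fun p _ => by
    rw [hp_card Q _ (hND p.1 p.2), ha p.1 p.2, hw p.1 p.2])]
  rw [Finset.sum_const, Finset.card_univ, smul_eq_mul, ← Nat.card_eq_fintype_card]

theorem frm_props' [Fintype F] [Finite V] (Q : QuadraticForm F V)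
    (hND : ∀ x : V, x ≠ 0 → ∃ y, polar Q x y ≠ 0) :
    ∀ (j : ℕ) (u v : Fin j → V), (u, v) ∈ frm Q j →
      NDon Q (cpl Q u v) ∧
      Nat.card ↥(cpl Q u v) * Fintype.card F ^ (2 * j) = Nat.card V ∧
      ∀ c : F, Fintype.card F * Nat.card {x : V // Q x = c}
          + Fintype.card F ^ j * Nat.card ↥(cpl Q u v)
        = Fintype.card F ^ (j + 1) * Nat.card {x : ↥(cpl Q u v) // Q x.1 = c} + Nat.card V := by
  intro j
  induction j with
  | zero =>
    intro u v _
    have hall : ∀ x : V, x ∈ cpl Q u v := fun x i => i.elim0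
    have e1 : ↥(cpl Q u v) ≃ V := Equiv.subtypeUnivEquiv hall
    refine ⟨?_, ?_, ?_⟩
    · intro x _ hx0
      obtain ⟨y, hy⟩ := hND x hx0
      exact ⟨y, hall y, hy⟩
    · rw [Nat.card_congr e1]
      simp
    · intro c
      have e2 : {x : ↥(cpl Q u v) // Q x.1 = c} ≃ {x : V // Q x = c} :=
        { toFun := fun x => ⟨x.1.1, x.2⟩
          invFun := fun y => ⟨⟨y.1, hall y.1⟩, y.2⟩
          left_inv := fun x => rfl
          right_inv := fun y => rfl }
      rw [Nat.card_congr e1, Nat.card_congr e2]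
      simp
  | succ j ih =>
    intro pu pv hp
    obtain ⟨u0, u, rfl⟩ : ∃ u0 u, pu = (Fin.cons u0 u : Fin (j + 1) → V) :=
      ⟨pu 0, Fin.tail pu, (Fin.cons_self_tail pu).symm⟩
    obtain ⟨v0, v, rfl⟩ : ∃ v0 v, pv = (Fin.cons v0 v : Fin (j + 1) → V) :=
      ⟨pv 0, Fin.tail pv, (Fin.cons_self_tail pv).symm⟩
    obtain ⟨huv, hu0, hv0, hQu, hQv, hB⟩ := (frm_cons_iff Q u0 v0 u v).1 hp
    obtain ⟨ih1, ih2, ih3⟩ := ih u v huv
    rw [cpl_cons]
    have k1 := cp_card Q (cpl Q u v) u0 v0 hu0 hv0 hQu hQv hB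
    refine ⟨cp_ND Q _ u0 v0 hu0 hv0 hQu hQv hB ih1, ?_, ?_⟩
    · rw [← ih2, k1]
      ring
    · intro c
      have k2 := cp_count Q (cpl Q u v) u0 v0 hu0 hv0 hQu hQv hB c
      have h3 := ih3 c
      rw [k1, k2] at h3
      obtain ⟨q', hq'⟩ : ∃ q', Fintype.card F = q' + 1 :=
        ⟨Fintype.card F - 1, by have := Fintype.card_pos (α := F); omega⟩
      rw [hq'] at h3 ⊢
      rw [Nat.add_sub_cancel] at h3
      zify at h3 ⊢
      linear_combination h3

theorem frm_gen [Fintype F] [Finite V] (Q : QuadraticForm F V)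
    (hND : ∀ x : V, x ≠ 0 → ∃ y, polar Q x y ≠ 0) (m d0 : ℕ)
    (hV : Nat.card V = Fintype.card F ^ (2 * m + d0))
    (us vs : Fin m → V) (hps : (us, vs) ∈ frm Q m)
    (hani : Nat.card {x : ↥(cpl Q us vs) // Q x.1 = 0} = 1)
    (ζ : ℕ → ℕ) (hζ : ∀ r, Fintype.card F * ζ r + Fintype.card F ^ (r + d0)
      = Fintype.card F ^ (r + 1) + Fintype.card F ^ (2 * r + d0)) :
    (∀ j, j ≤ m → Nat.card (frm Q j) * Fintype.card F ^ (2 * j)
      = ∏ i ∈ Finset.range j, ((ζ (m - i) - 1) * Fintype.card F ^ (2 * (m - i) + d0))) ∧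
    (∀ u v : Fin m → V, (u, v) ∈ frm Q m → ∀ c : F,
      Nat.card {x : ↥(cpl Q u v) // Q x.1 = c}
        = Nat.card {x : ↥(cpl Q us vs) // Q x.1 = c}) := by
  classical
  have hq : 0 < Fintype.card F := Fintype.card_pos
  obtain ⟨s1, s2, s3⟩ := frm_props' Q hND m us vs hps
  rw [hV] at s2 s3
  have hw0 : Nat.card ↥(cpl Q us vs) = Fintype.card F ^ d0 := by
    apply Nat.eq_of_mul_eq_mul_right (pow_pos hq (2 * m))
    rw [s2, ← pow_add]
    congr 1
    omega
  have hstar := s3 0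
  rw [hani, hw0] at hstar
  have claim : ∀ j, j ≤ m → ∀ u v : Fin j → V, (u, v) ∈ frm Q j →
      Nat.card ↥(cpl Q u v) = Fintype.card F ^ (2 * (m - j) + d0) ∧
      Nat.card {x : ↥(cpl Q u v) // Q x.1 = 0} = ζ (m - j) := by
    intro j hj u v huv
    obtain ⟨t1, t2, t3⟩ := frm_props' Q hND j u v huv
    rw [hV] at t2 t3
    obtain ⟨r, rfl⟩ : ∃ r, m = j + r := ⟨m - j, by omega⟩
    have e : j + r - j = r := by omega
    rw [e]
    have hw : Nat.card ↥(cpl Q u v) = Fintype.card F ^ (2 * r + d0) := by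
      apply Nat.eq_of_mul_eq_mul_right (pow_pos hq (2 * j))
      rw [t2, ← pow_add]
      congr 1
      omega
    refine ⟨hw, ?_⟩
    have h0 := t3 0
    rw [hw] at h0
    have hz := hζ r
    apply Nat.eq_of_mul_eq_mul_left (pow_pos hq (j + 1))
    zify at h0 hstar hz ⊢
    linear_combination (-1 : ℤ) * h0 + hstar - (Fintype.card F : ℤ) ^ j * hz
  refine ⟨?_, ?_⟩
  · intro j
    induction j with
    | zero =>
      intro _
      rw [Finset.prod_range_zero, mul_zero, pow_zero, mul_one, Nat.card_eq_one_iff_unique]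
      exact ⟨⟨fun a b => Subtype.ext (Prod.ext (Subsingleton.elim _ _) (Subsingleton.elim _ _))⟩,
        ⟨⟨(fun i => i.elim0, fun i => i.elim0), fun i => i.elim0, fun i => i.elim0,
          fun i => i.elim0, fun i => i.elim0, fun i => i.elim0⟩⟩⟩
    | succ j ih =>
      intro hj
      have h1 := frm_card_succ Q j (ζ (m - j)) (Fintype.card F ^ (2 * (m - j) + d0))
        (fun p hp => (frm_props' Q hND j p.1 p.2 hp).1)
        (fun p hp => (claim j (by omega) p.1 p.2 hp).2)
        (fun p hp => (claim j (by omega) p.1 p.2 hp).1)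
      rw [Finset.prod_range_succ, ← ih (by omega)]
      have e : 2 * (j + 1) = 2 * j + 2 := by ring
      rw [e, pow_add, pow_two]
      calc Nat.card ↥(frm Q (j + 1)) * (Fintype.card F ^ (2 * j) * (Fintype.card F * Fintype.card F))
          = Nat.card ↥(frm Q (j + 1)) * (Fintype.card F * Fintype.card F)
              * Fintype.card F ^ (2 * j) := by ring
        _ = _ := by
          rw [h1]
          ring
  · intro u v huv c
    obtain ⟨t1, t2, t3⟩ := frm_props' Q hND m u v huv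
    have hw := (claim m le_rfl u v huv).1
    have h1 := t3 c
    have h2 := s3 c
    rw [hV, hw] at h1
    rw [hw0] at h2
    simp only [Nat.sub_self, mul_zero, zero_add] at h1
    apply Nat.eq_of_mul_eq_mul_left (pow_pos hq (m + 1))
    linarith

end HypFrames

end Cfsg.Agent.Helper6
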