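import Mathlib
import Cfsg.Prelude.Def_Classical
import Cfsg.Agent.Helper6.HypFrames

set_option autoImplicit false

namespace Cfsg.Agent.Helper6

open QuadraticMap

section OrthBridge

variable {F : Type*} [Field F]

theorem iso_card_eq {ι : Type} [Fintype ι] [DecidableEq ι]
    (Qf : QuadraticForm F (ι → F)) (hND : ∀ x : ι → F, x ≠ 0 → ∃ y, polar Qf x y ≠ 0)
    (Qfn : (ι → F) → F) (hfn : ∀ x, Qfn x = Qf x) :
    Nat.card ↥(Cfsg.isometryGroup F Qfn)
      = Nat.card {b : ι → (ι → F) // ∀ x : ι → F, Qf (∑ j, x j • b j) = Qf x} := by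
  have hmv : ∀ (M : Matrix ι ι F) (x : ι → F), M.mulVec x = ∑ j, x j • (fun i => M i j) := by
    intro M x
    ext i
    simp [Matrix.mulVec, dotProduct, mul_comm]
  have hmem : ∀ g : Matrix.GeneralLinearGroup ι F, g ∈ Cfsg.isometryGroup F Qfn ↔
      ∀ u, Qf ((g : Matrix ι ι F).mulVec u) = Qf u := by
    intro g
    constructor
    · intro h u
      have h' := h u u
      rw [← hfn, ← hfn]
      exact h'
    · intro h u _
      show Qfn ((g : Matrix ι ι F).mulVec u) = Qfn u
      rw [hfn, hfn]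
      exact h u
  refine Nat.card_congr (Equiv.ofBijective (fun g =>
    ⟨fun j i => ((g : Matrix.GeneralLinearGroup ι F) : Matrix ι ι F) i j, fun x => by
      rw [← hmv]
      exact (hmem g.1).1 g.2 x⟩) ⟨?_, ?_⟩)
  · intro g h hgh
    apply Subtype.ext
    apply Units.ext
    ext i j
    exact congrFun (congrFun (congrArg Subtype.val hgh) j) i
  · rintro ⟨b, hb⟩
    have hM : ∀ x, Qf ((Matrix.of (fun i j => b j i) : Matrix ι ι F).mulVec x) = Qf x := by
      intro x
      rw [hmv]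
      exact hb x
    have hinj : Function.Injective (Matrix.of (fun i j => b j i) : Matrix ι ι F).mulVec := by
      intro x y hxy
      by_contra hne
      obtain ⟨z, hz⟩ := hND (x - y) (sub_ne_zero.2 hne)
      apply hz
      have h1 : polar Qf (x - y) z
          = polar Qf ((Matrix.of (fun i j => b j i) : Matrix ι ι F).mulVec (x - y))
              ((Matrix.of (fun i j => b j i) : Matrix ι ι F).mulVec z) := by
        unfold polar
        rw [← Matrix.mulVec_add, hM, hM, hM]
      rw [h1, Matrix.mulVec_sub, hxy, sub_self, polar_zero_left]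
    have hunit := Matrix.mulVec_injective_iff_isUnit.1 hinj
    refine ⟨⟨hunit.unit, (hmem _).2 (fun u => hM u)⟩, ?_⟩
    apply Subtype.ext
    funext j i
    rfl

theorem basis_vals {ι : Type} [Fintype ι] [DecidableEq ι] {V : Type*} [AddCommGroup V]
    [Module F V] (Qf : QuadraticForm F (ι → F)) (Q : QuadraticForm F V) (b : ι → V)
    (hb : ∀ x : ι → F, Q (∑ j, x j • b j) = Qf x) :
    (∀ j, Q (b j) = Qf (Pi.single j 1)) ∧
    ∀ j k, polar Q (b j) (b k) = polar Qf (Pi.single j 1) (Pi.single k 1) := by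
  have h1 : ∀ j, ∑ l, (Pi.single j (1 : F) : ι → F) l • b l = b j := by
    intro j
    simp [Pi.single_apply]
  have hq : ∀ j, Q (b j) = Qf (Pi.single j 1) := by
    intro j
    rw [← hb, h1]
  refine ⟨hq, fun j k => ?_⟩
  have h2 : ∑ l, ((Pi.single j (1 : F) : ι → F) + (Pi.single k (1 : F) : ι → F)) l • b l
      = b j + b k := by
    simp only [Pi.add_apply, add_smul, Finset.sum_add_distrib, h1]
  unfold polar
  rw [← h2, hb, hq, hq]

theorem qf_frame_sum {V : Type*} [AddCommGroup V] [Module F V] (Q : QuadraticForm F V) :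
    ∀ (j : ℕ) (u v : Fin j → V), (u, v) ∈ frm Q j → ∀ (a b : Fin j → F) (x : V),
      x ∈ cpl Q u v → Q (∑ i, (a i • u i + b i • v i) + x) = ∑ i, a i * b i + Q x := by
  intro j
  induction j with
  | zero =>
    intro u v _ a b x _
    simp
  | succ j ih =>
    intro pu pv hp a b x hx
    obtain ⟨u0, u, rfl⟩ : ∃ u0 u, pu = (Fin.cons u0 u : Fin (j + 1) → V) :=
      ⟨pu 0, Fin.tail pu, (Fin.cons_self_tail pu).symm⟩
    obtain ⟨v0, v, rfl⟩ : ∃ v0 v, pv = (Fin.cons v0 v : Fin (j + 1) → V) :=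
      ⟨pv 0, Fin.tail pv, (Fin.cons_self_tail pv).symm⟩
    obtain ⟨huv, hu0, hv0, hQu, hQv, hB⟩ := (frm_cons_iff Q u0 v0 u v).1 hp
    rw [cpl_cons] at hx
    have hmem : ∑ i : Fin j, (a i.succ • u i + b i.succ • v i) + x ∈ cp Q ⊤ u0 v0 := by
      apply Submodule.add_mem
      · apply Submodule.sum_mem
        intro i _
        apply Submodule.add_mem <;> apply Submodule.smul_mem
        · exact ⟨trivial, by rw [polar_comm]; exact (hu0 i).1, by rw [polar_comm]; exact (hv0 i).1⟩
        · exact ⟨trivial, by rw [polar_comm]; exact (hu0 i).2, by rw [polar_comm]; exact (hv0 i).2⟩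
      · exact ⟨trivial, hx.2.1, hx.2.2⟩
    rw [Fin.sum_univ_succ, Fin.sum_univ_succ]
    simp only [Fin.cons_zero, Fin.cons_succ]
    rw [add_assoc, qf_hyp Q u0 v0 _ (a 0) (b 0) hQu hQv hB hmem.2.1 hmem.2.2,
      ih u v huv (fun i => a i.succ) (fun i => b i.succ) x hx.1, add_assoc]

/-- the plus type form as a quadratic form -/
noncomputable def qfPlus (m : ℕ) (F : Type*) [Field F] : QuadraticForm F (Fin m ⊕ Fin m → F) :=
  ∑ i : Fin m, QuadraticMap.proj (Sum.inl i) (Sum.inr i)

theorem qfPlus_apply (m : ℕ) (x : Fin m ⊕ Fin m → F) :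
    qfPlus m F x = ∑ i : Fin m, x (Sum.inl i) * x (Sum.inr i) := by
  simp [qfPlus, sum_apply]

theorem qfPlus_polar (m : ℕ) (x y : Fin m ⊕ Fin m → F) :
    polar (qfPlus m F) x y
      = ∑ i : Fin m, (x (Sum.inl i) * y (Sum.inr i) + y (Sum.inl i) * x (Sum.inr i)) := by
  unfold polar
  simp only [qfPlus_apply, Pi.add_apply]
  rw [← Finset.sum_sub_distrib, ← Finset.sum_sub_distrib]
  apply Finset.sum_congr rfl
  intro i _
  ring

theorem qfPlus_ND (m : ℕ) (x : Fin m ⊕ Fin m → F) (hx : x ≠ 0) :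
    ∃ y, polar (qfPlus m F) x y ≠ 0 := by
  classical
  obtain ⟨k, hk⟩ := Function.ne_iff.1 hx
  rcases k with i | i
  · refine ⟨Pi.single (Sum.inr i) 1, ?_⟩
    rw [qfPlus_polar]
    simpa [Pi.single_apply] using hk
  · refine ⟨Pi.single (Sum.inl i) 1, ?_⟩
    rw [qfPlus_polar]
    simpa [Pi.single_apply] using hk

theorem qfPlus_std (m : ℕ) :
    ((fun i : Fin m => (Pi.single (Sum.inl i) (1 : F) : Fin m ⊕ Fin m → F)),
      (fun i : Fin m => (Pi.single (Sum.inr i) (1 : F) : Fin m ⊕ Fin m → F)))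
      ∈ frm (qfPlus m F) m := by
  classical
  refine ⟨fun i k => ?_, fun i k => ?_, fun i k => ?_, fun i => ?_, fun i => ?_⟩
  · rw [qfPlus_polar]
    simp [Pi.single_apply]
  · rw [qfPlus_polar]
    simp [Pi.single_apply]
  · rw [qfPlus_polar]
    by_cases h : i = k
    · subst h
      simp [Pi.single_apply]
    · simp [Pi.single_apply, h, Ne.symm h]
  · rw [qfPlus_apply]
    simp [Pi.single_apply]
  · rw [qfPlus_apply]
    simp [Pi.single_apply]

theorem plus_card [Fintype F] (m : ℕ) :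
    Nat.card ↥(Cfsg.isometryGroup F (Cfsg.quadFormPlus m F))
      = Nat.card ↥(frm (qfPlus m F) m) := by
  classical
  rw [iso_card_eq (qfPlus m F) (qfPlus_ND m) (Cfsg.quadFormPlus m F)
    (fun x => by rw [qfPlus_apply]; rfl)]
  refine Nat.card_congr
    { toFun := fun b => ⟨(fun i => b.1 (Sum.inl i), fun i => b.1 (Sum.inr i)), ?_⟩
      invFun := fun p => ⟨Sum.elim p.1.1 p.1.2, ?_⟩
      left_inv := fun b => Subtype.ext (by funext j; rcases j with i | i <;> rfl)
      right_inv := fun p => rfl }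
  · obtain ⟨h1, h2⟩ := basis_vals (qfPlus m F) (qfPlus m F) b.1 b.2
    obtain ⟨s1, s2, s3, s4, s5⟩ := qfPlus_std (F := F) m
    exact ⟨fun i k => (h2 _ _).trans (s1 i k), fun i k => (h2 _ _).trans (s2 i k),
      fun i k => (h2 _ _).trans (s3 i k), fun i => (h1 _).trans (s4 i),
      fun i => (h1 _).trans (s5 i)⟩
  · intro x
    rw [Fintype.sum_sum_type]
    simp only [Sum.elim_inl, Sum.elim_inr]
    rw [← Finset.sum_add_distrib]
    have h := qf_frame_sum (qfPlus m F) m p.1.1 p.1.2 p.2 (fun i => x (Sum.inl i))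
      (fun i => x (Sum.inr i)) 0 (Submodule.zero_mem _)
    rw [add_zero, QuadraticMap.map_zero, add_zero] at h
    rw [h, qfPlus_apply]

theorem qfPlus_ani (m : ℕ) :
    Nat.card {x : ↥(cpl (qfPlus m F)
        (fun i : Fin m => (Pi.single (Sum.inl i) (1 : F) : Fin m ⊕ Fin m → F))
        (fun i : Fin m => (Pi.single (Sum.inr i) (1 : F) : Fin m ⊕ Fin m → F))) //
      qfPlus m F x.1 = 0} = 1 := by
  classical
  rw [Nat.card_eq_one_iff_unique]
  have h0 : ∀ x : ↥(cpl (qfPlus m F)
      (fun i : Fin m => (Pi.single (Sum.inl i) (1 : F) : Fin m ⊕ Fin m → F))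
      (fun i : Fin m => (Pi.single (Sum.inr i) (1 : F) : Fin m ⊕ Fin m → F))), x = 0 := by
    intro x
    apply Subtype.ext
    funext k
    rcases k with i | i
    · have h := (x.2 i).2
      rw [qfPlus_polar] at h
      simpa [Pi.single_apply] using h
    · have h := (x.2 i).1
      rw [qfPlus_polar] at h
      simpa [Pi.single_apply] using h
  exact ⟨⟨fun a b => Subtype.ext ((h0 a.1).trans (h0 b.1).symm)⟩,
    ⟨⟨0, QuadraticMap.map_zero _⟩⟩⟩

theorem plus_count [Fintype F] (m : ℕ) (ζ : ℕ → ℕ)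
    (hζ : ∀ r, Fintype.card F * ζ r + Fintype.card F ^ (r + 0)
      = Fintype.card F ^ (r + 1) + Fintype.card F ^ (2 * r + 0)) :
    Nat.card ↥(Cfsg.isometryGroup F (Cfsg.quadFormPlus m F)) * Fintype.card F ^ (2 * m)
      = ∏ i ∈ Finset.range m, ((ζ (m - i) - 1) * Fintype.card F ^ (2 * (m - i) + 0)) := by
  rw [plus_card]
  have hV : Nat.card (Fin m ⊕ Fin m → F) = Fintype.card F ^ (2 * m + 0) := by
    rw [Nat.card_eq_fintype_card, Fintype.card_fun, Fintype.card_sum, Fintype.card_fin]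
    congr 1
    omega
  exact (frm_gen (qfPlus m F) (qfPlus_ND m) m 0 hV _ _ (qfPlus_std m) (qfPlus_ani m) ζ hζ).1 m
    le_rfl

end OrthBridge

end Cfsg.Agent.Helper6
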