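import Mathlib
import Cfsg.Agent.Helper6.OrthBridge
import Cfsg.Agent.S0750

set_option autoImplicit false

namespace Cfsg.Agent.Helper6

open QuadraticMap

section HypWitt

variable {F : Type*} [Field F] {V : Type*} [AddCommGroup V] [Module F V]

theorem qf_frame_elim (Q : QuadraticForm F V) (j : ℕ) (u v : Fin j → V) (huv : (u, v) ∈ frm Q j)
    (c : Fin j ⊕ Fin j → F) :
    Q (∑ k, c k • Sum.elim u v k) = ∑ i, c (Sum.inl i) * c (Sum.inr i) := by
  rw [Fintype.sum_sum_type]
  simp only [Sum.elim_inl, Sum.elim_inr]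
  rw [← Finset.sum_add_distrib]
  have h := qf_frame_sum Q j u v huv (fun i => c (Sum.inl i)) (fun i => c (Sum.inr i)) 0
    (Submodule.zero_mem _)
  rw [add_zero, QuadraticMap.map_zero, add_zero] at h
  exact h

theorem polar_sum_left (Q : QuadraticForm F V) {ι : Type*} [Fintype ι] (c : ι → F) (f : ι → V)
    (y : V) : polar Q (∑ k, c k • f k) y = ∑ k, c k * polar Q (f k) y := by
  have h := map_sum ((QuadraticMap.polarBilin Q).flip y) (fun k => c k • f k) Finset.univ
  simp only [LinearMap.flip_apply, QuadraticMap.polarBilin_apply_apply, polar_smul_left,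
    smul_eq_mul] at h
  exact h

theorem frm_li (Q : QuadraticForm F V) (j : ℕ) (u v : Fin j → V) (huv : (u, v) ∈ frm Q j) :
    LinearIndependent F (Sum.elim u v) := by
  classical
  obtain ⟨h1, h2, h3, h4, h5⟩ := huv
  rw [Fintype.linearIndependent_iff]
  intro c hc k
  rcases k with i0 | i0
  · have h := polar_sum_left Q c (Sum.elim u v) (v i0)
    rw [hc, polar_zero_left, Fintype.sum_sum_type] at h
    simp only [Sum.elim_inl, Sum.elim_inr] at h
    have e1 : ∀ i, c (Sum.inl i) * polar Q (u i) (v i0) = if i = i0 then c (Sum.inl i) else 0 := by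
      intro i
      show c (Sum.inl i) * polar Q ((u, v).1 i) ((u, v).2 i0) = _
      rw [h3]
      split_ifs <;> simp
    have e2 : ∀ i, c (Sum.inr i) * polar Q (v i) (v i0) = 0 := by
      intro i
      show c (Sum.inr i) * polar Q ((u, v).2 i) ((u, v).2 i0) = _
      rw [h2, mul_zero]
    rw [Finset.sum_congr rfl (fun i _ => e1 i), Finset.sum_congr rfl (fun i _ => e2 i),
      Finset.sum_const_zero, add_zero, Finset.sum_ite_eq' Finset.univ i0] at h
    simpa using h.symm
  · have h := polar_sum_left Q c (Sum.elim u v) (u i0)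
    rw [hc, polar_zero_left, Fintype.sum_sum_type] at h
    simp only [Sum.elim_inl, Sum.elim_inr] at h
    have e1 : ∀ i, c (Sum.inl i) * polar Q (u i) (u i0) = 0 := by
      intro i
      show c (Sum.inl i) * polar Q ((u, v).1 i) ((u, v).1 i0) = _
      rw [h1, mul_zero]
    have e2 : ∀ i, c (Sum.inr i) * polar Q (v i) (u i0) = if i = i0 then c (Sum.inr i) else 0 := by
      intro i
      rw [polar_comm]
      show c (Sum.inr i) * polar Q ((u, v).1 i0) ((u, v).2 i) = _
      rw [h3]
      by_cases hi : i = i0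
      · subst hi
        simp
      · rw [if_neg hi, if_neg (Ne.symm hi), mul_zero]
    rw [Finset.sum_congr rfl (fun i _ => e1 i), Finset.sum_congr rfl (fun i _ => e2 i),
      Finset.sum_const_zero, zero_add, Finset.sum_ite_eq' Finset.univ i0] at h
    simpa using h.symm

theorem frm_conj [Finite F] [FiniteDimensional F V] (Q : QuadraticForm F V)
    (hND : ∀ x : V, x ≠ 0 → ∃ y, polar Q x y ≠ 0) (j : ℕ) (u v u' v' : Fin j → V)
    (h : (u, v) ∈ frm Q j) (h' : (u', v') ∈ frm Q j) :
    ∃ g : V ≃ₗ[F] V, (∀ x, Q (g x) = Q x) ∧ (∀ i, g (u i) = u' i) ∧ (∀ i, g (v i) = v' i) := by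
  classical
  have hQ : (QuadraticMap.polarBilin Q).Nondegenerate := by
    constructor
    · intro x hx
      by_contra hx0
      obtain ⟨y, hy⟩ := hND x hx0
      exact hy (hx y)
    · intro y hy
      by_contra hy0
      obtain ⟨x, hx⟩ := hND y hy0
      apply hx
      rw [polar_comm]
      exact hy x
  have hli := frm_li Q j u v h
  have hli' := frm_li Q j u' v' h'
  have hφ : ∀ x : Submodule.span F (Set.range (Sum.elim u v)),
      Q ((((Module.Basis.span hli).equiv (Module.Basis.span hli') (Equiv.refl _)) x :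
        Submodule.span F (Set.range (Sum.elim u' v'))) : V) = Q (x : V) := by
    intro x
    have e1 : (x : V) = ∑ k, (Module.Basis.span hli).repr x k • Sum.elim u v k := by
      conv_lhs => rw [← (Module.Basis.span hli).sum_repr x]
      rw [Submodule.coe_sum]
      apply Finset.sum_congr rfl
      intro k _
      rw [Submodule.coe_smul, Module.Basis.coe_span_apply]
    have e2 : ((((Module.Basis.span hli).equiv (Module.Basis.span hli') (Equiv.refl _)) x :
        Submodule.span F (Set.range (Sum.elim u' v'))) : V)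
        = ∑ k, (Module.Basis.span hli).repr x k • Sum.elim u' v' k := by
      conv_lhs => rw [← (Module.Basis.span hli).sum_repr x]
      rw [map_sum, Submodule.coe_sum]
      apply Finset.sum_congr rfl
      intro k _
      rw [map_smul, Module.Basis.equiv_apply, Submodule.coe_smul, Equiv.refl_apply,
        Module.Basis.coe_span_apply]
    rw [e1, e2, qf_frame_elim Q j u v h, qf_frame_elim Q j u' v' h']
  obtain ⟨g, hg1, hg2⟩ := Cfsg.Agent.S0750.result Q hQ _ _
    ((Module.Basis.span hli).equiv (Module.Basis.span hli') (Equiv.refl _)) hφ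
  refine ⟨g, hg1, fun i => ?_, fun i => ?_⟩
  · have h3 := hg2 (Module.Basis.span hli (Sum.inl i))
    rw [Module.Basis.coe_span_apply, Module.Basis.equiv_apply, Equiv.refl_apply,
      Module.Basis.coe_span_apply] at h3
    exact h3
  · have h3 := hg2 (Module.Basis.span hli (Sum.inr i))
    rw [Module.Basis.coe_span_apply, Module.Basis.equiv_apply, Equiv.refl_apply,
      Module.Basis.coe_span_apply] at h3
    exact h3

theorem isom_polar (Q : QuadraticForm F V) (g : V ≃ₗ[F] V) (hg : ∀ x, Q (g x) = Q x) (x y : V) :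
    polar Q (g x) (g y) = polar Q x y := by
  unfold polar
  rw [← map_add, hg, hg, hg]

theorem isom_cpl (Q : QuadraticForm F V) (g : V ≃ₗ[F] V) (hg : ∀ x, Q (g x) = Q x) {j : ℕ}
    (u v u' v' : Fin j → V) (hu : ∀ i, g (u i) = u' i) (hv : ∀ i, g (v i) = v' i) (x : V) :
    g x ∈ cpl Q u' v' ↔ x ∈ cpl Q u v := by
  rw [mem_cpl, mem_cpl]
  refine forall_congr' (fun i => ?_)
  rw [← hu, ← hv, isom_polar Q g hg, isom_polar Q g hg]

end HypWitt

end Cfsg.Agent.Helper6
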