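import Mathlib
import Cfsg.Prelude.Def_Classical
import Cfsg.Agent.Helper6.HypWitt

set_option autoImplicit false

namespace Cfsg.Agent.Helper6

open QuadraticMap

section Binary

variable {F : Type*} [Field F]

/-- the binary form `z₁² + a z₁ z₂ + b z₂²` -/
def bA (a b : F) (z : F × F) : F := z.1 * z.1 + a * (z.1 * z.2) + b * (z.2 * z.2)

/-- the polar form of `bA` -/
def bB (a b : F) (z w : F × F) : F :=
  2 * z.1 * w.1 + a * (z.1 * w.2 + z.2 * w.1) + 2 * b * z.2 * w.2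

theorem minus_disc [Finite F] (a b : F)
    (hab : ∀ z₁ z₂ : F, z₁ ^ 2 + a * z₁ * z₂ + b * z₂ ^ 2 = 0 → z₁ = 0 ∧ z₂ = 0) (x0 x1 : F)
    (h1 : 2 * x0 + a * x1 = 0) (h2 : a * x0 + 2 * b * x1 = 0) : x0 = 0 ∧ x1 = 0 := by
  by_cases h2F : (2 : F) = 0
  · have ha : a ≠ 0 := by
      intro ha
      haveI : CharP F 2 := CharTwo.of_one_ne_zero_of_two_eq_zero one_ne_zero h2F
      haveI := Fintype.ofFinite F
      obtain ⟨c, hc⟩ := FiniteField.isSquare_of_char_two (ringChar.eq F 2) b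
      have h3 := hab c 1 (by linear_combination c * ha + hc + (c * c) * h2F)
      exact one_ne_zero h3.2
    rw [h2F, zero_mul, zero_add] at h1
    rw [h2F, zero_mul, zero_mul, add_zero] at h2
    exact ⟨(mul_eq_zero.1 h2).resolve_left ha, (mul_eq_zero.1 h1).resolve_left ha⟩
  · apply hab
    have h3 : 2 * (x0 ^ 2 + a * x0 * x1 + b * x1 ^ 2) = 0 := by
      linear_combination x0 * h1 + x1 * h2
    exact (mul_eq_zero.1 h3).resolve_left h2F

theorem bA_ani (a b : F)
    (hab : ∀ z₁ z₂ : F, z₁ ^ 2 + a * z₁ * z₂ + b * z₂ ^ 2 = 0 → z₁ = 0 ∧ z₂ = 0) (z : F × F)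
    (hz : bA a b z = 0) : z = 0 := by
  have h := hab z.1 z.2 (by
    rw [← hz]
    simp only [bA]
    ring)
  exact Prod.ext h.1 h.2

theorem bA_smul (a b : F) (t : F) (z : F × F) : bA a b (t • z) = t * t * bA a b z := by
  simp only [bA, Prod.smul_fst, Prod.smul_snd, smul_eq_mul]
  ring

theorem disc_ne [Finite F] (a b : F)
    (hab : ∀ z₁ z₂ : F, z₁ ^ 2 + a * z₁ * z₂ + b * z₂ ^ 2 = 0 → z₁ = 0 ∧ z₂ = 0) :
    a * a - 4 * b ≠ 0 ∧ ¬ ((2 : F) = 0 ∧ a = 0) := by
  have h2a : ¬ ((2 : F) = 0 ∧ a = 0) := by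
    rintro ⟨h2, ha⟩
    have h := minus_disc a b hab 1 0 (by rw [h2, ha]; ring) (by rw [h2, ha]; ring)
    exact one_ne_zero h.1
  refine ⟨fun h => ?_, h2a⟩
  have h3 := minus_disc a b hab a (-2) (by ring) (by linear_combination h)
  exact h2a ⟨neg_eq_zero.1 h3.2, h3.1⟩

theorem lin_ker (γ δ : F) (h : ¬ (γ = 0 ∧ δ = 0)) (e : F × F) (he : γ * e.1 + δ * e.2 = 0) :
    ∃ t : F, e = (t * δ, -(t * γ)) := by
  by_cases hδ : δ = 0
  · have hγ : γ ≠ 0 := fun hγ => h ⟨hγ, hδ⟩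
    rw [hδ, zero_mul, add_zero] at he
    have he1 : e.1 = 0 := (mul_eq_zero.1 he).resolve_left hγ
    obtain ⟨t, ht⟩ : ∃ t, e.2 = -(t * γ) :=
      ⟨-(e.2 / γ), by rw [neg_mul, neg_neg, div_mul_cancel₀ _ hγ]⟩
    exact ⟨t, Prod.ext (by rw [he1, hδ, mul_zero]) ht⟩
  · obtain ⟨t, ht⟩ : ∃ t, e.1 = t * δ := ⟨e.1 / δ, (div_mul_cancel₀ _ hδ).symm⟩
    have h2 : δ * (t * γ + e.2) = 0 := by
      rw [ht] at he
      linear_combination he
    have h3 := (mul_eq_zero.1 h2).resolve_left hδ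
    exact ⟨t, Prod.ext ht (by linear_combination h3)⟩

theorem lin_ker_card [Fintype F] (γ δ : F) (h : ¬ (γ = 0 ∧ δ = 0)) :
    Nat.card {e : F × F // γ * e.1 + δ * e.2 = 0} = Fintype.card F := by
  rw [← Nat.card_eq_fintype_card]
  refine (Nat.card_congr (Equiv.ofBijective (fun t : F =>
    (⟨(t * δ, -(t * γ)), by ring⟩ : {e : F × F // γ * e.1 + δ * e.2 = 0})) ⟨?_, ?_⟩)).symm
  · intro t t' htt
    have h1 : t * δ = t' * δ := congrArg (fun e : {e : F × F // γ * e.1 + δ * e.2 = 0} => e.1.1) htt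
    have h2 : -(t * γ) = -(t' * γ) :=
      congrArg (fun e : {e : F × F // γ * e.1 + δ * e.2 = 0} => e.1.2) htt
    by_cases hδ : δ = 0
    · have hγ : γ ≠ 0 := fun hγ => h ⟨hγ, hδ⟩
      exact mul_right_cancel₀ hγ (neg_injective h2)
    · exact mul_right_cancel₀ hδ h1
  · rintro ⟨e, he⟩
    obtain ⟨t, ht⟩ := lin_ker γ δ h e he
    exact ⟨t, Subtype.ext ht.symm⟩

theorem lin_aff_card [Fintype F] (γ δ : F) (h : ¬ (γ = 0 ∧ δ = 0)) :
    Nat.card {e : F × F // γ * e.1 + δ * e.2 = 1} = Fintype.card F := by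
  obtain ⟨s, hs⟩ : ∃ s : F × F, γ * s.1 + δ * s.2 = 1 := by
    by_cases hδ : δ = 0
    · have hγ : γ ≠ 0 := fun hγ => h ⟨hγ, hδ⟩
      exact ⟨(γ⁻¹, 0), by simp [hγ]⟩
    · exact ⟨(0, δ⁻¹), by simp [hδ]⟩
  rw [← lin_ker_card γ δ h]
  exact Nat.card_congr
    { toFun := fun e => ⟨e.1 - s, by
        have h1 := e.2
        simp only [Prod.fst_sub, Prod.snd_sub]
        linear_combination h1 - hs⟩
      invFun := fun e => ⟨e.1 + s, by
        have h1 := e.2
        simp only [Prod.fst_add, Prod.snd_add]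
        linear_combination h1 + hs⟩
      left_inv := fun e => Subtype.ext (sub_add_cancel _ _)
      right_inv := fun e => Subtype.ext (add_sub_cancel_right _ _) }

theorem conic_card [Fintype F] (a b : F)
    (hab : ∀ z₁ z₂ : F, z₁ ^ 2 + a * z₁ * z₂ + b * z₂ ^ 2 = 0 → z₁ = 0 ∧ z₂ = 0) :
    Nat.card {z : F × F // bA a b z = 1} = Fintype.card F + 1 := by
  classical
  have h2a := (disc_ne a b hab).2
  have hz0 : bA a b ((1, 0) : F × F) = 1 := by simp [bA]
  -- the points other than `(1, 0)`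
  have e1 : {z : {z : F × F // bA a b z = 1} // z ≠ ⟨(1, 0), hz0⟩} ≃
      {d : F × F // d ≠ 0 ∧ bA a b d + (2 * d.1 + a * d.2) = 0} :=
    { toFun := fun z => ⟨z.1.1 - (1, 0), sub_ne_zero.2 (fun h => z.2 (Subtype.ext h)), by
        have h1 := z.1.2
        simp only [bA, Prod.fst_sub, Prod.snd_sub] at h1 ⊢
        linear_combination h1⟩
      invFun := fun d => ⟨⟨d.1 + (1, 0), by
        have h1 := d.2.2
        simp only [bA, Prod.fst_add, Prod.snd_add] at h1 ⊢
        linear_combination h1⟩, fun h => d.2.1 (by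
          have h3 : d.1 + (1, 0) = ((1, 0) : F × F) := congrArg Subtype.val h
          exact add_eq_right.1 h3)⟩
      left_inv := fun z => Subtype.ext (Subtype.ext (sub_add_cancel _ _))
      right_inv := fun d => Subtype.ext (add_sub_cancel_right _ _) }
  have e2 : {d : F × F // d ≠ 0 ∧ bA a b d + (2 * d.1 + a * d.2) = 0} ≃
      {e : F × F // 2 * e.1 + a * e.2 = 1} :=
    { toFun := fun d => ⟨(2 * d.1.1 + a * d.1.2)⁻¹ • d.1, by
        have hl : 2 * d.1.1 + a * d.1.2 ≠ 0 := by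
          intro h0
          have h1 := d.2.2
          rw [h0, add_zero] at h1
          exact d.2.1 (bA_ani a b hab _ h1)
        simp only [Prod.smul_fst, Prod.smul_snd, smul_eq_mul]
        field_simp⟩
      invFun := fun e => ⟨(-(bA a b e.1)⁻¹) • e.1, by
        have he0 : e.1 ≠ 0 := by
          intro h0
          have h1 := e.2
          rw [h0] at h1
          simp at h1
        have hA : bA a b e.1 ≠ 0 := fun h0 => he0 (bA_ani a b hab _ h0)
        refine ⟨smul_ne_zero (neg_ne_zero.2 (inv_ne_zero hA)) he0, ?_⟩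
        have h1 := e.2
        have h3 : bA a b e.1 * (bA a b e.1)⁻¹ = 1 := mul_inv_cancel₀ hA
        rw [bA_smul]
        simp only [Prod.smul_fst, Prod.smul_snd, smul_eq_mul]
        linear_combination (-(bA a b e.1)⁻¹) * h1 + (bA a b e.1)⁻¹ * h3⟩
      left_inv := fun d => by
        have hl : 2 * d.1.1 + a * d.1.2 ≠ 0 := by
          intro h0
          have h1 := d.2.2
          rw [h0, add_zero] at h1
          exact d.2.1 (bA_ani a b hab _ h1)
        have hbe : bA a b ((2 * d.1.1 + a * d.1.2)⁻¹ • d.1) = -(2 * d.1.1 + a * d.1.2)⁻¹ := by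
          have h1 := d.2.2
          have h3 : (2 * d.1.1 + a * d.1.2) * (2 * d.1.1 + a * d.1.2)⁻¹ = 1 := mul_inv_cancel₀ hl
          simp only [bA, Prod.smul_fst, Prod.smul_snd, smul_eq_mul] at h1 ⊢
          linear_combination ((2 * d.1.1 + a * d.1.2)⁻¹ * (2 * d.1.1 + a * d.1.2)⁻¹) * h1
            - (2 * d.1.1 + a * d.1.2)⁻¹ * h3
        apply Subtype.ext
        show (-(bA a b ((2 * d.1.1 + a * d.1.2)⁻¹ • d.1))⁻¹) • ((2 * d.1.1 + a * d.1.2)⁻¹ • d.1)
          = d.1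
        rw [hbe, inv_neg, neg_neg, inv_inv, smul_smul, mul_inv_cancel₀ hl, one_smul]
      right_inv := fun e => by
        have he0 : e.1 ≠ 0 := by
          intro h0
          have h1 := e.2
          rw [h0] at h1
          simp at h1
        have hA : bA a b e.1 ≠ 0 := fun h0 => he0 (bA_ani a b hab _ h0)
        have hl : 2 * ((-(bA a b e.1)⁻¹) • e.1).1 + a * ((-(bA a b e.1)⁻¹) • e.1).2
            = -(bA a b e.1)⁻¹ := by
          have h1 := e.2
          simp only [Prod.smul_fst, Prod.smul_snd, smul_eq_mul]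
          linear_combination (-(bA a b e.1)⁻¹) * h1
        apply Subtype.ext
        show (2 * ((-(bA a b e.1)⁻¹) • e.1).1 + a * ((-(bA a b e.1)⁻¹) • e.1).2)⁻¹
          • ((-(bA a b e.1)⁻¹) • e.1) = e.1
        rw [hl, smul_smul, inv_mul_cancel₀ (neg_ne_zero.2 (inv_ne_zero hA)), one_smul] }
  have h3 : Nat.card {z : {z : F × F // bA a b z = 1} // z ≠ ⟨(1, 0), hz0⟩} = Fintype.card F := by
    rw [Nat.card_congr (e1.trans e2), lin_aff_card 2 a h2a]
  rw [Nat.card_eq_fintype_card] at h3 ⊢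
  rw [Fintype.card_subtype_compl, Fintype.card_subtype_eq] at h3
  have h4 : 0 < Fintype.card {z : F × F // bA a b z = 1} := Fintype.card_pos_iff.2 ⟨⟨(1, 0), hz0⟩⟩
  omega

theorem inner_card [Finite F] (a b : F)
    (hab : ∀ z₁ z₂ : F, z₁ ^ 2 + a * z₁ * z₂ + b * z₂ ^ 2 = 0 → z₁ = 0 ∧ z₂ = 0) (z : F × F)
    (hz : bA a b z = 1) :
    Nat.card {w : F × F // bA a b w = b ∧ bB a b z w = a} = 2 := by
  have hdisc := (disc_ne a b hab).1
  have hz' : z.1 * z.1 + a * (z.1 * z.2) + b * (z.2 * z.2) = 1 := hz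
  have hγδ : ¬ (2 * z.1 + a * z.2 = 0 ∧ a * z.1 + 2 * b * z.2 = 0) := by
    rintro ⟨h1, h2⟩
    have h3 := minus_disc a b hab z.1 z.2 h1 h2
    rw [h3.1, h3.2] at hz'
    simp at hz'
  rw [Nat.card_eq_two_iff]
  refine ⟨⟨(-(b * z.2), z.1 + a * z.2), ?_, ?_⟩,
    ⟨(-(b * z.2) + (a * z.1 + 2 * b * z.2), z.1 + a * z.2 - (2 * z.1 + a * z.2)), ?_, ?_⟩, ?_, ?_⟩
  · simp only [bA]
    linear_combination b * hz'
  · simp only [bB]
    linear_combination a * hz'
  · simp only [bA]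
    linear_combination b * hz'
  · simp only [bB]
    linear_combination a * hz'
  · intro h
    have h1 : (-(b * z.2), z.1 + a * z.2)
        = ((-(b * z.2) + (a * z.1 + 2 * b * z.2), z.1 + a * z.2 - (2 * z.1 + a * z.2)) : F × F) :=
      congrArg Subtype.val h
    have h2 := congrArg Prod.fst h1
    have h3 := congrArg Prod.snd h1
    simp only at h2 h3
    exact hγδ ⟨by linear_combination h3, by linear_combination -h2⟩
  · apply Set.eq_univ_of_forall
    rintro ⟨w, hwA, hwB⟩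
    obtain ⟨t, ht⟩ := lin_ker (2 * z.1 + a * z.2) (a * z.1 + 2 * b * z.2) hγδ
      (w - (-(b * z.2), z.1 + a * z.2)) (by
        simp only [bB] at hwB
        simp only [Prod.fst_sub, Prod.snd_sub]
        linear_combination hwB - a * hz')
    have h1 : w.1 = -(b * z.2) + t * (a * z.1 + 2 * b * z.2) := by
      have h := congrArg Prod.fst ht
      simp only [Prod.fst_sub] at h
      linear_combination h
    have h2 : w.2 = z.1 + a * z.2 - t * (2 * z.1 + a * z.2) := by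
      have h := congrArg Prod.snd ht
      simp only [Prod.snd_sub] at h
      linear_combination h
    have key : (a * a - 4 * b) * (t * (1 - t)) = 0 := by
      simp only [bA] at hwA
      rw [h1, h2] at hwA
      linear_combination hwA - (b + (a * a - 4 * b) * (t - t * t)) * hz'
    rcases mul_eq_zero.1 ((mul_eq_zero.1 key).resolve_left hdisc) with h0 | h0
    · left
      apply Subtype.ext
      apply Prod.ext
      · show w.1 = -(b * z.2)
        rw [h1, h0]
        ring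
      · show w.2 = z.1 + a * z.2
        rw [h2, h0]
        ring
    · right
      have ht1 : t = 1 := by linear_combination -h0
      apply Subtype.ext
      apply Prod.ext
      · show w.1 = -(b * z.2) + (a * z.1 + 2 * b * z.2)
        rw [h1, ht1]
        ring
      · show w.2 = z.1 + a * z.2 - (2 * z.1 + a * z.2)
        rw [h2, ht1]
        ring

theorem binary_card [Fintype F] (a b : F)
    (hab : ∀ z₁ z₂ : F, z₁ ^ 2 + a * z₁ * z₂ + b * z₂ ^ 2 = 0 → z₁ = 0 ∧ z₂ = 0) :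
    Nat.card {t : (F × F) × (F × F) // bA a b t.1 = 1 ∧ bA a b t.2 = b ∧ bB a b t.1 t.2 = a}
      = 2 * (Fintype.card F + 1) := by
  classical
  have e : {t : (F × F) × (F × F) // bA a b t.1 = 1 ∧ bA a b t.2 = b ∧ bB a b t.1 t.2 = a} ≃
      (Σ z : {z : F × F // bA a b z = 1}, {w : F × F // bA a b w = b ∧ bB a b z.1 w = a}) :=
    { toFun := fun t => ⟨⟨t.1.1, t.2.1⟩, ⟨t.1.2, t.2.2⟩⟩
      invFun := fun s => ⟨(s.1.1, s.2.1), s.1.2, s.2.2⟩
      left_inv := fun t => rfl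
      right_inv := fun s => rfl }
  rw [Nat.card_congr e, Nat.card_sigma,
    Finset.sum_congr rfl (fun z _ => inner_card a b hab z.1 z.2), Finset.sum_const,
    Finset.card_univ, smul_eq_mul, ← Nat.card_eq_fintype_card, conic_card a b hab, mul_comm]

end Binary

section OrthMinus

variable {F : Type*} [Field F]

/-- the minus type form as a quadratic form -/
noncomputable def qfMinus (m : ℕ) (F : Type*) [Field F] (a b : F) :
    QuadraticForm F ((Fin m ⊕ Fin m) ⊕ Fin 2 → F) :=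
  ∑ i : Fin m, QuadraticMap.proj (Sum.inl (Sum.inl i)) (Sum.inl (Sum.inr i))
    + (QuadraticMap.proj (Sum.inr 0) (Sum.inr 0) + a • QuadraticMap.proj (Sum.inr 0) (Sum.inr 1)
      + b • QuadraticMap.proj (Sum.inr 1) (Sum.inr 1))

theorem qfMinus_apply (m : ℕ) (a b : F) (x : (Fin m ⊕ Fin m) ⊕ Fin 2 → F) :
    qfMinus m F a b x = ∑ i : Fin m, x (Sum.inl (Sum.inl i)) * x (Sum.inl (Sum.inr i))
      + bA a b (x (Sum.inr 0), x (Sum.inr 1)) := by
  simp [qfMinus, sum_apply, bA]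

theorem qfMinus_polar (m : ℕ) (a b : F) (x y : (Fin m ⊕ Fin m) ⊕ Fin 2 → F) :
    polar (qfMinus m F a b) x y
      = ∑ i : Fin m, (x (Sum.inl (Sum.inl i)) * y (Sum.inl (Sum.inr i))
          + y (Sum.inl (Sum.inl i)) * x (Sum.inl (Sum.inr i)))
        + bB a b (x (Sum.inr 0), x (Sum.inr 1)) (y (Sum.inr 0), y (Sum.inr 1)) := by
  unfold polar
  simp only [qfMinus_apply, Pi.add_apply, bA, bB]
  have h : ∀ (p q r s t w : F), p + q - (r + s) - (t + w) = (p - r - t) + (q - s - w) := by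
    intros
    ring
  rw [h, ← Finset.sum_sub_distrib, ← Finset.sum_sub_distrib]
  congr 1
  · apply Finset.sum_congr rfl
    intro i _
    ring
  · ring

theorem qfMinus_polar_inl (m : ℕ) (a b : F) (x y : (Fin m ⊕ Fin m) ⊕ Fin 2 → F)
    (hx : ∀ j, x (Sum.inl j) = 0) :
    polar (qfMinus m F a b) x y
      = bB a b (x (Sum.inr 0), x (Sum.inr 1)) (y (Sum.inr 0), y (Sum.inr 1)) := by
  rw [qfMinus_polar]
  simp [hx]

theorem qfMinus_val_inl (m : ℕ) (a b : F) (x : (Fin m ⊕ Fin m) ⊕ Fin 2 → F)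
    (hx : ∀ j, x (Sum.inl j) = 0) :
    qfMinus m F a b x = bA a b (x (Sum.inr 0), x (Sum.inr 1)) := by
  rw [qfMinus_apply]
  simp [hx]

theorem qfMinus_ND [Finite F] (m : ℕ) (a b : F)
    (hab : ∀ z₁ z₂ : F, z₁ ^ 2 + a * z₁ * z₂ + b * z₂ ^ 2 = 0 → z₁ = 0 ∧ z₂ = 0)
    (x : (Fin m ⊕ Fin m) ⊕ Fin 2 → F) (hx : x ≠ 0) :
    ∃ y, polar (qfMinus m F a b) x y ≠ 0 := by
  classical
  by_contra hcon
  push Not at hcon
  apply hx
  have hl : ∀ j, x (Sum.inl j) = 0 := by
    intro j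
    rcases j with i | i
    · have h := hcon (Pi.single (Sum.inl (Sum.inr i)) 1)
      rw [qfMinus_polar] at h
      simpa [Pi.single_apply, bB] using h
    · have h := hcon (Pi.single (Sum.inl (Sum.inl i)) 1)
      rw [qfMinus_polar] at h
      simpa [Pi.single_apply, bB] using h
  have h0 := hcon (Pi.single (Sum.inr 0) 1)
  have h1 := hcon (Pi.single (Sum.inr 1) 1)
  rw [qfMinus_polar_inl m a b x _ hl] at h0 h1
  have s00 : (Pi.single (Sum.inr 0) (1 : F) : (Fin m ⊕ Fin m) ⊕ Fin 2 → F) (Sum.inr 0) = 1 := by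
    simp
  have s01 : (Pi.single (Sum.inr 0) (1 : F) : (Fin m ⊕ Fin m) ⊕ Fin 2 → F) (Sum.inr 1) = 0 := by
    simp
  have s10 : (Pi.single (Sum.inr 1) (1 : F) : (Fin m ⊕ Fin m) ⊕ Fin 2 → F) (Sum.inr 0) = 0 := by
    simp
  have s11 : (Pi.single (Sum.inr 1) (1 : F) : (Fin m ⊕ Fin m) ⊕ Fin 2 → F) (Sum.inr 1) = 1 := by
    simp
  rw [s00, s01] at h0
  rw [s10, s11] at h1
  simp only [bB] at h0 h1
  obtain ⟨e0, e1⟩ := minus_disc a b hab (x (Sum.inr 0)) (x (Sum.inr 1))
    (by linear_combination h0) (by linear_combination h1)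
  funext k
  rcases k with j | k
  · exact hl j
  · fin_cases k
    · exact e0
    · exact e1

theorem qfMinus_std (m : ℕ) (a b : F) :
    ((fun i : Fin m => (Pi.single (Sum.inl (Sum.inl i)) (1 : F) : (Fin m ⊕ Fin m) ⊕ Fin 2 → F)),
      (fun i : Fin m => (Pi.single (Sum.inl (Sum.inr i)) (1 : F) : (Fin m ⊕ Fin m) ⊕ Fin 2 → F)))
      ∈ frm (qfMinus m F a b) m := by
  classical
  refine ⟨fun i k => ?_, fun i k => ?_, fun i k => ?_, fun i => ?_, fun i => ?_⟩
  · rw [qfMinus_polar]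
    simp [Pi.single_apply, bB]
  · rw [qfMinus_polar]
    simp [Pi.single_apply, bB]
  · rw [qfMinus_polar]
    by_cases h : i = k
    · subst h
      simp [Pi.single_apply, bB]
    · simp [Pi.single_apply, bB, h, Ne.symm h]
  · rw [qfMinus_apply]
    simp [Pi.single_apply, bA]
  · rw [qfMinus_apply]
    simp [Pi.single_apply, bA]

theorem qfMinus_cpl_std (m : ℕ) (a b : F) (x : (Fin m ⊕ Fin m) ⊕ Fin 2 → F) :
    x ∈ cpl (qfMinus m F a b)
        (fun i : Fin m => (Pi.single (Sum.inl (Sum.inl i)) (1 : F) : (Fin m ⊕ Fin m) ⊕ Fin 2 → F))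
        (fun i : Fin m => (Pi.single (Sum.inl (Sum.inr i)) (1 : F) : (Fin m ⊕ Fin m) ⊕ Fin 2 → F))
      ↔ ∀ j, x (Sum.inl j) = 0 := by
  classical
  constructor
  · intro hx j
    rcases j with i | i
    · have h := (hx i).2
      rw [qfMinus_polar] at h
      simpa [Pi.single_apply, bB] using h
    · have h := (hx i).1
      rw [qfMinus_polar] at h
      simpa [Pi.single_apply, bB] using h
  · intro hx i
    constructor
    · rw [qfMinus_polar]
      simp [Pi.single_apply, bB, hx]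
    · rw [qfMinus_polar]
      simp [Pi.single_apply, bB, hx]

theorem qfMinus_ani (m : ℕ) (a b : F)
    (hab : ∀ z₁ z₂ : F, z₁ ^ 2 + a * z₁ * z₂ + b * z₂ ^ 2 = 0 → z₁ = 0 ∧ z₂ = 0) :
    Nat.card {x : ↥(cpl (qfMinus m F a b)
        (fun i : Fin m => (Pi.single (Sum.inl (Sum.inl i)) (1 : F) : (Fin m ⊕ Fin m) ⊕ Fin 2 → F))
        (fun i : Fin m => (Pi.single (Sum.inl (Sum.inr i)) (1 : F) : (Fin m ⊕ Fin m) ⊕ Fin 2 → F))) //
      qfMinus m F a b x.1 = 0} = 1 := by
  classical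
  rw [Nat.card_eq_one_iff_unique]
  refine ⟨⟨fun x y => ?_⟩, ⟨⟨0, QuadraticMap.map_zero _⟩⟩⟩
  have h0 : ∀ x : {x : ↥(cpl (qfMinus m F a b)
      (fun i : Fin m => (Pi.single (Sum.inl (Sum.inl i)) (1 : F) : (Fin m ⊕ Fin m) ⊕ Fin 2 → F))
      (fun i : Fin m => (Pi.single (Sum.inl (Sum.inr i)) (1 : F) : (Fin m ⊕ Fin m) ⊕ Fin 2 → F))) //
      qfMinus m F a b x.1 = 0}, x.1.1 = 0 := by
    intro x
    have h1 := (qfMinus_cpl_std m a b x.1.1).1 x.1.2
    have h2 := x.2
    rw [qfMinus_val_inl m a b _ h1] at h2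
    have h3 := bA_ani a b hab _ h2
    funext k
    rcases k with j | k
    · exact h1 j
    · fin_cases k
      · exact congrArg Prod.fst h3
      · exact congrArg Prod.snd h3
  exact Subtype.ext (Subtype.ext ((h0 x).trans (h0 y).symm))

/-- completions of a frame to a basis of minus type -/
def Cmp {V : Type*} [AddCommGroup V] [Module F V] (Q : QuadraticForm F V) {j : ℕ}
    (u v : Fin j → V) (a b : F) : Set (V × V) :=
  {w | w.1 ∈ cpl Q u v ∧ w.2 ∈ cpl Q u v ∧ Q w.1 = 1 ∧ Q w.2 = b ∧ polar Q w.1 w.2 = a}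

theorem cmp_conj {V : Type*} [AddCommGroup V] [Module F V] (Q : QuadraticForm F V)
    (g : V ≃ₗ[F] V) (hg : ∀ x, Q (g x) = Q x) {j : ℕ} (u v u' v' : Fin j → V)
    (hu : ∀ i, g (u i) = u' i) (hv : ∀ i, g (v i) = v' i) (a b : F) :
    Nat.card (Cmp Q u v a b) = Nat.card (Cmp Q u' v' a b) :=
  Nat.card_congr
    { toFun := fun w => ⟨(g w.1.1, g w.1.2), (isom_cpl Q g hg u v u' v' hu hv _).2 w.2.1,
        (isom_cpl Q g hg u v u' v' hu hv _).2 w.2.2.1, by
          show Q (g w.1.1) = 1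
          rw [hg]
          exact w.2.2.2.1, by
          show Q (g w.1.2) = b
          rw [hg]
          exact w.2.2.2.2.1, by
          show polar Q (g w.1.1) (g w.1.2) = a
          rw [isom_polar Q g hg]
          exact w.2.2.2.2.2⟩
      invFun := fun w => ⟨(g.symm w.1.1, g.symm w.1.2),
        (isom_cpl Q g hg u v u' v' hu hv _).1 (by
          rw [g.apply_symm_apply]
          exact w.2.1),
        (isom_cpl Q g hg u v u' v' hu hv _).1 (by
          rw [g.apply_symm_apply]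
          exact w.2.2.1), by
          show Q (g.symm w.1.1) = 1
          rw [← hg, g.apply_symm_apply]
          exact w.2.2.2.1, by
          show Q (g.symm w.1.2) = b
          rw [← hg, g.apply_symm_apply]
          exact w.2.2.2.2.1, by
          show polar Q (g.symm w.1.1) (g.symm w.1.2) = a
          rw [← isom_polar Q g hg, g.apply_symm_apply, g.apply_symm_apply]
          exact w.2.2.2.2.2⟩
      left_inv := fun w => Subtype.ext (Prod.ext (g.symm_apply_apply _) (g.symm_apply_apply _))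
      right_inv := fun w => Subtype.ext (Prod.ext (g.apply_symm_apply _) (g.apply_symm_apply _)) }

theorem cmp_std [Fintype F] (m : ℕ) (a b : F)
    (hab : ∀ z₁ z₂ : F, z₁ ^ 2 + a * z₁ * z₂ + b * z₂ ^ 2 = 0 → z₁ = 0 ∧ z₂ = 0) :
    Nat.card (Cmp (qfMinus m F a b)
        (fun i : Fin m => (Pi.single (Sum.inl (Sum.inl i)) (1 : F) : (Fin m ⊕ Fin m) ⊕ Fin 2 → F))
        (fun i : Fin m => (Pi.single (Sum.inl (Sum.inr i)) (1 : F) : (Fin m ⊕ Fin m) ⊕ Fin 2 → F))
        a b) = 2 * (Fintype.card F + 1) := by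
  classical
  rw [← binary_card a b hab]
  have hemb : ∀ (z : F × F) (j : Fin m ⊕ Fin m),
      (Sum.elim (fun _ => 0) ![z.1, z.2] : (Fin m ⊕ Fin m) ⊕ Fin 2 → F) (Sum.inl j) = 0 :=
    fun z j => rfl
  refine Nat.card_congr
    { toFun := fun w => ⟨((w.1.1 (Sum.inr 0), w.1.1 (Sum.inr 1)),
        (w.1.2 (Sum.inr 0), w.1.2 (Sum.inr 1))), ?_⟩
      invFun := fun t => ⟨(Sum.elim (fun _ => 0) ![t.1.1.1, t.1.1.2],
        Sum.elim (fun _ => 0) ![t.1.2.1, t.1.2.2]), ?_⟩
      left_inv := fun w => ?_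
      right_inv := fun t => ?_ }
  · obtain ⟨h1, h2, h3, h4, h5⟩ := w.2
    have h1' := (qfMinus_cpl_std m a b _).1 h1
    have h2' := (qfMinus_cpl_std m a b _).1 h2
    rw [qfMinus_val_inl m a b _ h1'] at h3
    rw [qfMinus_val_inl m a b _ h2'] at h4
    rw [qfMinus_polar_inl m a b _ _ h1'] at h5
    exact ⟨h3, h4, h5⟩
  · obtain ⟨h3, h4, h5⟩ := t.2
    refine ⟨(qfMinus_cpl_std m a b _).2 (hemb t.1.1), (qfMinus_cpl_std m a b _).2 (hemb t.1.2),
      ?_, ?_, ?_⟩
    · show qfMinus m F a b (Sum.elim (fun _ => 0) ![t.1.1.1, t.1.1.2]) = 1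
      rw [qfMinus_val_inl m a b _ (hemb t.1.1)]
      exact h3
    · show qfMinus m F a b (Sum.elim (fun _ => 0) ![t.1.2.1, t.1.2.2]) = b
      rw [qfMinus_val_inl m a b _ (hemb t.1.2)]
      exact h4
    · show polar (qfMinus m F a b) (Sum.elim (fun _ => 0) ![t.1.1.1, t.1.1.2])
        (Sum.elim (fun _ => 0) ![t.1.2.1, t.1.2.2]) = a
      rw [qfMinus_polar_inl m a b _ _ (hemb t.1.1)]
      exact h5
  · obtain ⟨h1, h2, -⟩ := w.2
    have h1' := (qfMinus_cpl_std m a b _).1 h1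
    have h2' := (qfMinus_cpl_std m a b _).1 h2
    apply Subtype.ext
    apply Prod.ext
    · funext k
      rcases k with j | k
      · exact (h1' j).symm
      · fin_cases k <;> rfl
    · funext k
      rcases k with j | k
      · exact (h2' j).symm
      · fin_cases k <;> rfl
  · rfl

theorem minus_card [Fintype F] (m : ℕ) (a b : F)
    (hab : ∀ z₁ z₂ : F, z₁ ^ 2 + a * z₁ * z₂ + b * z₂ ^ 2 = 0 → z₁ = 0 ∧ z₂ = 0) :
    Nat.card ↥(Cfsg.isometryGroup F (Cfsg.quadFormMinus m F a b))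
      = Nat.card (Σ p : ↥(frm (qfMinus m F a b) m),
          ↥(Cmp (qfMinus m F a b) p.1.1 p.1.2 a b)) := by
  classical
  rw [iso_card_eq (qfMinus m F a b) (qfMinus_ND m a b hab) (Cfsg.quadFormMinus m F a b)
    (fun x => by
      rw [qfMinus_apply]
      unfold Cfsg.quadFormMinus bA
      ring)]
  have hs : ∀ (j : Fin m ⊕ Fin m) (k : Fin 2), polar (qfMinus m F a b)
      (Pi.single (Sum.inl j) 1) (Pi.single (Sum.inr k) 1) = 0 := by
    intro j k
    rw [qfMinus_polar]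
    rcases j with i | i <;> simp [Pi.single_apply, bB]
  have hs0 : qfMinus m F a b (Pi.single (Sum.inr 0) 1) = 1 := by
    rw [qfMinus_apply]
    simp [Pi.single_apply, bA]
  have hs1 : qfMinus m F a b (Pi.single (Sum.inr 1) 1) = b := by
    rw [qfMinus_apply]
    simp [Pi.single_apply, bA]
  have hs01 : polar (qfMinus m F a b) (Pi.single (Sum.inr 0) 1) (Pi.single (Sum.inr 1) 1) = a := by
    rw [qfMinus_polar]
    simp [Pi.single_apply, bB]
  refine Nat.card_congr
    { toFun := fun c => ⟨⟨(fun i => c.1 (Sum.inl (Sum.inl i)), fun i => c.1 (Sum.inl (Sum.inr i))),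
        ?_⟩, ⟨(c.1 (Sum.inr 0), c.1 (Sum.inr 1)), ?_⟩⟩
      invFun := fun s => ⟨Sum.elim (Sum.elim s.1.1.1 s.1.1.2) ![s.2.1.1, s.2.1.2], ?_⟩
      left_inv := fun c => Subtype.ext (by
        funext j
        rcases j with (i | i) | k
        · rfl
        · rfl
        · fin_cases k <;> rfl)
      right_inv := fun s => rfl }
  · obtain ⟨h1, h2'⟩ := basis_vals (qfMinus m F a b) (qfMinus m F a b) c.1 c.2
    obtain ⟨s1, s2, s3, s4, s5⟩ := qfMinus_std (F := F) m a b
    exact ⟨fun i k => (h2' _ _).trans (s1 i k), fun i k => (h2' _ _).trans (s2 i k),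
      fun i k => (h2' _ _).trans (s3 i k), fun i => (h1 _).trans (s4 i),
      fun i => (h1 _).trans (s5 i)⟩
  · obtain ⟨h1, h2'⟩ := basis_vals (qfMinus m F a b) (qfMinus m F a b) c.1 c.2
    exact ⟨fun i => ⟨(h2' _ _).trans (hs _ _), (h2' _ _).trans (hs _ _)⟩,
      fun i => ⟨(h2' _ _).trans (hs _ _), (h2' _ _).trans (hs _ _)⟩,
      (h1 _).trans hs0, (h1 _).trans hs1, (h2' _ _).trans hs01⟩
  · intro x
    obtain ⟨hw1, hw2, hq1, hq2, hp⟩ := s.2.2
    rw [Fintype.sum_sum_type, Fintype.sum_sum_type, Fin.sum_univ_two]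
    simp only [Sum.elim_inl, Sum.elim_inr, Matrix.cons_val_zero, Matrix.cons_val_one]
    rw [← Finset.sum_add_distrib]
    have h := qf_frame_sum (qfMinus m F a b) m s.1.1.1 s.1.1.2 s.1.2
      (fun i => x (Sum.inl (Sum.inl i))) (fun i => x (Sum.inl (Sum.inr i)))
      (x (Sum.inr 0) • s.2.1.1 + x (Sum.inr 1) • s.2.1.2)
      (Submodule.add_mem _ (Submodule.smul_mem _ _ hw1) (Submodule.smul_mem _ _ hw2))
    rw [h, QuadraticMap.map_add (⇑(qfMinus m F a b)), QuadraticMap.map_smul, QuadraticMap.map_smul,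
      polar_smul_left, polar_smul_right, hq1, hq2, hp, qfMinus_apply]
    simp only [bA, smul_eq_mul]
    ring

theorem minus_count [Fintype F] (m : ℕ) (a b : F)
    (hab : ∀ z₁ z₂ : F, z₁ ^ 2 + a * z₁ * z₂ + b * z₂ ^ 2 = 0 → z₁ = 0 ∧ z₂ = 0) (ζ : ℕ → ℕ)
    (hζ : ∀ r, Fintype.card F * ζ r + Fintype.card F ^ (r + 2)
      = Fintype.card F ^ (r + 1) + Fintype.card F ^ (2 * r + 2)) :
    Nat.card ↥(Cfsg.isometryGroup F (Cfsg.quadFormMinus m F a b)) * Fintype.card F ^ (2 * m)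
      = 2 * (Fintype.card F + 1) * ∏ i ∈ Finset.range m, ((ζ (m - i) - 1)
          * Fintype.card F ^ (2 * (m - i) + 2)) := by
  classical
  have hV : Nat.card ((Fin m ⊕ Fin m) ⊕ Fin 2 → F) = Fintype.card F ^ (2 * m + 2) := by
    rw [Nat.card_eq_fintype_card, Fintype.card_fun, Fintype.card_sum, Fintype.card_sum,
      Fintype.card_fin, Fintype.card_fin]
    congr 1
    omega
  obtain ⟨g1, -⟩ := frm_gen (qfMinus m F a b) (qfMinus_ND m a b hab) m 2 hV _ _
    (qfMinus_std m a b) (qfMinus_ani m a b hab) ζ hζ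
  have hc : ∀ p : ↥(frm (qfMinus m F a b) m),
      Nat.card ↥(Cmp (qfMinus m F a b) p.1.1 p.1.2 a b) = 2 * (Fintype.card F + 1) := by
    intro p
    obtain ⟨g, hg1, hg2, hg3⟩ := frm_conj (qfMinus m F a b) (qfMinus_ND m a b hab) m p.1.1 p.1.2
      _ _ p.2 (qfMinus_std m a b)
    rw [cmp_conj (qfMinus m F a b) g hg1 p.1.1 p.1.2 _ _ hg2 hg3 a b]
    exact cmp_std m a b hab
  haveI : Fintype ↥(frm (qfMinus m F a b) m) := Fintype.ofFinite _
  rw [minus_card m a b hab, Nat.card_sigma, Finset.sum_congr rfl (fun p _ => hc p),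
    Finset.sum_const, Finset.card_univ, smul_eq_mul, ← Nat.card_eq_fintype_card, ← g1 m le_rfl]
  ring

end OrthMinus

end Cfsg.Agent.Helper6
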