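import Mathlib
import Cfsg.Prelude.Def_Classical
import Cfsg.Agent.Helper6.OrthBridge

set_option autoImplicit false

namespace Cfsg.Agent.Helper6

open QuadraticMap

section OrthOdd

variable {F : Type*} [Field F]

/-- the odd-dimensional form as a quadratic form -/
noncomputable def qfOdd (m : ℕ) (F : Type*) [Field F] :
    QuadraticForm F (Unit ⊕ (Fin m ⊕ Fin m) → F) :=
  QuadraticMap.proj (Sum.inl ()) (Sum.inl ())
    + ∑ i : Fin m, QuadraticMap.proj (Sum.inr (Sum.inl i)) (Sum.inr (Sum.inr i))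

theorem qfOdd_apply (m : ℕ) (x : Unit ⊕ (Fin m ⊕ Fin m) → F) :
    qfOdd m F x = x (Sum.inl ()) * x (Sum.inl ())
      + ∑ i : Fin m, x (Sum.inr (Sum.inl i)) * x (Sum.inr (Sum.inr i)) := by
  simp [qfOdd, sum_apply]

theorem qfOdd_polar (m : ℕ) (x y : Unit ⊕ (Fin m ⊕ Fin m) → F) :
    polar (qfOdd m F) x y = 2 * x (Sum.inl ()) * y (Sum.inl ())
      + ∑ i : Fin m, (x (Sum.inr (Sum.inl i)) * y (Sum.inr (Sum.inr i))
        + y (Sum.inr (Sum.inl i)) * x (Sum.inr (Sum.inr i))) := by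
  unfold polar
  simp only [qfOdd_apply, Pi.add_apply]
  have h : ∀ (a b c d e f : F), a + b - (c + d) - (e + f) = (a - c - e) + (b - d - f) := by
    intros
    ring
  rw [h, ← Finset.sum_sub_distrib, ← Finset.sum_sub_distrib]
  congr 1
  · ring
  · apply Finset.sum_congr rfl
    intro i _
    ring

theorem qfOdd_ND (m : ℕ) (h2 : (2 : F) ≠ 0) (x : Unit ⊕ (Fin m ⊕ Fin m) → F) (hx : x ≠ 0) :
    ∃ y, polar (qfOdd m F) x y ≠ 0 := by
  classical
  obtain ⟨k, hk⟩ := Function.ne_iff.1 hx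
  rcases k with ⟨⟩ | i | i
  · refine ⟨Pi.single (Sum.inl ()) 1, ?_⟩
    rw [qfOdd_polar]
    simpa [Pi.single_apply, h2] using hk
  · refine ⟨Pi.single (Sum.inr (Sum.inr i)) 1, ?_⟩
    rw [qfOdd_polar]
    simpa [Pi.single_apply] using hk
  · refine ⟨Pi.single (Sum.inr (Sum.inl i)) 1, ?_⟩
    rw [qfOdd_polar]
    simpa [Pi.single_apply] using hk

theorem qfOdd_std (m : ℕ) :
    ((fun i : Fin m => (Pi.single (Sum.inr (Sum.inl i)) (1 : F) : Unit ⊕ (Fin m ⊕ Fin m) → F)),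
      (fun i : Fin m => (Pi.single (Sum.inr (Sum.inr i)) (1 : F) : Unit ⊕ (Fin m ⊕ Fin m) → F)))
      ∈ frm (qfOdd m F) m := by
  classical
  refine ⟨fun i k => ?_, fun i k => ?_, fun i k => ?_, fun i => ?_, fun i => ?_⟩
  · rw [qfOdd_polar]
    simp [Pi.single_apply]
  · rw [qfOdd_polar]
    simp [Pi.single_apply]
  · rw [qfOdd_polar]
    by_cases h : i = k
    · subst h
      simp [Pi.single_apply]
    · simp [Pi.single_apply, h, Ne.symm h]
  · rw [qfOdd_apply]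
    simp [Pi.single_apply]
  · rw [qfOdd_apply]
    simp [Pi.single_apply]

theorem qfOdd_cpl_std (m : ℕ) (x : Unit ⊕ (Fin m ⊕ Fin m) → F) :
    x ∈ cpl (qfOdd m F)
        (fun i : Fin m => (Pi.single (Sum.inr (Sum.inl i)) (1 : F) : Unit ⊕ (Fin m ⊕ Fin m) → F))
        (fun i : Fin m => (Pi.single (Sum.inr (Sum.inr i)) (1 : F) : Unit ⊕ (Fin m ⊕ Fin m) → F))
      ↔ ∀ j, x (Sum.inr j) = 0 := by
  classical
  constructor
  · intro hx j
    rcases j with i | i
    · have h := (hx i).2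
      rw [qfOdd_polar] at h
      simpa [Pi.single_apply] using h
    · have h := (hx i).1
      rw [qfOdd_polar] at h
      simpa [Pi.single_apply] using h
  · intro hx i
    constructor
    · rw [qfOdd_polar]
      simp [Pi.single_apply, hx]
    · rw [qfOdd_polar]
      simp [Pi.single_apply, hx]

theorem qfOdd_val_std (m : ℕ) (x : Unit ⊕ (Fin m ⊕ Fin m) → F) (hx : ∀ j, x (Sum.inr j) = 0) :
    qfOdd m F x = x (Sum.inl ()) * x (Sum.inl ()) := by
  rw [qfOdd_apply]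
  simp [hx]

theorem qfOdd_ani (m : ℕ) :
    Nat.card {x : ↥(cpl (qfOdd m F)
        (fun i : Fin m => (Pi.single (Sum.inr (Sum.inl i)) (1 : F) : Unit ⊕ (Fin m ⊕ Fin m) → F))
        (fun i : Fin m => (Pi.single (Sum.inr (Sum.inr i)) (1 : F) : Unit ⊕ (Fin m ⊕ Fin m) → F))) //
      qfOdd m F x.1 = 0} = 1 := by
  classical
  rw [Nat.card_eq_one_iff_unique]
  refine ⟨⟨fun a b => ?_⟩, ⟨⟨0, QuadraticMap.map_zero _⟩⟩⟩
  have h0 : ∀ a : {x : ↥(cpl (qfOdd m F)
      (fun i : Fin m => (Pi.single (Sum.inr (Sum.inl i)) (1 : F) : Unit ⊕ (Fin m ⊕ Fin m) → F))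
      (fun i : Fin m => (Pi.single (Sum.inr (Sum.inr i)) (1 : F) : Unit ⊕ (Fin m ⊕ Fin m) → F))) //
      qfOdd m F x.1 = 0}, a.1.1 = 0 := by
    intro a
    have h1 := (qfOdd_cpl_std m a.1.1).1 a.1.2
    have h2 := a.2
    rw [qfOdd_val_std m _ h1] at h2
    funext k
    rcases k with ⟨⟩ | j
    · exact mul_self_eq_zero.1 h2
    · exact h1 j
  exact Subtype.ext (Subtype.ext ((h0 a).trans (h0 b).symm))

theorem card_sq_one (h2 : (2 : F) ≠ 0) : Nat.card {t : F // t * t = 1} = 2 := by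
  rw [Nat.card_eq_two_iff]
  refine ⟨⟨1, mul_one 1⟩, ⟨-1, by ring⟩, ?_, ?_⟩
  · intro h
    have h' : (1 : F) = -1 := congrArg Subtype.val h
    apply h2
    linear_combination h'
  · apply Set.eq_univ_of_forall
    rintro ⟨t, ht⟩
    have h3 : (t - 1) * (t + 1) = 0 := by linear_combination ht
    rcases mul_eq_zero.1 h3 with h | h
    · left
      exact Subtype.ext (sub_eq_zero.1 h)
    · right
      exact Subtype.ext (eq_neg_of_add_eq_zero_left h)

theorem qfOdd_one (m : ℕ) (h2 : (2 : F) ≠ 0) :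
    Nat.card {x : ↥(cpl (qfOdd m F)
        (fun i : Fin m => (Pi.single (Sum.inr (Sum.inl i)) (1 : F) : Unit ⊕ (Fin m ⊕ Fin m) → F))
        (fun i : Fin m => (Pi.single (Sum.inr (Sum.inr i)) (1 : F) : Unit ⊕ (Fin m ⊕ Fin m) → F))) //
      qfOdd m F x.1 = 1} = 2 := by
  classical
  rw [← card_sq_one h2]
  refine Nat.card_congr
    { toFun := fun x => ⟨x.1.1 (Sum.inl ()), ?_⟩
      invFun := fun t => ⟨⟨t.1 • Pi.single (Sum.inl ()) 1, ?_⟩, ?_⟩
      left_inv := fun x => ?_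
      right_inv := fun t => ?_ }
  · have h1 := (qfOdd_cpl_std m x.1.1).1 x.1.2
    have h3 := x.2
    rw [qfOdd_val_std m _ h1] at h3
    exact h3
  · rw [qfOdd_cpl_std]
    intro j
    simp
  · show qfOdd m F (t.1 • Pi.single (Sum.inl ()) 1) = 1
    rw [qfOdd_val_std m _ (by intro j; simp)]
    simpa using t.2
  · apply Subtype.ext
    apply Subtype.ext
    have h1 := (qfOdd_cpl_std m x.1.1).1 x.1.2
    funext k
    rcases k with ⟨⟩ | j
    · simp
    · simp [h1 j]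
  · apply Subtype.ext
    simp

theorem odd_card [Fintype F] (m : ℕ) (h2 : (2 : F) ≠ 0) :
    Nat.card ↥(Cfsg.isometryGroup F (Cfsg.quadFormOdd m F))
      = Nat.card (Σ p : ↥(frm (qfOdd m F) m),
          {w : ↥(cpl (qfOdd m F) p.1.1 p.1.2) // qfOdd m F w.1 = 1}) := by
  classical
  rw [iso_card_eq (qfOdd m F) (qfOdd_ND m h2) (Cfsg.quadFormOdd m F)
    (fun x => by rw [qfOdd_apply, ← pow_two]; rfl)]
  have hs0 : ∀ j : Fin m ⊕ Fin m, polar (qfOdd m F) (Pi.single (Sum.inr j) 1)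
      (Pi.single (Sum.inl ()) 1) = 0 := by
    intro j
    rw [qfOdd_polar]
    rcases j with i | i <;> simp [Pi.single_apply]
  have hs1 : qfOdd m F (Pi.single (Sum.inl ()) 1) = 1 := by
    rw [qfOdd_apply]
    simp [Pi.single_apply]
  refine Nat.card_congr
    { toFun := fun b => ⟨⟨(fun i => b.1 (Sum.inr (Sum.inl i)), fun i => b.1 (Sum.inr (Sum.inr i))),
        ?_⟩, ⟨⟨b.1 (Sum.inl ()), ?_⟩, ?_⟩⟩
      invFun := fun s => ⟨Sum.elim (fun _ => s.2.1.1) (Sum.elim s.1.1.1 s.1.1.2), ?_⟩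
      left_inv := fun b => Subtype.ext (by
        funext j
        rcases j with ⟨⟩ | i | i <;> rfl)
      right_inv := fun s => rfl }
  · obtain ⟨h1, h2'⟩ := basis_vals (qfOdd m F) (qfOdd m F) b.1 b.2
    obtain ⟨s1, s2, s3, s4, s5⟩ := qfOdd_std (F := F) m
    exact ⟨fun i k => (h2' _ _).trans (s1 i k), fun i k => (h2' _ _).trans (s2 i k),
      fun i k => (h2' _ _).trans (s3 i k), fun i => (h1 _).trans (s4 i),
      fun i => (h1 _).trans (s5 i)⟩
  · obtain ⟨h1, h2'⟩ := basis_vals (qfOdd m F) (qfOdd m F) b.1 b.2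
    intro i
    exact ⟨(h2' _ _).trans (hs0 _), (h2' _ _).trans (hs0 _)⟩
  · obtain ⟨h1, h2'⟩ := basis_vals (qfOdd m F) (qfOdd m F) b.1 b.2
    exact (h1 _).trans hs1
  · intro x
    rw [Fintype.sum_sum_type, Fintype.sum_sum_type]
    simp only [Sum.elim_inl, Sum.elim_inr, Finset.univ_unique, Finset.sum_singleton]
    rw [← Finset.sum_add_distrib, add_comm]
    have h := qf_frame_sum (qfOdd m F) m s.1.1.1 s.1.1.2 s.1.2 (fun i => x (Sum.inr (Sum.inl i)))
      (fun i => x (Sum.inr (Sum.inr i))) (x (Sum.inl ()) • s.2.1.1)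
      (Submodule.smul_mem _ _ s.2.1.2)
    rw [h, QuadraticMap.map_smul, s.2.2, qfOdd_apply, smul_eq_mul, mul_one, add_comm]

theorem odd_count [Fintype F] (m : ℕ) (h2 : (2 : F) ≠ 0) :
    Nat.card ↥(Cfsg.isometryGroup F (Cfsg.quadFormOdd m F)) * Fintype.card F ^ (2 * m)
      = 2 * ∏ i ∈ Finset.range m, ((Fintype.card F ^ (2 * (m - i)) - 1)
          * Fintype.card F ^ (2 * (m - i) + 1)) := by
  classical
  have hV : Nat.card (Unit ⊕ (Fin m ⊕ Fin m) → F) = Fintype.card F ^ (2 * m + 1) := by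
    rw [Nat.card_eq_fintype_card, Fintype.card_fun, Fintype.card_sum, Fintype.card_sum,
      Fintype.card_fin, Fintype.card_unit]
    congr 1
    omega
  obtain ⟨g1, g2⟩ := frm_gen (qfOdd m F) (qfOdd_ND m h2) m 1 hV _ _ (qfOdd_std m) (qfOdd_ani m)
    (fun r => Fintype.card F ^ (2 * r)) (fun r => by ring)
  haveI : Fintype ↥(frm (qfOdd m F) m) := Fintype.ofFinite _
  rw [odd_card m h2, Nat.card_sigma,
    Finset.sum_congr rfl (fun p _ => (g2 p.1.1 p.1.2 p.2 1).trans (qfOdd_one m h2)),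
    Finset.sum_const, Finset.card_univ, smul_eq_mul, ← Nat.card_eq_fintype_card,
    ← g1 m le_rfl]
  ring

end OrthOdd

end Cfsg.Agent.Helper6
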