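import Mathlib
import Cfsg.Agent.S0768
import Cfsg.Agent.S0765
import Cfsg.Agent.Helper6.Symp2

set_option autoImplicit false

namespace Cfsg.Agent.Helper6

open Matrix

variable {F : Type*} [Field F] {m : ℕ}

/-- a transvection as an element of `Sp` -/
def tvS (w : Fin m ⊕ Fin m → F) (c : F) : Matrix.symplecticGroup (Fin m) F :=
  ⟨Cfsg.sympTransvection m w c, S0764.result m w c⟩

theorem tvS_mulVec (w : Fin m ⊕ Fin m → F) (c : F) (x : Fin m ⊕ Fin m → F) :
    (tvS w c : Matrix (Fin m ⊕ Fin m) (Fin m ⊕ Fin m) F) *ᵥ x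
      = x + (c * Cfsg.sympForm m F x w) • w := tv_mulVec w c x

theorem sp_ext (A B : Matrix.symplecticGroup (Fin m) F)
    (h : ∀ x : Fin m ⊕ Fin m → F, (A : Matrix (Fin m ⊕ Fin m) (Fin m ⊕ Fin m) F) *ᵥ x
      = (B : Matrix (Fin m ⊕ Fin m) (Fin m ⊕ Fin m) F) *ᵥ x) : A = B := by
  classical
  apply Subtype.ext
  ext i j
  have h1 := congrFun (h (Pi.single j 1)) i
  rw [Matrix.mulVec_single_one, Matrix.mulVec_single_one] at h1
  exact h1

theorem tvS_conj (A : Matrix.symplecticGroup (Fin m) F) (w : Fin m ⊕ Fin m → F) (c : F) :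
    A * tvS w c * A⁻¹ = tvS ((A : Matrix (Fin m ⊕ Fin m) (Fin m ⊕ Fin m) F) *ᵥ w) c := by
  apply sp_ext
  intro x
  have h1 : Cfsg.sympForm m F
      (((A⁻¹ : Matrix.symplecticGroup (Fin m) F) : Matrix (Fin m ⊕ Fin m) (Fin m ⊕ Fin m) F) *ᵥ x) w
      = Cfsg.sympForm m F x ((A : Matrix (Fin m ⊕ Fin m) (Fin m ⊕ Fin m) F) *ᵥ w) := by
    conv_rhs => rw [← sp_mulVec_inv A x]
    rw [sp_preserves]
  rw [sp_coe_mul, sp_coe_mul, ← Matrix.mulVec_mulVec, ← Matrix.mulVec_mulVec, tvS_mulVec,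
    tvS_mulVec, Matrix.mulVec_add, Matrix.mulVec_smul, sp_mulVec_inv, h1]

theorem tvS_mul (w : Fin m ⊕ Fin m → F) (c d : F) : tvS w c * tvS w d = tvS w (c + d) := by
  apply sp_ext
  intro x
  rw [sp_coe_mul, ← Matrix.mulVec_mulVec, tvS_mulVec, tvS_mulVec, tvS_mulVec]
  simp only [sf_add_left, sf_smul_left, sf_self, mul_zero, add_zero]
  module

theorem tvS_zero (w : Fin m ⊕ Fin m → F) : tvS w (0 : F) = 1 := by
  apply sp_ext
  intro x
  rw [tvS_mulVec, sp_coe_one, Matrix.one_mulVec, zero_mul, zero_smul, add_zero]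

theorem tvS_zero_vec (c : F) : tvS (0 : Fin m ⊕ Fin m → F) c = 1 := by
  apply sp_ext
  intro x
  rw [tvS_mulVec, sp_coe_one, Matrix.one_mulVec, smul_zero, add_zero]

theorem tvS_inv (w : Fin m ⊕ Fin m → F) (c : F) : (tvS w c)⁻¹ = tvS w (-c) := by
  apply inv_eq_of_mul_eq_one_right
  rw [tvS_mul, add_neg_cancel, tvS_zero]

theorem tvS_smul (a : F) (w : Fin m ⊕ Fin m → F) (c : F) : tvS (a • w) c = tvS w (a ^ 2 * c) := by
  apply sp_ext
  intro x
  rw [tvS_mulVec, tvS_mulVec, sf_smul_right, smul_smul]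
  congr 2
  ring

theorem comm_mem {G : Type*} [Group G] (g t : G) : g * t * g⁻¹ * t⁻¹ ∈ commutator G := by
  rw [← commutatorElement_def, commutator_def]
  exact Subgroup.commutator_mem_commutator (Subgroup.mem_top g) (Subgroup.mem_top t)

theorem sp_perfect_of (w₀ : Fin m ⊕ Fin m → F) (hw₀ : w₀ ≠ 0)
    (h : ∀ c : F, tvS w₀ c ∈ commutator (Matrix.symplecticGroup (Fin m) F)) :
    commutator (Matrix.symplecticGroup (Fin m) F) = ⊤ := by
  rw [eq_top_iff, ← S0765.result m]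
  apply (Subgroup.closure_le _).2
  rintro A ⟨w, c, hA⟩
  have hA' : A = tvS w c := Subtype.ext hA
  by_cases hw : w = 0
  · rw [hA', hw, tvS_zero_vec]
    exact Subgroup.one_mem _
  · obtain ⟨g, -, hg, -⟩ := slemma1 (⊤ : Submodule F (Fin m ⊕ Fin m → F)) S0768.top_nondeg w₀ w
      trivial trivial hw₀ hw
    have h1 : A = g * tvS w₀ c * g⁻¹ := by rw [hA', tvS_conj, hg]
    rw [h1]
    show g * tvS w₀ c * g⁻¹ ∈ commutator (Matrix.symplecticGroup (Fin m) F)
    exact (inferInstance : (commutator (Matrix.symplecticGroup (Fin m) F)).Normal).conj_mem _ (h c) g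

theorem sp_perfect_A [Fintype F] (hq : 4 ≤ Fintype.card F) (hm : 1 ≤ m) :
    commutator (Matrix.symplecticGroup (Fin m) F) = ⊤ := by
  classical
  obtain ⟨a, ha0, ha1⟩ : ∃ a : F, a ≠ 0 ∧ a ^ 2 ≠ 1 := by
    by_contra hcon
    push_neg at hcon
    have hsub : (Finset.univ : Finset F) ⊆ {0, 1, -1} := by
      intro a _
      by_cases ha : a = 0
      · simp [ha]
      · have h1 := hcon a ha
        have h2 : (a - 1) * (a + 1) = 0 := by
          have : (a - 1) * (a + 1) = a ^ 2 - 1 := by ring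
          rw [this, h1, sub_self]
        rcases mul_eq_zero.1 h2 with h | h
        · simp [sub_eq_zero.1 h]
        · simp [eq_neg_of_add_eq_zero_left h]
    have h3 := Finset.card_le_card hsub
    rw [Finset.card_univ] at h3
    have h4 : ({0, 1, -1} : Finset F).card ≤ 3 := Finset.card_le_three
    omega
  obtain ⟨w₀, hw₀⟩ : ∃ w₀ : Fin m ⊕ Fin m → F, w₀ ≠ 0 :=
    ⟨Pi.single (Sum.inl ⟨0, hm⟩) 1, by
      intro h
      have := congrFun h (Sum.inl ⟨0, hm⟩)
      simp at this⟩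
  apply sp_perfect_of w₀ hw₀
  intro d
  have haw : a • w₀ ≠ 0 := smul_ne_zero ha0 hw₀
  obtain ⟨g, -, hg, -⟩ := slemma1 (⊤ : Submodule F (Fin m ⊕ Fin m → F)) S0768.top_nondeg w₀
    (a • w₀) trivial trivial hw₀ haw
  have ha2 : a ^ 2 - 1 ≠ 0 := sub_ne_zero.2 ha1
  have key : g * tvS w₀ (d / (a ^ 2 - 1)) * g⁻¹ * (tvS w₀ (d / (a ^ 2 - 1)))⁻¹ = tvS w₀ d := by
    rw [tvS_conj, hg, tvS_smul, tvS_inv, tvS_mul]
    congr 1
    field_simp
    ring
  rw [← key]
  exact comm_mem _ _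

theorem sp_perfect_B (h2 : (2 : F) ≠ 0) (hm : 2 ≤ m) :
    commutator (Matrix.symplecticGroup (Fin m) F) = ⊤ := by
  classical
  obtain ⟨w₀, hw₀def⟩ : ∃ w₀ : Fin m ⊕ Fin m → F,
      w₀ = Pi.single (Sum.inl ⟨0, by omega⟩) 1 := ⟨_, rfl⟩
  obtain ⟨u, hudef⟩ : ∃ u : Fin m ⊕ Fin m → F,
      u = Pi.single (Sum.inl ⟨1, by omega⟩) 1 := ⟨_, rfl⟩
  have hwu : Cfsg.sympForm m F w₀ u = 0 := by
    rw [hudef, sf_single_inl, hw₀def]
    simp
  have huw : Cfsg.sympForm m F u w₀ = 0 := by rw [sf_swap, hwu, neg_zero]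
  have hw0 : w₀ ≠ 0 := by
    intro h
    have := congrFun h (Sum.inl ⟨0, by omega⟩)
    simp [hw₀def] at this
  have hu0 : u ≠ 0 := by
    intro h
    have := congrFun h (Sum.inl ⟨1, by omega⟩)
    simp [hudef] at this
  have hp : w₀ + u ≠ 0 := by
    intro h
    have := congrFun h (Sum.inl ⟨0, by omega⟩)
    simp [hw₀def, hudef] at this
  have hmn : w₀ - u ≠ 0 := by
    intro h
    have := congrFun h (Sum.inl ⟨0, by omega⟩)
    simp [hw₀def, hudef] at this
  obtain ⟨g₁, -, hg₁, -⟩ := slemma1 (⊤ : Submodule F (Fin m ⊕ Fin m → F)) S0768.top_nondeg w₀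
    (w₀ + u) trivial trivial hw0 hp
  obtain ⟨g₂, -, hg₂, -⟩ := slemma1 (⊤ : Submodule F (Fin m ⊕ Fin m → F)) S0768.top_nondeg w₀
    (w₀ - u) trivial trivial hw0 hmn
  apply sp_perfect_of u hu0
  intro d
  obtain ⟨c, hc⟩ : ∃ c : F, d = 2 * c := ⟨d / 2, by field_simp⟩
  subst hc
  have key : (g₁ * tvS w₀ c * g₁⁻¹ * (tvS w₀ c)⁻¹) * (g₂ * tvS w₀ c * g₂⁻¹ * (tvS w₀ c)⁻¹)
      = tvS u (2 * c) := by
    rw [tvS_conj, tvS_conj, hg₁, hg₂, tvS_inv]
    apply sp_ext
    intro x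
    simp only [sp_coe_mul, ← Matrix.mulVec_mulVec, tvS_mulVec]
    simp only [sf_add_left, sf_add_right, sf_sub_right, sf_sub_left, sf_smul_left, sf_self, hwu,
      huw, mul_zero, add_zero, zero_add, sub_zero, zero_sub, neg_zero]
    module
  rw [← key]
  exact Subgroup.mul_mem _ (comm_mem _ _) (comm_mem _ _)

theorem sg_mulVec (a b : Fin m ⊕ Fin m → F) (hab : Cfsg.sympForm m F a b = 0) (c : F)
    (x : Fin m ⊕ Fin m → F) :
    ((tvS (a + b) c * tvS a (-c) * tvS b (-c) : Matrix.symplecticGroup (Fin m) F) :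
      Matrix (Fin m ⊕ Fin m) (Fin m ⊕ Fin m) F) *ᵥ x
      = x + c • (Cfsg.sympForm m F x a • b + Cfsg.sympForm m F x b • a) := by
  have hba : Cfsg.sympForm m F b a = 0 := by rw [sf_swap, hab, neg_zero]
  simp only [sp_coe_mul, ← Matrix.mulVec_mulVec, tvS_mulVec]
  simp only [sf_add_left, sf_add_right, sf_smul_left, sf_self, hab, hba, mul_zero, add_zero,
    zero_add]
  module

theorem sp_perfect_C (hm : 3 ≤ m) :
    commutator (Matrix.symplecticGroup (Fin m) F) = ⊤ := by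
  classical
  obtain ⟨a, hadef⟩ : ∃ a : Fin m ⊕ Fin m → F,
      a = Pi.single (Sum.inl ⟨0, by omega⟩) 1 := ⟨_, rfl⟩
  obtain ⟨b, hbdef⟩ : ∃ b : Fin m ⊕ Fin m → F,
      b = Pi.single (Sum.inl ⟨1, by omega⟩) 1 := ⟨_, rfl⟩
  obtain ⟨b', hb'def⟩ : ∃ b' : Fin m ⊕ Fin m → F,
      b' = Pi.single (Sum.inl ⟨2, by omega⟩) 1 := ⟨_, rfl⟩
  have hab : Cfsg.sympForm m F a b = 0 := by
    rw [hbdef, sf_single_inl, hadef]
    simp
  have hab' : Cfsg.sympForm m F a b' = 0 := by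
    rw [hb'def, sf_single_inl, hadef]
    simp
  have hbb' : Cfsg.sympForm m F b b' = 0 := by
    rw [hb'def, sf_single_inl, hbdef]
    simp
  have hba : Cfsg.sympForm m F b a = 0 := by rw [sf_swap, hab, neg_zero]
  have hb'a : Cfsg.sympForm m F b' a = 0 := by rw [sf_swap, hab', neg_zero]
  have hb'b : Cfsg.sympForm m F b' b = 0 := by rw [sf_swap, hbb', neg_zero]
  have ha0 : a ≠ 0 := by
    intro h
    have := congrFun h (Sum.inl ⟨0, by omega⟩)
    simp [hadef] at this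
  have hb0 : b ≠ 0 := by
    intro h
    have := congrFun h (Sum.inl ⟨1, by omega⟩)
    simp [hbdef] at this
  have hb'0 : b' ≠ 0 := by
    intro h
    have := congrFun h (Sum.inl ⟨2, by omega⟩)
    simp [hb'def] at this
  have hbb'0 : b + b' ≠ 0 := by
    intro h
    have := congrFun h (Sum.inl ⟨1, by omega⟩)
    simp [hbdef, hb'def] at this
  have hab'0 : a + b' ≠ 0 := by
    intro h
    have := congrFun h (Sum.inl ⟨0, by omega⟩)
    simp [hadef, hb'def] at this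
  obtain ⟨g, -, hg, -⟩ := slemma1 (⊤ : Submodule F (Fin m ⊕ Fin m → F)) S0768.top_nondeg a
    (a + b') trivial trivial ha0 hab'0
  have hbU : b ∈ sVk F m 1 := by
    rw [hbdef]
    exact single_inl_mem_sVk 1 _ (by simp)
  have hb'U : b' ∈ sVk F m 1 := by
    rw [hb'def]
    exact single_inl_mem_sVk 1 _ (by simp)
  obtain ⟨h, hh, hhb, -⟩ := slemma1 (sVk F m 1) (sVk_nondeg 1) b (b + b') hbU
    (Submodule.add_mem _ hbU hb'U) hb0 hbb'0
  have hha : (h : Matrix (Fin m ⊕ Fin m) (Fin m ⊕ Fin m) F) *ᵥ a = a :=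
    sfix_perp (sVk F m 1) h hh a (fun w hw => sf_sUk_sVk 1 a w (by
      rw [hadef]
      exact single_inl_mem_sUk 1 _ (by simp)) hw)
  apply sp_perfect_of b' hb'0
  intro d
  obtain ⟨c, hc⟩ : ∃ c : F, d = -c := ⟨-d, by ring⟩
  subst hc
  have hX : g * tvS a c * g⁻¹ * (tvS a c)⁻¹ = tvS (a + b') c * tvS a (-c) := by
    rw [tvS_conj, hg, tvS_inv]
  have hS' : h * (tvS (a + b) c * tvS a (-c) * tvS b (-c)) * h⁻¹
      = tvS (a + (b + b')) c * tvS a (-c) * tvS (b + b') (-c) := by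
    have h1 : h * (tvS (a + b) c * tvS a (-c) * tvS b (-c)) * h⁻¹
        = (h * tvS (a + b) c * h⁻¹) * (h * tvS a (-c) * h⁻¹) * (h * tvS b (-c) * h⁻¹) := by
      group
    rw [h1, tvS_conj, tvS_conj, tvS_conj, Matrix.mulVec_add, hha, hhb]
  have hfact : tvS (a + (b + b')) c * tvS a (-c) * tvS (b + b') (-c)
      = (tvS (a + b') c * tvS a (-c) * tvS b' (-c)) * (tvS (a + b) c * tvS a (-c) * tvS b (-c)) := by
    apply sp_ext
    intro x
    have habb' : Cfsg.sympForm m F a (b + b') = 0 := by rw [sf_add_right, hab, hab', add_zero]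
    rw [sg_mulVec a (b + b') habb', sp_coe_mul, ← Matrix.mulVec_mulVec, sg_mulVec a b hab,
      sg_mulVec a b' hab']
    simp only [sf_add_left, sf_add_right, sf_smul_left, sf_self, hab, hab', hbb', hba, hb'a, hb'b,
      mul_zero, add_zero, zero_add]
    module
  have hY : h * (tvS (a + b) c * tvS a (-c) * tvS b (-c)) * h⁻¹
      * (tvS (a + b) c * tvS a (-c) * tvS b (-c))⁻¹ = tvS (a + b') c * tvS a (-c) * tvS b' (-c) := by
    rw [hS', hfact, mul_inv_cancel_right]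
  have key : (g * tvS a c * g⁻¹ * (tvS a c)⁻¹)⁻¹
      * (h * (tvS (a + b) c * tvS a (-c) * tvS b (-c)) * h⁻¹
        * (tvS (a + b) c * tvS a (-c) * tvS b (-c))⁻¹) = tvS b' (-c) := by
    rw [hX, hY]
    group
  rw [← key]
  exact Subgroup.mul_mem _ (Subgroup.inv_mem _ (comm_mem _ _)) (comm_mem _ _)

theorem sp_perfect [Fintype F] (m : ℕ)
    (h : 3 ≤ m ∨ (m = 2 ∧ 3 ≤ Fintype.card F) ∨ 4 ≤ Fintype.card F) :
    commutator (Matrix.symplecticGroup (Fin m) F) = ⊤ := by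
  classical
  rcases h with h | ⟨h1, h2⟩ | h
  · exact sp_perfect_C h
  · by_cases h4 : 4 ≤ Fintype.card F
    · exact sp_perfect_A h4 (by omega)
    · have h3 : Fintype.card F = 3 := by omega
      refine sp_perfect_B ?_ (by omega)
      intro h20
      have h5 : addOrderOf (1 : F) ∣ 2 := by
        apply addOrderOf_dvd_of_nsmul_eq_zero
        rw [two_nsmul, ← one_add_one_eq_two] at *
        exact h20
      have h6 : addOrderOf (1 : F) ∣ 3 := by
        rw [← h3]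
        exact addOrderOf_dvd_card
      have h7 : addOrderOf (1 : F) ∣ 1 := by
        have := Nat.dvd_sub h6 h5
        simpa using this
      have h8 : addOrderOf (1 : F) = 1 := Nat.dvd_one.1 h7
      rw [AddMonoid.addOrderOf_eq_one_iff] at h8
      exact one_ne_zero h8
  · rcases Nat.eq_zero_or_pos m with h0 | h0
    · subst h0
      rw [eq_top_iff]
      intro x _
      have hx : x = 1 := Subtype.ext (Matrix.ext (fun i _ => (IsEmpty.false i).elim))
      rw [hx]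
      exact Subgroup.one_mem _
    · exact sp_perfect_A h h0

end Cfsg.Agent.Helper6
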