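import Mathlib

set_option autoImplicit false

namespace Cfsg.Agent.Helper6

open Matrix

/-- 2×2 matrices over `ZMod p`, coded as 4-tuples of naturals. -/
abbrev T4 := ℕ × ℕ × ℕ × ℕ

/-- The code of the identity matrix. -/
def t4one : T4 := (1, 0, 0, 1)

/-- Multiplication of codes, reduced mod `p`. -/
def t4mul (p : ℕ) (x y : T4) : T4 :=
  ((x.1 * y.1 + x.2.1 * y.2.2.1) % p, (x.1 * y.2.1 + x.2.1 * y.2.2.2) % p,
   (x.2.2.1 * y.1 + x.2.2.2 * y.2.2.1) % p, (x.2.2.1 * y.2.1 + x.2.2.2 * y.2.2.2) % p)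

/-- The matrix of a code. -/
def t4mat (p : ℕ) (x : T4) : Matrix (Fin 2) (Fin 2) (ZMod p) :=
  !![(x.1 : ZMod p), (x.2.1 : ZMod p); (x.2.2.1 : ZMod p), (x.2.2.2 : ZMod p)]

theorem t4mat_one (p : ℕ) : t4mat p t4one = 1 := by
  simp [t4mat, t4one, Matrix.one_fin_two]

theorem t4mat_mul (p : ℕ) (x y : T4) : t4mat p (t4mul p x y) = t4mat p x * t4mat p y := by
  simp only [t4mat, t4mul, Matrix.mul_fin_two, ZMod.natCast_mod]
  push_cast
  rfl

/-- Evaluation of a word (list of indices into the list of generator codes). -/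
def t4eval (p : ℕ) (gs : List T4) (w : List ℕ) : T4 :=
  w.foldr (fun i acc => t4mul p (gs.getD i t4one) acc) t4one

/-- The check: `L` is the list of values of the words `ws`, contains the identity code, and is
closed under left multiplication by the generator codes. -/
def t4check (p : ℕ) (gs L : List T4) (ws : List (List ℕ)) : Bool :=
  (L == ws.map (t4eval p gs)) && (L.contains t4one &&
  gs.all (fun t => L.all (fun x => L.contains (t4mul p t x))))

/-- The check: the codes in `L` are reduced and distinct. -/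
def t4nodup (p : ℕ) (L : List T4) : Bool :=
  L.all (fun x => decide (x.1 < p) && (decide (x.2.1 < p) && (decide (x.2.2.1 < p) &&
    decide (x.2.2.2 < p)))) && decide L.Nodup

/-- The check: no non-identity code in `L` has eigenvalue one. -/
def t4free (p : ℕ) (L : List T4) : Bool :=
  L.all (fun x => x == t4one ||
    ((x.1 + (p - 1)) * (x.2.2.2 + (p - 1)) + (p - 1) * (x.2.1 * x.2.2.1)) % p != 0)

section
variable {p : ℕ} [Fact p.Prime]

theorem t4eval_mem (S : Set (GL (Fin 2) (ZMod p))) (gs : List T4)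
    (hgs : ∀ t ∈ gs, ∃ s ∈ S, (s : Matrix (Fin 2) (Fin 2) (ZMod p)) = t4mat p t) (w : List ℕ) :
    ∃ g ∈ Subgroup.closure S,
      (g : Matrix (Fin 2) (Fin 2) (ZMod p)) = t4mat p (t4eval p gs w) := by
  induction w with
  | nil => exact ⟨1, Subgroup.one_mem _, by simp [t4eval, t4mat_one]⟩
  | cons i w ih =>
    obtain ⟨g, hg, hgm⟩ := ih
    have hstep : t4eval p gs (i :: w) = t4mul p (gs.getD i t4one) (t4eval p gs w) := rfl
    rw [hstep, t4mat_mul, ← hgm]
    by_cases hi : i < gs.length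
    · rw [List.getD_eq_getElem _ _ hi]
      obtain ⟨s, hs, hsm⟩ := hgs _ (List.getElem_mem hi)
      exact ⟨s * g, Subgroup.mul_mem _ (Subgroup.subset_closure hs) hg, by
        rw [Units.val_mul, hsm]⟩
    · rw [List.getD_eq_default _ _ (not_lt.1 hi), t4mat_one, one_mul]
      exact ⟨g, hg, rfl⟩

theorem t4_mem_closure_iff (S : Set (GL (Fin 2) (ZMod p))) (gs L : List T4) (ws : List (List ℕ))
    (hS : ∀ s ∈ S, ∃ t ∈ gs, (s : Matrix (Fin 2) (Fin 2) (ZMod p)) = t4mat p t)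
    (hgs : ∀ t ∈ gs, ∃ s ∈ S, (s : Matrix (Fin 2) (Fin 2) (ZMod p)) = t4mat p t)
    (hchk : t4check p gs L ws = true) (h : GL (Fin 2) (ZMod p)) :
    h ∈ Subgroup.closure S ↔ ∃ x ∈ L, (h : Matrix (Fin 2) (Fin 2) (ZMod p)) = t4mat p x := by
  haveI : NeZero p := ⟨(Fact.out : p.Prime).ne_zero⟩
  simp only [t4check, Bool.and_eq_true, beq_iff_eq, List.contains_iff_mem, List.all_eq_true]
    at hchk
  obtain ⟨hL, h1, hcl⟩ := hchk
  constructor
  · intro hh
    have hstep : ∀ s ∈ S, ∀ y : GL (Fin 2) (ZMod p),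
        (∃ x ∈ L, (y : Matrix (Fin 2) (Fin 2) (ZMod p)) = t4mat p x) →
        ∃ x ∈ L, ((s * y : GL (Fin 2) (ZMod p)) : Matrix (Fin 2) (Fin 2) (ZMod p)) = t4mat p x := by
      rintro s hs y ⟨x, hx, hyx⟩
      obtain ⟨t, ht, hst⟩ := hS s hs
      exact ⟨t4mul p t x, hcl t ht x hx, by rw [Units.val_mul, hst, hyx, t4mat_mul]⟩
    have hpow : ∀ s ∈ S, ∀ (k : ℕ) (y : GL (Fin 2) (ZMod p)),
        (∃ x ∈ L, (y : Matrix (Fin 2) (Fin 2) (ZMod p)) = t4mat p x) →
        ∃ x ∈ L, ((s ^ k * y : GL (Fin 2) (ZMod p)) : Matrix (Fin 2) (Fin 2) (ZMod p))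
          = t4mat p x := by
      intro s hs k
      induction k with
      | zero => intro y hy; simpa using hy
      | succ k ih =>
        intro y hy
        rw [pow_succ', mul_assoc]
        exact hstep s hs _ (ih y hy)
    induction hh using Subgroup.closure_induction_left with
    | one => exact ⟨t4one, h1, by simp [t4mat_one]⟩
    | mul_left x hx y hy ih => exact hstep x hx y ih
    | inv_mul_cancel x hx y hy ih =>
      have hinv : x⁻¹ = x ^ (orderOf x - 1) := by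
        apply inv_eq_of_mul_eq_one_right
        rw [← pow_succ', Nat.sub_add_cancel (orderOf_pos x), pow_orderOf_eq_one]
      rw [hinv]
      exact hpow x hx _ y ih
  · rintro ⟨x, hx, hhx⟩
    rw [hL, List.mem_map] at hx
    obtain ⟨w, -, rfl⟩ := hx
    obtain ⟨g, hg, hgm⟩ := t4eval_mem S gs hgs w
    have : h = g := Units.ext (hhx.trans hgm.symm)
    rw [this]; exact hg

theorem t4_exists (S : Set (GL (Fin 2) (ZMod p))) (gs L : List T4) (ws : List (List ℕ))
    (hgs : ∀ t ∈ gs, ∃ s ∈ S, (s : Matrix (Fin 2) (Fin 2) (ZMod p)) = t4mat p t)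
    (hchk : t4check p gs L ws = true) (x : T4) (hx : x ∈ L) :
    ∃ g ∈ Subgroup.closure S, (g : Matrix (Fin 2) (Fin 2) (ZMod p)) = t4mat p x := by
  simp only [t4check, Bool.and_eq_true, beq_iff_eq, List.contains_iff_mem, List.all_eq_true]
    at hchk
  obtain ⟨hL, -, -⟩ := hchk
  rw [hL, List.mem_map] at hx
  obtain ⟨w, -, rfl⟩ := hx
  exact t4eval_mem S gs hgs w

theorem t4mat_inj (L : List T4) (hnd : t4nodup p L = true) (x y : T4) (hx : x ∈ L) (hy : y ∈ L)
    (hxy : t4mat p x = t4mat p y) : x = y := by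
  simp only [t4nodup, Bool.and_eq_true, List.all_eq_true, decide_eq_true_eq] at hnd
  obtain ⟨hb, -⟩ := hnd
  obtain ⟨hx1, hx2, hx3, hx4⟩ := hb x hx
  obtain ⟨hy1, hy2, hy3, hy4⟩ := hb y hy
  have e00 := congrFun (congrFun hxy 0) 0
  have e01 := congrFun (congrFun hxy 0) 1
  have e10 := congrFun (congrFun hxy 1) 0
  have e11 := congrFun (congrFun hxy 1) 1
  simp only [t4mat, Matrix.of_apply, Matrix.cons_val', Matrix.cons_val_zero, Matrix.cons_val_one,
    Matrix.cons_val_fin_one] at e00 e01 e10 e11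
  rw [ZMod.natCast_eq_natCast_iff', Nat.mod_eq_of_lt hx1, Nat.mod_eq_of_lt hy1] at e00
  rw [ZMod.natCast_eq_natCast_iff', Nat.mod_eq_of_lt hx2, Nat.mod_eq_of_lt hy2] at e01
  rw [ZMod.natCast_eq_natCast_iff', Nat.mod_eq_of_lt hx3, Nat.mod_eq_of_lt hy3] at e10
  rw [ZMod.natCast_eq_natCast_iff', Nat.mod_eq_of_lt hx4, Nat.mod_eq_of_lt hy4] at e11
  exact Prod.ext e00 (Prod.ext e01 (Prod.ext e10 e11))

theorem t4_card (S : Set (GL (Fin 2) (ZMod p))) (gs L : List T4) (ws : List (List ℕ))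
    (hS : ∀ s ∈ S, ∃ t ∈ gs, (s : Matrix (Fin 2) (Fin 2) (ZMod p)) = t4mat p t)
    (hgs : ∀ t ∈ gs, ∃ s ∈ S, (s : Matrix (Fin 2) (Fin 2) (ZMod p)) = t4mat p t)
    (hchk : t4check p gs L ws = true) (hnd : t4nodup p L = true) :
    Nat.card (Subgroup.closure S) = L.length := by
  classical
  have hiff := t4_mem_closure_iff S gs L ws hS hgs hchk
  have h1 : Nat.card (Subgroup.closure S) = Nat.card {x // x ∈ L} := by
    apply Nat.card_congr
    refine Equiv.ofBijective (fun h => ⟨Classical.choose ((hiff h.1).1 h.2),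
      (Classical.choose_spec ((hiff h.1).1 h.2)).1⟩) ⟨?_, ?_⟩
    · intro h h' hh'
      apply Subtype.ext
      apply Units.ext
      have e1 := (Classical.choose_spec ((hiff h.1).1 h.2)).2
      have e2 := (Classical.choose_spec ((hiff h'.1).1 h'.2)).2
      rw [e1, e2]
      exact congrArg (t4mat p) (congrArg Subtype.val hh')
    · rintro ⟨x, hx⟩
      obtain ⟨g, hg, hgm⟩ := t4_exists S gs L ws hgs hchk x hx
      refine ⟨⟨g, hg⟩, ?_⟩
      apply Subtype.ext
      have e1 := (Classical.choose_spec ((hiff g).1 hg))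
      exact t4mat_inj L hnd _ _ e1.1 hx (e1.2.symm.trans hgm)
  have hnd' : L.Nodup := by
    simp only [t4nodup, Bool.and_eq_true, decide_eq_true_eq] at hnd
    exact hnd.2
  rw [h1, Nat.card_eq_fintype_card, Fintype.card_of_subtype L.toFinset (fun x => List.mem_toFinset),
    List.toFinset_card_of_nodup hnd']

theorem t4_free (S : Set (GL (Fin 2) (ZMod p))) (gs L : List T4) (ws : List (List ℕ))
    (hS : ∀ s ∈ S, ∃ t ∈ gs, (s : Matrix (Fin 2) (Fin 2) (ZMod p)) = t4mat p t)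
    (hgs : ∀ t ∈ gs, ∃ s ∈ S, (s : Matrix (Fin 2) (Fin 2) (ZMod p)) = t4mat p t)
    (hchk : t4check p gs L ws = true) (hfree : t4free p L = true) :
    ∀ h ∈ Subgroup.closure S, ∀ v : Fin 2 → ZMod p, v ≠ 0 →
      (h : Matrix (Fin 2) (Fin 2) (ZMod p)) *ᵥ v = v → h = 1 := by
  intro h hh v hv hhv
  obtain ⟨x, hx, hhx⟩ := (t4_mem_closure_iff S gs L ws hS hgs hchk h).1 hh
  simp only [t4free, List.all_eq_true, Bool.or_eq_true, beq_iff_eq, bne_iff_ne, ne_eq] at hfree
  rcases hfree x hx with h1 | h2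
  · apply Units.ext
    rw [hhx, h1, t4mat_one]
    rfl
  · exfalso
    apply h2
    have hdet : (t4mat p x - 1).det = 0 := by
      apply Matrix.exists_mulVec_eq_zero_iff.1
      exact ⟨v, hv, by rw [Matrix.sub_mulVec, ← hhx, hhv, Matrix.one_mulVec, sub_self]⟩
    have hp1 : ((p - 1 : ℕ) : ZMod p) = -1 := by
      rw [Nat.cast_sub (Fact.out : p.Prime).one_le]
      simp
    have hc : (((x.1 + (p - 1)) * (x.2.2.2 + (p - 1)) + (p - 1) * (x.2.1 * x.2.2.1) : ℕ) : ZMod p)
        = (t4mat p x - 1).det := by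
      rw [Matrix.det_fin_two]
      simp only [t4mat, Matrix.sub_apply, Matrix.of_apply, Matrix.cons_val', Matrix.cons_val_zero,
        Matrix.cons_val_one, Matrix.cons_val_fin_one, Matrix.one_apply_eq, Matrix.one_apply_ne,
        ne_eq, zero_ne_one, one_ne_zero, not_false_eq_true, sub_zero]
      push_cast
      rw [hp1]
      ring
    rw [hdet] at hc
    exact Nat.mod_eq_zero_of_dvd ((ZMod.natCast_eq_zero_iff _ _).1 hc)

theorem regular_of_free (H : Subgroup (GL (Fin 2) (ZMod p))) (hcard : p ^ 2 - 1 ≤ Nat.card H)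
    (hfree : ∀ h ∈ H, ∀ v : Fin 2 → ZMod p, v ≠ 0 →
      (h : Matrix (Fin 2) (Fin 2) (ZMod p)) *ᵥ v = v → h = 1) :
    Nat.card H = p ^ 2 - 1 ∧ ∀ v w : Fin 2 → ZMod p, v ≠ 0 → w ≠ 0 →
      ∃! h : H, Matrix.mulVec ((h : GL (Fin 2) (ZMod p)) : Matrix (Fin 2) (Fin 2) (ZMod p)) v
        = w := by
  classical
  haveI : NeZero p := ⟨(Fact.out : p.Prime).ne_zero⟩
  have hV : Nat.card {w : Fin 2 → ZMod p // w ≠ 0} = p ^ 2 - 1 := by
    rw [Nat.card_eq_fintype_card, Fintype.card_subtype_compl, Fintype.card_fun, ZMod.card,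
      Fintype.card_fin, Fintype.card_subtype_eq]
  have hinj : ∀ v : Fin 2 → ZMod p, v ≠ 0 → ∀ h h' : H,
      ((h : GL (Fin 2) (ZMod p)) : Matrix (Fin 2) (Fin 2) (ZMod p)) *ᵥ v
        = ((h' : GL (Fin 2) (ZMod p)) : Matrix (Fin 2) (Fin 2) (ZMod p)) *ᵥ v → h = h' := by
    intro v hv h h' e
    have h1 := hfree (h⁻¹ * h' : H) (h⁻¹ * h' : H).2 v hv (by
      rw [Subgroup.coe_mul, Units.val_mul, ← Matrix.mulVec_mulVec, ← e, Matrix.mulVec_mulVec,
        ← Units.val_mul, ← Subgroup.coe_mul, inv_mul_cancel]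
      simp)
    have h2 : (h⁻¹ * h' : H) = 1 := Subtype.ext h1
    exact (inv_mul_eq_one.1 h2)
  have hne : ∀ v : Fin 2 → ZMod p, v ≠ 0 → ∀ h : H,
      ((h : GL (Fin 2) (ZMod p)) : Matrix (Fin 2) (Fin 2) (ZMod p)) *ᵥ v ≠ 0 := by
    intro v hv h h0
    apply hv
    have h1 := congrArg (fun u => (((h⁻¹ : H) : GL (Fin 2) (ZMod p)) :
      Matrix (Fin 2) (Fin 2) (ZMod p)) *ᵥ u) h0
    simp only [Matrix.mulVec_mulVec, ← Units.val_mul, ← Subgroup.coe_mul, inv_mul_cancel,
      Matrix.mulVec_zero] at h1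
    simpa using h1
  have hbij : ∀ (v : Fin 2 → ZMod p) (hv : v ≠ 0), Function.Bijective (fun h : H =>
      (⟨((h : GL (Fin 2) (ZMod p)) : Matrix (Fin 2) (Fin 2) (ZMod p)) *ᵥ v, hne v hv h⟩ :
        {w : Fin 2 → ZMod p // w ≠ 0})) ∧ Nat.card H = p ^ 2 - 1 := by
    intro v hv
    have hi : Function.Injective (fun h : H =>
      (⟨((h : GL (Fin 2) (ZMod p)) : Matrix (Fin 2) (Fin 2) (ZMod p)) *ᵥ v, hne v hv h⟩ :
        {w : Fin 2 → ZMod p // w ≠ 0})) := fun h h' e => hinj v hv h h' (congrArg Subtype.val e)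
    have hle := Nat.card_le_card_of_injective _ hi
    rw [hV] at hle
    have heq : Nat.card H = p ^ 2 - 1 := le_antisymm hle hcard
    exact ⟨(Nat.bijective_iff_injective_and_card _).2 ⟨hi, by rw [heq, hV]⟩, heq⟩
  constructor
  · have hv0 : (Pi.single 0 1 : Fin 2 → ZMod p) ≠ 0 := by
      haveI : Nontrivial (ZMod p) := ZMod.nontrivial_iff.2 (Fact.out : p.Prime).ne_one
      intro h0
      have := congrFun h0 0
      simp at this
    exact (hbij _ hv0).2
  · intro v w hv hw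
    obtain ⟨h, hh⟩ := (hbij v hv).1.2 ⟨w, hw⟩
    refine ⟨h, congrArg Subtype.val hh, ?_⟩
    intro h' hh'
    exact hinj v hv h' h (hh'.trans (congrArg Subtype.val hh).symm)

end

end Cfsg.Agent.Helper6
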