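import Mathlib

namespace Cfsg.Agent.Helper6

theorem dvd_card_of_orbits_aux {H α : Type*} [Group H] [MulAction H α] [Fintype α] [DecidableEq α]
    (q : ℕ) : ∀ n : ℕ, ∀ S : Finset α, S.card = n → (∀ h : H, ∀ x ∈ S, h • x ∈ S) →
      (∀ x ∈ S, q ∣ Nat.card (MulAction.orbit H x)) → q ∣ S.card := by
  classical
  intro n
  induction n using Nat.strong_induction_on with
  | _ n ih =>
    intro S hn hS hq
    rcases S.eq_empty_or_nonempty with rfl | ⟨x, hx⟩
    · simp
    · obtain ⟨O, hO⟩ : ∃ O : Finset α, O = (MulAction.orbit H x).toFinset := ⟨_, rfl⟩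
      have hmemO : ∀ y, y ∈ O ↔ y ∈ MulAction.orbit H x := by
        intro y; rw [hO, Set.mem_toFinset]
      have hOS : O ⊆ S := by
        intro y hy
        rw [hmemO] at hy
        obtain ⟨h, rfl⟩ := hy
        exact hS h x hx
      have hcard : O.card = Nat.card (MulAction.orbit H x) := by
        rw [hO, Set.toFinset_card, Nat.card_eq_fintype_card]
      have hS' : ∀ h : H, ∀ y ∈ S \ O, h • y ∈ S \ O := by
        intro h y hy
        rw [Finset.mem_sdiff] at hy ⊢
        refine ⟨hS h y hy.1, fun hmem => hy.2 ?_⟩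
        rw [hmemO] at hmem ⊢
        have := MulAction.mem_orbit_of_mem_orbit h⁻¹ hmem
        simpa using this
      have hxO : x ∈ O := by rw [hmemO]; exact MulAction.mem_orbit_self x
      have hlt : (S \ O).card < n := by
        rw [← hn]
        apply Finset.card_lt_card
        refine ⟨Finset.sdiff_subset, fun hsub => ?_⟩
        have := hsub hx
        rw [Finset.mem_sdiff] at this
        exact this.2 hxO
      have h1 := ih _ hlt (S \ O) rfl hS' (fun y hy => hq y (Finset.mem_sdiff.1 hy).1)
      have h2 : S.card = (S \ O).card + O.card := by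
        rw [Finset.card_sdiff_add_card_eq_card hOS]
      rw [h2]
      exact dvd_add h1 (hcard ▸ hq x hx)

/-- If every orbit of `H` meeting an `H`-invariant finset `S` has size divisible by `q`,
then `q` divides the size of `S`. -/
theorem dvd_card_of_orbits {H α : Type*} [Group H] [MulAction H α] [Fintype α] [DecidableEq α]
    (q : ℕ) (S : Finset α) (hS : ∀ h : H, ∀ x ∈ S, h • x ∈ S)
    (hq : ∀ x ∈ S, q ∣ Nat.card (MulAction.orbit H x)) : q ∣ S.card :=
  dvd_card_of_orbits_aux q _ S rfl hS hq

/-- For a `p`-group, a non-fixed point has orbit size divisible by `p`. -/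
theorem pgroup_dvd_card_orbit {H α : Type*} [Group H] [MulAction H α] [Finite α] {p : ℕ} [Fact p.Prime]
    (hH : IsPGroup p H) (x : α) (hx : x ∉ MulAction.fixedPoints H α) :
    p ∣ Nat.card (MulAction.orbit H x) := by
  obtain ⟨n, hn⟩ := hH.card_orbit x
  rcases Nat.eq_zero_or_pos n with rfl | hpos
  · exfalso
    apply hx
    rw [pow_zero, Nat.card_eq_one_iff_unique] at hn
    obtain ⟨hsub, -⟩ := hn
    intro g
    have := hsub.elim ⟨g • x, MulAction.mem_orbit x g⟩ ⟨x, MulAction.mem_orbit_self x⟩
    exact congrArg Subtype.val this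
  · rw [hn]; exact dvd_pow_self p hpos.ne'

/-- If the pointwise stabiliser of every `r`-subset is transitive on the remaining points, then the
group is `(r+1)`-transitive. -/
theorem multiplyPretransitive_of_fixing_transitive {α : Type*} [Fintype α] [DecidableEq α]
    (G : Subgroup (Equiv.Perm α)) (r : ℕ) (hr : r + 2 ≤ Fintype.card α)
    (h : ∀ Γ : Finset α, Γ.card = r → ∀ y z : α, y ∉ Γ → z ∉ Γ →
      ∃ g ∈ G, (∀ x ∈ Γ, g x = x) ∧ g y = z) :
    MulAction.IsMultiplyPretransitive G α (r + 1) := by
  classical
  refine ⟨fun x y => ?_⟩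
  have key : ∀ j : ℕ, j ≤ r + 1 → ∃ g ∈ G, ∀ i : Fin (r + 1), (i : ℕ) < j → g (x i) = y i := by
    intro j
    induction j with
    | zero => intro _; exact ⟨1, G.one_mem, fun i hi => absurd hi (Nat.not_lt_zero _)⟩
    | succ j ih =>
      intro hj
      obtain ⟨g, hg, hgi⟩ := ih (by omega)
      obtain ⟨jj, hjj⟩ : ∃ jj : Fin (r + 1), (jj : ℕ) = j := ⟨⟨j, by omega⟩, rfl⟩
      by_cases heq : g (x jj) = y jj
      · refine ⟨g, hg, fun i hi => ?_⟩
        rcases Nat.lt_succ_iff_lt_or_eq.1 hi with h1 | h1
        · exact hgi i h1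
        · have : i = jj := Fin.ext (by omega)
          rw [this]; exact heq
      · obtain ⟨A, hA⟩ : ∃ A : Finset α, A =
            ((Finset.univ.erase jj).filter (fun i : Fin (r + 1) => (i : ℕ) < j)).image
              (fun i => y i) := ⟨_, rfl⟩
        have hAcard : A.card ≤ r := by
          rw [hA]
          refine Finset.card_image_le.trans ((Finset.card_filter_le _ _).trans ?_)
          rw [Finset.card_erase_of_mem (Finset.mem_univ _), Finset.card_univ, Fintype.card_fin]
          omega
        have hmemA : ∀ i : Fin (r + 1), (i : ℕ) < j → y i ∈ A := by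
          intro i hi
          rw [hA]
          refine Finset.mem_image.2 ⟨i, Finset.mem_filter.2 ⟨Finset.mem_erase.2 ⟨?_, Finset.mem_univ _⟩, hi⟩, rfl⟩
          intro hc; rw [hc] at hi; omega
        obtain ⟨t, ht⟩ : ∃ t : Finset α, t = Finset.univ \ {g (x jj), y jj} := ⟨_, rfl⟩
        have hAt : A ⊆ t := by
          intro w hw
          rw [hA] at hw
          obtain ⟨i, hi, rfl⟩ := Finset.mem_image.1 hw
          rw [Finset.mem_filter, Finset.mem_erase] at hi
          obtain ⟨⟨hine, -⟩, hij⟩ := hi
          rw [ht, Finset.mem_sdiff]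
          refine ⟨Finset.mem_univ _, ?_⟩
          rw [Finset.mem_insert, Finset.mem_singleton]
          rintro (hc | hc)
          · rw [← hgi i hij] at hc
            exact hine (x.injective (g.injective hc))
          · exact hine (y.injective hc)
        have htcard : r ≤ t.card := by
          rw [ht, Finset.card_univ_sdiff]
          have : ({g (x jj), y jj} : Finset α).card ≤ 2 := Finset.card_le_two
          omega
        obtain ⟨Γ, hAΓ, hΓt, hΓcard⟩ := Finset.exists_subsuperset_card_eq hAt hAcard htcard
        have hn1 : g (x jj) ∉ Γ := by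
          intro hc
          have := hΓt hc
          rw [ht, Finset.mem_sdiff] at this
          exact this.2 (by simp)
        have hn2 : y jj ∉ Γ := by
          intro hc
          have := hΓt hc
          rw [ht, Finset.mem_sdiff] at this
          exact this.2 (by simp)
        obtain ⟨h1, hh1, hfix, hmove⟩ := h Γ hΓcard (g (x jj)) (y jj) hn1 hn2
        refine ⟨h1 * g, G.mul_mem hh1 hg, fun i hi => ?_⟩
        rcases Nat.lt_succ_iff_lt_or_eq.1 hi with h2 | h2
        · rw [Equiv.Perm.mul_apply, hgi i h2]
          exact hfix _ (hAΓ (hmemA i h2))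
        · have : i = jj := Fin.ext (by omega)
          rw [this, Equiv.Perm.mul_apply]; exact hmove
  obtain ⟨g, hg, hgi⟩ := key (r + 1) le_rfl
  refine ⟨⟨g, hg⟩, ?_⟩
  ext i
  exact hgi i i.2

end Cfsg.Agent.Helper6
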