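import Mathlib
import Cfsg.Agent.Helper6.Trans

set_option autoImplicit false

namespace Cfsg.Agent.Helper6

section
variable {F H : Type*} [Group F] [Group H] [MulDistribMulAction H F]

theorem fa_orderOf_smul (h : H) (u : F) : orderOf (h • u) = orderOf u :=
  orderOf_injective (MulDistribMulAction.toMonoidHom F h) (MulAction.injective h) u

theorem fa_orbit_ne_one (u : F) (hu : u ≠ 1) : ∀ v ∈ MulAction.orbit H u, v ≠ 1 := by
  rintro v ⟨h, rfl⟩ h1
  apply hu
  have h2 : h • u = 1 := h1
  have h3 : h⁻¹ • (h • u) = h⁻¹ • (1 : F) := by rw [h2]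
  rwa [inv_smul_smul, smul_one] at h3

theorem fa_disj (u w : F) (hwu : w ∉ MulAction.orbit H u) :
    Disjoint (MulAction.orbit H u) (MulAction.orbit H w) := by
  rcases MulAction.orbit.eq_or_disjoint (G := H) u w with h | h
  · exfalso
    apply hwu
    rw [h]
    exact MulAction.mem_orbit_self w
  · exact h

variable [Finite F] [Finite H]

theorem fa_orbit_ncard (hfree : ∀ h : H, ∀ u : F, u ≠ 1 → h • u = u → h = 1) (u : F)
    (hu : u ≠ 1) : (MulAction.orbit H u).ncard = Nat.card H := by
  have hinj : Function.Injective (fun h : H => h • u) := by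
    intro h h' e
    have e' : h • u = h' • u := e
    have h1 : (h'⁻¹ * h) • u = u := by rw [mul_smul, e', inv_smul_smul]
    have h2 := hfree _ u hu h1
    exact (inv_mul_eq_one.1 h2).symm
  have h3 : MulAction.orbit H u = (fun h : H => h • u) '' Set.univ := by
    rw [Set.image_univ]; rfl
  rw [h3, Set.ncard_image_of_injective _ hinj, Set.ncard_univ]

theorem fa_two (hfree : ∀ h : H, ∀ u : F, u ≠ 1 → h • u = u → h = 1) (u w : F) (hu : u ≠ 1)
    (hw : w ≠ 1) (hwu : w ∉ MulAction.orbit H u) : 2 * Nat.card H ≤ Nat.card F - 1 := by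
  have hdisj := fa_disj u w hwu
  have hsub : MulAction.orbit H u ∪ MulAction.orbit H w ⊆ ({1} : Set F)ᶜ := by
    intro v hv
    rcases hv with hv | hv
    · exact fa_orbit_ne_one u hu v hv
    · exact fa_orbit_ne_one w hw v hv
  have h1 := Set.ncard_le_ncard hsub (Set.toFinite _)
  rw [Set.ncard_union_eq hdisj (Set.toFinite _) (Set.toFinite _), fa_orbit_ncard hfree u hu,
    fa_orbit_ncard hfree w hw, Set.ncard_compl, Set.ncard_singleton] at h1
  omega

theorem fa_three (hfree : ∀ h : H, ∀ u : F, u ≠ 1 → h • u = u → h = 1)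
    (hcard : Nat.card F - 1 ≤ 2 * Nat.card H) (u w x : F) (hu : u ≠ 1) (hw : w ≠ 1) (hx : x ≠ 1)
    (hwu : w ∉ MulAction.orbit H u) (hxu : x ∉ MulAction.orbit H u)
    (hxw : x ∉ MulAction.orbit H w) : False := by
  have d1 := fa_disj u w hwu
  have d2 := fa_disj u x hxu
  have d3 := fa_disj w x hxw
  have hsub : MulAction.orbit H u ∪ MulAction.orbit H w ∪ MulAction.orbit H x
      ⊆ ({1} : Set F)ᶜ := by
    intro v hv
    rcases hv with (hv | hv) | hv
    · exact fa_orbit_ne_one u hu v hv
    · exact fa_orbit_ne_one w hw v hv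
    · exact fa_orbit_ne_one x hx v hv
  have h1 := Set.ncard_le_ncard hsub (Set.toFinite _)
  rw [Set.ncard_union_eq (Set.disjoint_union_left.2 ⟨d2, d3⟩) (Set.toFinite _) (Set.toFinite _),
    Set.ncard_union_eq d1 (Set.toFinite _) (Set.toFinite _), fa_orbit_ncard hfree u hu,
    fa_orbit_ncard hfree w hw, fa_orbit_ncard hfree x hx, Set.ncard_compl,
    Set.ncard_singleton] at h1
  have hd : 0 < Nat.card H := Nat.card_pos
  omega

theorem fa_invariant (hfree : ∀ h : H, ∀ u : F, u ≠ 1 → h • u = u → h = 1)
    (hcard : Nat.card F - 1 ≤ 2 * Nat.card H) (K : Subgroup F)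
    (hK : ∀ h : H, ∀ u ∈ K, h • u ∈ K) (hKbot : K ≠ ⊥) : K = ⊤ := by
  by_contra hKtop
  obtain ⟨⟨u, huK⟩, hu1'⟩ := (Subgroup.ne_bot_iff_exists_ne_one).1 hKbot
  have hu1 : u ≠ 1 := fun h => hu1' (Subtype.ext h)
  obtain ⟨w, hwK⟩ : ∃ w, w ∉ K := by
    by_contra hcon
    push Not at hcon
    exact hKtop ((Subgroup.eq_top_iff' K).2 hcon)
  have hw1 : w ≠ 1 := fun h => hwK (h ▸ K.one_mem)
  have hd : 0 < Nat.card H := Nat.card_pos
  have hsub1 : MulAction.orbit H u ⊆ (K : Set F) \ {1} := by
    intro v hv
    refine ⟨?_, fa_orbit_ne_one u hu1 v hv⟩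
    obtain ⟨h, rfl⟩ := hv
    exact hK h u huK
  have hsub3 : MulAction.orbit H w ⊆ ({1} : Set F)ᶜ := fun v hv => fa_orbit_ne_one w hw1 v hv
  have hsub2 : (K : Set F) \ {1} ⊆ ({1} : Set F)ᶜ \ MulAction.orbit H w := by
    rintro v ⟨hvK, hv1⟩
    refine ⟨hv1, ?_⟩
    rintro ⟨h, rfl⟩
    apply hwK
    have h5 : h • w ∈ K := hvK
    have h6 := hK h⁻¹ _ h5
    rwa [inv_smul_smul] at h6
  have e1 := Set.ncard_le_ncard hsub1 (Set.toFinite _)
  have e2 := Set.ncard_le_ncard hsub2 (Set.toFinite _)
  rw [fa_orbit_ncard hfree u hu1] at e1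
  have e3 : ((K : Set F) \ {1}).ncard = Nat.card K - 1 := by
    rw [Set.ncard_sdiff_singleton_of_mem (SetLike.mem_coe.2 K.one_mem)]
    rfl
  have e4 : (({1} : Set F)ᶜ \ MulAction.orbit H w).ncard = Nat.card F - 1 - Nat.card H := by
    rw [Set.ncard_sdiff hsub3, Set.ncard_compl, Set.ncard_singleton, fa_orbit_ncard hfree w hw1]
  rw [e3] at e1 e2
  rw [e4] at e2
  have e5 : Nat.card K ∣ Nat.card F := Subgroup.card_subgroup_dvd_card K
  have e6 : 0 < Nat.card K := Nat.card_pos
  have hn : 0 < Nat.card F := Nat.card_pos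
  have hK' : Nat.card K = Nat.card H + 1 := by omega
  have hF' : Nat.card F = 2 * Nat.card H + 1 := by omega
  rw [hK', hF'] at e5
  have h7 : Nat.card H + 1 ∣ Nat.card H := by
    have h8 := Nat.dvd_sub e5 (dvd_refl (Nat.card H + 1))
    rwa [show 2 * Nat.card H + 1 - (Nat.card H + 1) = Nat.card H from by omega] at h8
  have h9 := Nat.le_of_dvd hd h7
  omega

theorem fa_comm_of_pgroup (hfree : ∀ h : H, ∀ u : F, u ≠ 1 → h • u = u → h = 1)
    (hcard : Nat.card F - 1 ≤ 2 * Nat.card H) (p : ℕ) [Fact p.Prime] (hP : IsPGroup p F)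
    [Nontrivial F] : ∀ u v : F, u * v = v * u := by
  haveI := hP.center_nontrivial
  have hZ : Subgroup.center F = ⊤ := by
    apply fa_invariant hfree hcard
    · intro h u hu
      rw [Subgroup.mem_center_iff] at hu ⊢
      intro g
      have h1 := hu (h⁻¹ • g)
      have h2 := congrArg (fun z => h • z) h1
      simp only [smul_mul', smul_inv_smul] at h2
      exact h2
    · exact (Subgroup.nontrivial_iff_ne_bot _).1 inferInstance
  intro u v
  have hu : u ∈ Subgroup.center F := by rw [hZ]; trivial
  exact ((Subgroup.mem_center_iff.1 hu) v).symm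

theorem fa_main (hfree : ∀ h : H, ∀ u : F, u ≠ 1 → h • u = u → h = 1)
    (hcard : Nat.card F - 1 ≤ 2 * Nat.card H) :
    (∀ u v : F, u * v = v * u) ∧
      ∃ p f : ℕ, p.Prime ∧ (∀ u : F, u ^ p = 1) ∧ Nat.card F = p ^ f := by
  classical
  by_cases hn1 : Nat.card F = 1
  · have hsub : ∀ u : F, u = 1 := by
      haveI := (Nat.card_eq_one_iff_unique.1 hn1).1
      intro u
      exact Subsingleton.elim u 1
    exact ⟨fun u v => by rw [hsub u, hsub v], 2, 0, Nat.prime_two,
      fun u => by rw [hsub u, one_pow], by rw [hn1, pow_zero]⟩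
  have hnpos : 0 < Nat.card F := Nat.card_pos
  haveI : Nontrivial F := by
    rw [← Finite.one_lt_card_iff_nontrivial]
    omega
  obtain ⟨p, hp, hpn⟩ := Nat.exists_prime_and_dvd hn1
  haveI : Fact p.Prime := ⟨hp⟩
  obtain ⟨x, hx⟩ := exists_prime_orderOf_dvd_card' (G := F) p hpn
  have hx1 : x ≠ 1 := by
    rintro rfl
    rw [orderOf_one] at hx
    exact hp.one_lt.ne hx
  have hd : 0 < Nat.card H := Nat.card_pos
  have hall : ∀ y : F, y ≠ 1 → orderOf y = p := by
    by_contra hcon
    push Not at hcon
    obtain ⟨y, hy1, hym⟩ := hcon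
    obtain ⟨m, hm⟩ : ∃ m, m = orderOf y := ⟨_, rfl⟩
    rw [← hm] at hym
    have hm1 : m ≠ 1 := by
      rw [hm]
      exact fun h => hy1 (orderOf_eq_one_iff.1 h)
    have hm0 : m ≠ 0 := by
      rw [hm]
      exact (orderOf_pos y).ne'
    have hyx : y ∉ MulAction.orbit H x := by
      rintro ⟨h, rfl⟩
      apply hym
      rw [hm]
      show orderOf (h • x) = p
      rw [fa_orderOf_smul, hx]
    have hcov' : ∀ z : F, z ≠ 1 → z ∈ MulAction.orbit H x ∨ z ∈ MulAction.orbit H y := by
      intro z hz
      by_contra hcon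
      push Not at hcon
      exact fa_three hfree hcard x y z hx1 hy1 hz hyx hcon.1 hcon.2
    have hcov : ∀ z : F, z ≠ 1 → orderOf z = p ∨ orderOf z = m := by
      intro z hz
      rcases hcov' z hz with ⟨h, rfl⟩ | ⟨h, rfl⟩
      · left
        show orderOf (h • x) = p
        rw [fa_orderOf_smul, hx]
      · right
        show orderOf (h • y) = m
        rw [fa_orderOf_smul, hm]
    have h2d := fa_two hfree x y hx1 hy1 hyx
    by_cases hmp : m.Prime
    · haveI : Fintype F := Fintype.ofFinite F
      obtain ⟨C, hC⟩ : ∃ C : Finset F, C = Finset.univ.filter (fun z => orderOf z = m) :=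
        ⟨_, rfl⟩
      have hCmem : ∀ z, z ∈ C ↔ orderOf z = m := by
        intro z
        rw [hC]
        simp
      have hCcard : C.card = Nat.card H := by
        rw [← fa_orbit_ncard hfree y hy1, ← Set.ncard_coe_finset]
        congr 1
        ext z
        rw [Finset.mem_coe, hCmem]
        constructor
        · intro hz
          have hz1 : z ≠ 1 := by
            rintro rfl
            rw [orderOf_one] at hz
            exact hm1 hz.symm
          rcases hcov' z hz1 with ⟨h, rfl⟩ | h'
          · exfalso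
            apply hym
            rw [← hz]
            show orderOf (h • x) = p
            rw [fa_orderOf_smul, hx]
          · exact h'
        · rintro ⟨h, rfl⟩
          show orderOf (h • y) = m
          rw [fa_orderOf_smul, hm]
      have hpC : p ∣ C.card := by
        apply dvd_card_of_orbits (H := ConjAct F) p C
        · intro g z hz
          rw [hCmem] at hz ⊢
          rw [fa_orderOf_smul, hz]
        · intro z hz
          rw [hCmem] at hz
          have hos : Nat.card (MulAction.stabilizer (ConjAct F) z)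
              * Nat.card (MulAction.orbit (ConjAct F) z) = Nat.card F := by
            rw [Nat.card_coe_set_eq, ← MulAction.index_stabilizer, Subgroup.card_mul_index]
            rfl
          rw [← hos] at hpn
          rcases (Nat.Prime.dvd_mul hp).1 hpn with h | h
          · exfalso
            obtain ⟨t, ht⟩ := exists_prime_orderOf_dvd_card'
              (G := MulAction.stabilizer (ConjAct F) z) p h
            have ht1 : orderOf (ConjAct.ofConjAct (t : ConjAct F)) = p := by
              rw [MulEquiv.orderOf_eq, Subgroup.orderOf_coe, ht]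
            have ht2 : (t : ConjAct F) • z = z := MulAction.mem_stabilizer_iff.1 t.2
            rw [ConjAct.smul_def] at ht2
            have hcm : Commute (ConjAct.ofConjAct (t : ConjAct F)) z :=
              mul_inv_eq_iff_eq_mul.1 ht2
            have hord := hcm.orderOf_mul_eq_mul_orderOf_of_coprime (by
              rw [ht1, hz]
              exact (Nat.coprime_primes hp hmp).2 (Ne.symm hym))
            rw [ht1, hz] at hord
            have hp2 := hp.two_le
            have hm2 := hmp.two_le
            have hne : ConjAct.ofConjAct (t : ConjAct F) * z ≠ 1 := by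
              intro h1
              rw [h1, orderOf_one] at hord
              nlinarith
            rcases hcov _ hne with h5 | h5
            · rw [hord] at h5
              nlinarith
            · rw [hord] at h5
              nlinarith
          · exact h
      rw [hCcard] at hpC
      have hn : Nat.card F = 2 * Nat.card H + 1 := by omega
      have h3 : p ∣ 2 * Nat.card H := Dvd.dvd.mul_left hpC 2
      rw [hn] at hpn
      have h4 : p ∣ 1 := (Nat.dvd_add_right h3).1 hpn
      exact hp.one_lt.ne' (Nat.dvd_one.1 h4)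
    · have hq : ∀ {q : ℕ}, q.Prime → q ∣ m → q = p := by
        intro q hq hqm
        have hmq : m / q ≠ 0 :=
          (Nat.div_pos (Nat.le_of_dvd (Nat.pos_of_ne_zero hm0) hqm) hq.pos).ne'
        have ho : orderOf (y ^ (m / q)) = q := by
          rw [orderOf_pow_of_dvd hmq (by rw [← hm]; exact Nat.div_dvd_of_dvd hqm), ← hm,
            Nat.div_div_self hqm hm0]
        have hne : y ^ (m / q) ≠ 1 := by
          intro h
          rw [h, orderOf_one] at ho
          exact hq.one_lt.ne ho
        rcases hcov _ hne with h | h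
        · rw [ho] at h
          exact h
        · rw [ho] at h
          exact absurd (h ▸ hq) hmp
      have hmpow := Nat.eq_prime_pow_of_unique_prime_dvd hm0 hq
      have hP : IsPGroup p F := by
        intro g
        by_cases hg : g = 1
        · exact ⟨0, by rw [hg, one_pow]⟩
        · rcases hcov g hg with h | h
          · exact ⟨1, by rw [pow_one, ← h, pow_orderOf_eq_one]⟩
          · exact ⟨m.primeFactorsList.length, by rw [← hmpow, ← h, pow_orderOf_eq_one]⟩
      have hcomm := fa_comm_of_pgroup hfree hcard p hP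
      obtain ⟨K, hK⟩ : ∃ K : Subgroup F, ∀ u, u ∈ K ↔ u ^ p = 1 :=
        ⟨{ carrier := {u | u ^ p = 1}
           mul_mem' := fun {a b} ha hb => by
             have ha' : a ^ p = 1 := ha
             have hb' : b ^ p = 1 := hb
             show (a * b) ^ p = 1
             rw [(show Commute a b from hcomm a b).mul_pow, ha', hb', one_mul]
           one_mem' := one_pow p
           inv_mem' := fun {a} ha => by
             have ha' : a ^ p = 1 := ha
             show a⁻¹ ^ p = 1
             rw [inv_pow, ha', inv_one] }, fun u => Iff.rfl⟩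
      have hKtop : K = ⊤ := by
        apply fa_invariant hfree hcard K
        · intro h u hu
          rw [hK] at hu ⊢
          rw [← smul_pow', hu, smul_one]
        · intro hbot
          have hxK : x ∈ K := by
            rw [hK, ← hx, pow_orderOf_eq_one]
          rw [hbot, Subgroup.mem_bot] at hxK
          exact hx1 hxK
      have hyK : y ∈ K := by rw [hKtop]; trivial
      rw [hK] at hyK
      have h5 := orderOf_dvd_of_pow_eq_one hyK
      rw [← hm] at h5
      rcases (Nat.dvd_prime hp).1 h5 with h | h
      · exact hm1 h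
      · exact hym h
  have hP : IsPGroup p F := by
    intro g
    by_cases hg : g = 1
    · exact ⟨0, by rw [hg, one_pow]⟩
    · exact ⟨1, by rw [pow_one, ← hall g hg, pow_orderOf_eq_one]⟩
  obtain ⟨f, hf⟩ := IsPGroup.iff_card.1 hP
  refine ⟨fa_comm_of_pgroup hfree hcard p hP, p, f, hp, ?_, hf⟩
  intro u
  by_cases hu : u = 1
  · rw [hu, one_pow]
  · rw [← hall u hu, pow_orderOf_eq_one]

end

end Cfsg.Agent.Helper6
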