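import Mathlib
import Cfsg.Agent.S0837
import Cfsg.Agent.Helper3.HermCount

set_option autoImplicit false

namespace Cfsg.Agent.Helper6

open Cfsg.Agent.S0837 Cfsg.Agent.Helper3 Matrix
open scoped Classical

variable {F : Type*} [Field F] [Fintype F]

theorem hl_dc {α β : Type*} (s : Finset α) (t : Finset β) (r : α → β → Prop) (m n : ℕ)
    (hm : ∀ a ∈ s, (t.filter (fun b => r a b)).card = m)
    (hn : ∀ b ∈ t, (s.filter (fun a => r a b)).card = n) :
    s.card * m = t.card * n := by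
  have h := Finset.sum_card_bipartiteAbove_eq_sum_card_bipartiteBelow (s := s) (t := t) (r := r)
  have h1 : ∀ a ∈ s, (t.bipartiteAbove r a).card = m := hm
  have h2 : ∀ b ∈ t, (s.bipartiteBelow r b).card = n := hn
  rw [Finset.sum_congr rfl h1, Finset.sum_congr rfl h2, Finset.sum_const, Finset.sum_const,
    smul_eq_mul, smul_eq_mul] at h
  exact h

theorem hl_dc_sum {α β : Type*} (s : Finset α) (t : Finset β) (r : α → β → Prop) :
    ∑ a ∈ s, (t.filter (fun b => r a b)).card = ∑ b ∈ t, (s.filter (fun a => r a b)).card :=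
  Finset.sum_card_bipartiteAbove_eq_sum_card_bipartiteBelow (s := s) (t := t) (r := r)

theorem hl_card_sub_filter {n : ℕ} (A B : Submodule F (Fin n → F)) (hAB : A ≤ B) :
    (Finset.univ.filter (fun w : Fin n → F => w ∈ B ∧ w ∉ A)).card
      = Fintype.card F ^ Module.finrank F B - Fintype.card F ^ Module.finrank F A := by
  have hc : ∀ C : Submodule F (Fin n → F),
      (Finset.univ.filter (fun w : Fin n → F => w ∈ C)).card
        = Fintype.card F ^ Module.finrank F C := by
    intro C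
    rw [← Fintype.card_subtype, ← Module.card_eq_pow_finrank (K := F) (V := C)]
  have h1 : Finset.univ.filter (fun w : Fin n → F => w ∈ B ∧ w ∉ A)
      = Finset.univ.filter (fun w : Fin n → F => w ∈ B)
        \ Finset.univ.filter (fun w : Fin n → F => w ∈ A) := by
    ext w
    simp
  rw [h1, Finset.card_sdiff_of_subset (by
    intro w hw
    simp only [Finset.mem_filter, Finset.mem_univ, true_and] at hw ⊢
    exact hAB hw), hc, hc]

omit [Fintype F] in
theorem hl_span_pair_finrank {n : ℕ} (v w : Fin n → F) (hv : v ≠ 0)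
    (hw : w ∉ Submodule.span F {v}) : Module.finrank F (Submodule.span F {v, w}) = 2 := by
  have hli : LinearIndependent F ![v, w] := by
    rw [LinearIndependent.pair_iff]
    intro a b hab
    have hb : b = 0 := by
      by_contra hb
      apply hw
      rw [Submodule.mem_span_singleton]
      refine ⟨-(a / b), ?_⟩
      have h5 : b • w = -(a • v) := eq_neg_of_add_eq_zero_right hab
      calc (-(a / b)) • v = b⁻¹ • (-(a • v)) := by
            rw [neg_smul, smul_neg, div_eq_inv_mul, mul_smul]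
        _ = b⁻¹ • (b • w) := by rw [h5]
        _ = w := by rw [smul_smul, inv_mul_cancel₀ hb, one_smul]
    refine ⟨?_, hb⟩
    rw [hb, zero_smul, add_zero] at hab
    exact (smul_eq_zero.1 hab).resolve_right hv
  have h := finrank_span_eq_card hli
  rw [Matrix.range_cons_cons_empty] at h
  simpa using h

theorem hl_add_left (σ : F →+* F) {n : ℕ} (x y z : Fin n → F) :
    Hf σ n (x + y) z = Hf σ n x z + Hf σ n y z := by
  rw [map_add, LinearMap.add_apply]

theorem hl_smul_left (σ : F →+* F) {n : ℕ} (a : F) (x z : Fin n → F) :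
    Hf σ n (a • x) z = σ a * Hf σ n x z := by
  rw [map_smulₛₗ, LinearMap.smul_apply, smul_eq_mul]

theorem hl_add_right (σ : F →+* F) {n : ℕ} (x y z : Fin n → F) :
    Hf σ n x (y + z) = Hf σ n x y + Hf σ n x z := map_add _ _ _

theorem hl_smul_right (σ : F →+* F) {n : ℕ} (a : F) (x y : Fin n → F) :
    Hf σ n x (a • y) = a * Hf σ n x y := by
  rw [map_smul, smul_eq_mul]

theorem hl_sum_left (σ : F →+* F) {n : ℕ} {ι : Type*} (s : Finset ι) (f : ι → Fin n → F)
    (z : Fin n → F) : Hf σ n (∑ i ∈ s, f i) z = ∑ i ∈ s, Hf σ n (f i) z := by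
  rw [map_sum, LinearMap.sum_apply]

theorem hl_sum_right (σ : F →+* F) {n : ℕ} {ι : Type*} (s : Finset ι) (f : ι → Fin n → F)
    (x : Fin n → F) : Hf σ n x (∑ i ∈ s, f i) = ∑ i ∈ s, Hf σ n x (f i) := map_sum _ _ _

theorem hl_span_pair_ti (σ : F →+* F) (hσ2 : ∀ a : F, σ (σ a) = a) {n : ℕ} (u v : Fin n → F)
    (huu : Hf σ n u u = 0) (hvv : Hf σ n v v = 0) (huv : Hf σ n u v = 0) :
    ∀ x ∈ Submodule.span F {u, v}, ∀ y ∈ Submodule.span F {u, v}, Hf σ n x y = 0 := by
  intro x hx y hy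
  obtain ⟨a, b, rfl⟩ := Submodule.mem_span_pair.1 hx
  obtain ⟨c, d, rfl⟩ := Submodule.mem_span_pair.1 hy
  have hvu : Hf σ n v u = 0 := by rw [← Hf_symm σ hσ2, huv, map_zero]
  simp only [hl_add_left, hl_smul_left, hl_add_right, hl_smul_right, huu, hvv, huv, hvu,
    mul_zero, add_zero]

theorem hl_exists_decomp (σ : F →+* F) (hσ : σ ≠ RingHom.id F) (hσ2 : ∀ a : F, σ (σ a) = a)
    {n k : ℕ} (hk : k ≤ n) (W : Submodule F (Fin n → F)) (hWk : Module.finrank F W = k)
    (hW : ∀ u ∈ W, (∀ v ∈ W, Hf σ n v u = 0) → u = 0) :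
    ∃ c : Fin (n - k) → (Fin n → F),
      (∀ i j, Hf σ n (c i) (c j) = if i = j then 1 else 0) ∧
      (∀ u ∈ W, ∀ j, Hf σ n (c j) u = 0) ∧
      ∀ v : Fin n → F, ∃ v₂ ∈ W, ∃ z : Fin (n - k) → F, v = v₂ + ∑ j, z j • c j := by
  obtain ⟨b, hb⟩ := exists_onb' σ hσ hσ2 W hWk hW
  obtain ⟨c, hc, hwc0⟩ := exists_compl σ hσ hσ2 (fun i => (b i : Fin n → F)) hb
  obtain ⟨w, hwdef⟩ : ∃ w : Fin k → (Fin n → F), w = fun i => (b i : Fin n → F) := ⟨_, rfl⟩
  have hwc : ∀ i j, Hf σ n (w i) (c j) = 0 := by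
    rw [hwdef]
    exact hwc0
  have hw : ∀ i j, Hf σ n (w i) (w j) = if i = j then 1 else 0 := by
    rw [hwdef]
    exact hb
  have hwW : ∀ i, w i ∈ W := by
    intro i
    rw [hwdef]
    exact (b i).2
  obtain ⟨P, hP⟩ : ∃ P, P = Pm w c := ⟨_, rfl⟩
  obtain ⟨Q, hQ⟩ : ∃ Q, Q = dag σ P := ⟨_, rfl⟩
  have hQP : Q * P = 1 := by
    rw [hQ, hP]
    exact dag_Pm_mul σ hσ2 w c hw hc hwc
  have hPQ : P * Q = 1 := by
    rw [hQ, hP]
    exact Pm_mul_dag (by omega) σ w c (by rw [← hP, ← hQ]; exact hQP)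
  have hWc : ∀ u ∈ W, ∀ j, Hf σ n (c j) u = 0 := by
    intro u hu j
    have h1 := b.sum_repr ⟨u, hu⟩
    have h2 : u = ∑ i, (b.repr ⟨u, hu⟩ i) • w i := by
      have h0 : ((∑ i, (b.repr ⟨u, hu⟩) i • b i : ↥W) : Fin n → F) = u := congrArg Subtype.val h1
      calc u = ((∑ i, (b.repr ⟨u, hu⟩) i • b i : ↥W) : Fin n → F) := h0.symm
        _ = ∑ i, (b.repr ⟨u, hu⟩ i) • w i := by
          rw [hwdef, Submodule.coe_sum]
          apply Finset.sum_congr rfl
          intro i _
          rfl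
    rw [h2, map_sum]
    apply Finset.sum_eq_zero
    intro i _
    rw [map_smul, ← Hf_symm σ hσ2, hwc, map_zero, smul_zero]
  refine ⟨c, hc, hWc, ?_⟩
  intro v
  refine ⟨∑ i, (Q *ᵥ v) (Sum.inl i) • w i,
    Submodule.sum_mem _ (fun i _ => Submodule.smul_mem _ _ (hwW i)),
    fun j => (Q *ᵥ v) (Sum.inr j), ?_⟩
  have h1 : v = P *ᵥ (Q *ᵥ v) := by rw [Matrix.mulVec_mulVec, hPQ, Matrix.one_mulVec]
  conv_lhs => rw [h1]
  funext l
  rw [Matrix.mulVec, dotProduct, Fintype.sum_sum_type, Pi.add_apply, Finset.sum_apply,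
    Finset.sum_apply]
  congr 1
  · apply Finset.sum_congr rfl
    intro i _
    rw [Pi.smul_apply, smul_eq_mul, mul_comm, hP]
    rfl
  · apply Finset.sum_congr rfl
    intro i _
    rw [Pi.smul_apply, smul_eq_mul, mul_comm, hP]
    rfl

theorem hl_count_perp {q : ℕ} (hF : Fintype.card F = q ^ 2) (n : ℕ) (hn : 2 ≤ n) (u : Fin n → F)
    (hu : u ≠ 0) (huu : Cfsg.hermForm n F q u u = 0) :
    (Finset.univ.filter (fun v : Fin n → F => Cfsg.hermForm n F q v u = 0 ∧
      Cfsg.hermForm n F q v v = 0 ∧ v ∉ Submodule.span F {u})).card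
      = q ^ 2 * (hcount q (n - 2) (0 : F) - 1) := by
  obtain ⟨σ, hσ, hσ2, hσne, hq⟩ := frob hF
  have hH : ∀ x y : Fin n → F, Cfsg.hermForm n F q x y = Hf σ n y x :=
    fun x y => (Hf_herm σ q hσ y x).symm
  simp only [hH]
  rw [hH] at huu
  obtain ⟨i, hi⟩ := Function.ne_iff.1 hu
  have ha : Hf σ n u (Pi.single i 1) ≠ 0 := by
    rw [Hf_apply]
    simp only [Pi.single_apply, ite_mul, one_mul, zero_mul, Finset.sum_ite_eq', Finset.mem_univ,
      if_true]
    exact (map_ne_zero σ).2 hi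
  obtain ⟨u', hu'⟩ : ∃ u' : Fin n → F, Hf σ n u u' ≠ 0 := ⟨_, ha⟩
  have hu'u : Hf σ n u' u ≠ 0 := by
    rw [← Hf_symm σ hσ2]
    exact (map_ne_zero σ).2 hu'
  have hu'span : u' ∉ Submodule.span F {u} := by
    intro h
    obtain ⟨t, rfl⟩ := Submodule.mem_span_singleton.1 h
    apply hu'
    rw [hl_smul_right, huu, mul_zero]
  have hW2 : Module.finrank F (Submodule.span F {u, u'}) = 2 :=
    hl_span_pair_finrank u u' hu hu'span
  have huW : u ∈ Submodule.span F {u, u'} := Submodule.subset_span (by simp)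
  have hu'W : u' ∈ Submodule.span F {u, u'} := Submodule.subset_span (by simp)
  have hnd : ∀ x ∈ Submodule.span F {u, u'},
      (∀ y ∈ Submodule.span F {u, u'}, Hf σ n y x = 0) → x = 0 := by
    intro x hx h
    obtain ⟨α, β, rfl⟩ := Submodule.mem_span_pair.1 hx
    have h1 := h u huW
    have h2 := h u' hu'W
    rw [hl_add_right, hl_smul_right, hl_smul_right, huu, mul_zero, zero_add] at h1
    have hβ : β = 0 := (mul_eq_zero.1 h1).resolve_right hu'
    rw [hβ, zero_smul, add_zero, hl_smul_right] at h2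
    have hα : α = 0 := (mul_eq_zero.1 h2).resolve_right hu'u
    rw [hα, hβ, zero_smul, zero_smul, add_zero]
  obtain ⟨c, hc, hWc, hdec⟩ :=
    hl_exists_decomp σ hσne hσ2 hn (Submodule.span F {u, u'}) hW2 hnd
  obtain ⟨C, hC⟩ : ∃ C : (Fin (n - 2) → F) → (Fin n → F), ∀ z, C z = ∑ j, z j • c j :=
    ⟨fun z => ∑ j, z j • c j, fun z => rfl⟩
  have hCc : ∀ z j, Hf σ n (c j) (C z) = z j := by
    intro z j
    rw [hC, hl_sum_right]
    simp only [hl_smul_right, hc, mul_ite, mul_one, mul_zero]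
    rw [Finset.sum_ite_eq]
    simp
  have hCW : ∀ x ∈ Submodule.span F {u, u'}, ∀ z, Hf σ n (C z) x = 0 := by
    intro x hx z
    rw [hC, hl_sum_left]
    apply Finset.sum_eq_zero
    intro j _
    rw [hl_smul_left, hWc x hx j, mul_zero]
  have hWC : ∀ x ∈ Submodule.span F {u, u'}, ∀ z, Hf σ n x (C z) = 0 := by
    intro x hx z
    rw [← Hf_symm σ hσ2, hCW x hx z, map_zero]
  have hCC : ∀ z, Hf σ n (C z) (C z) = Hf σ (n - 2) z z := by
    intro z
    show Hf σ n (C z) (C z) = ∑ j, z j * σ (z j)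
    have h1 : ∀ y, Hf σ n (C z) y = ∑ j, Hf σ n (z j • c j) y := by
      intro y
      rw [hC z, hl_sum_left]
    rw [h1]
    apply Finset.sum_congr rfl
    intro j _
    rw [hl_smul_left, hCc, mul_comm]
  have hZ : ∀ z : Fin (n - 2) → F, (∑ i, z i * z i ^ q = 0) ↔ Hf σ (n - 2) z z = 0 := by
    intro z
    rw [Hf_apply]
    simp only [hσ]
  have hnorm : ∀ (l : F) (z : Fin (n - 2) → F),
      Hf σ n (l • u + C z) (l • u + C z) = Hf σ (n - 2) z z := by
    intro l z
    simp only [hl_add_left, hl_add_right, hl_smul_left, hl_smul_right, huu, hWC u huW z,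
      hCW u huW z, hCC, mul_zero, zero_add]
  have hmem : ∀ p : F × {z : Fin (n - 2) → F // z ≠ 0 ∧ ∑ i, z i * z i ^ q = 0},
      Hf σ n u (p.1 • u + C p.2.1) = 0 ∧ Hf σ n (p.1 • u + C p.2.1) (p.1 • u + C p.2.1) = 0 ∧
        p.1 • u + C p.2.1 ∉ Submodule.span F {u} := by
    rintro ⟨l, z, hz0, hzz⟩
    refine ⟨?_, ?_, ?_⟩
    · show Hf σ n u (l • u + C z) = 0
      rw [hl_add_right, hl_smul_right, huu, mul_zero, zero_add]
      exact hWC u huW z
    · show Hf σ n (l • u + C z) (l • u + C z) = 0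
      rw [hnorm]
      exact (hZ z).1 hzz
    · show l • u + C z ∉ Submodule.span F {u}
      intro hspan
      obtain ⟨t, ht⟩ := Submodule.mem_span_singleton.1 hspan
      have h1 : C z = (t - l) • u := by
        rw [sub_smul, ht]
        abel
      apply hz0
      funext j
      rw [← hCc z j, h1, hl_smul_right, hWc u huW j, mul_zero]
      rfl
  have hbij : Function.Bijective
      (fun p : F × {z : Fin (n - 2) → F // z ≠ 0 ∧ ∑ i, z i * z i ^ q = 0} =>
        (⟨p.1 • u + C p.2.1, hmem p⟩ : {v : Fin n → F // Hf σ n u v = 0 ∧ Hf σ n v v = 0 ∧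
          v ∉ Submodule.span F {u}})) := by
    constructor
    · rintro ⟨l, z, hz⟩ ⟨l', z', hz'⟩ h
      have h1 : l • u + C z = l' • u + C z' := congrArg Subtype.val h
      have hzz' : z = z' := by
        funext j
        have h2 := congrArg (fun x => Hf σ n (c j) x) h1
        simp only [hl_add_right, hl_smul_right, hWc u huW j, mul_zero, zero_add, hCc] at h2
        exact h2
      subst hzz'
      have h3 : l • u = l' • u := add_right_cancel h1
      have h4 : l = l' := smul_left_injective F hu h3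
      subst h4
      rfl
    · rintro ⟨v, hv1, hv2, hv3⟩
      obtain ⟨v₂, hv₂, z, hvz⟩ := hdec v
      obtain ⟨α, β, rfl⟩ := Submodule.mem_span_pair.1 hv₂
      rw [← hC z] at hvz
      have hβ : β = 0 := by
        have h1 := hv1
        rw [hvz, hl_add_right, hl_add_right, hl_smul_right, hl_smul_right, huu, mul_zero,
          zero_add, hWC u huW z, add_zero] at h1
        exact (mul_eq_zero.1 h1).resolve_right hu'
      rw [hβ, zero_smul, add_zero] at hvz
      have hz0 : z ≠ 0 := by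
        intro h0
        apply hv3
        rw [hvz, h0, hC]
        simp only [Pi.zero_apply, zero_smul, Finset.sum_const_zero, add_zero]
        exact Submodule.smul_mem _ _ (Submodule.mem_span_singleton_self u)
      have hzz : ∑ i, z i * z i ^ q = 0 := by
        rw [hZ, ← hnorm α z, ← hvz]
        exact hv2
      exact ⟨(α, ⟨z, hz0, hzz⟩), Subtype.ext hvz.symm⟩
  have hcardZ : Fintype.card {z : Fin (n - 2) → F // z ≠ 0 ∧ ∑ i, z i * z i ^ q = 0}
      = hcount q (n - 2) (0 : F) - 1 := by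
    rw [Fintype.card_subtype]
    have h1 : (Finset.univ.filter (fun z : Fin (n - 2) → F => z ≠ 0 ∧ ∑ i, z i * z i ^ q = 0))
        = (Finset.univ.filter (fun z : Fin (n - 2) → F => ∑ i, z i * z i ^ q = 0)).erase 0 := by
      ext z
      simp
    rw [h1, Finset.card_erase_of_mem]
    · rfl
    · simp only [Finset.mem_filter, Finset.mem_univ, true_and, Pi.zero_apply]
      apply Finset.sum_eq_zero
      intro i _
      rw [zero_mul]
  rw [← Fintype.card_subtype, ← Fintype.card_congr (Equiv.ofBijective _ hbij), Fintype.card_prod,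
    hF, hcardZ]

theorem hl_lines_count {q : ℕ} (hF : Fintype.card F = q ^ 2) (n : ℕ) (hn : 2 ≤ n) :
    Nat.card {W : Submodule F (Fin n → F) // Module.finrank F W = 2 ∧
        ∀ u ∈ W, ∀ v ∈ W, Cfsg.hermForm n F q u v = 0} * ((q ^ 4 - 1) * (q ^ 4 - q ^ 2))
      = (hcount q n (0 : F) - 1) * (q ^ 2 * (hcount q (n - 2) (0 : F) - 1)) := by
  obtain ⟨σ, hσ, hσ2, hσne, hq⟩ := frob hF
  have hH : ∀ x y : Fin n → F, Cfsg.hermForm n F q x y = Hf σ n y x :=
    fun x y => (Hf_herm σ q hσ y x).symm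
  rw [Nat.card_eq_fintype_card, Fintype.card_subtype]
  obtain ⟨L, hL⟩ : ∃ L : Finset (Submodule F (Fin n → F)),
      L = Finset.univ.filter (fun W : Submodule F (Fin n → F) => Module.finrank F W = 2 ∧
        ∀ u ∈ W, ∀ v ∈ W, Cfsg.hermForm n F q u v = 0) := ⟨_, rfl⟩
  obtain ⟨I, hI⟩ : ∃ I : Finset (Fin n → F),
      I = Finset.univ.filter (fun u : Fin n → F => u ≠ 0 ∧ Cfsg.hermForm n F q u u = 0) :=
    ⟨_, rfl⟩
  rw [← hL]
  have hIcard : I.card = hcount q n (0 : F) - 1 := by
    have h1 : I = (Finset.univ.filter (fun z : Fin n → F => ∑ i, z i * z i ^ q = 0)).erase 0 := by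
      rw [hI]
      ext z
      rw [Finset.mem_filter, Finset.mem_erase, Finset.mem_filter]
      simp only [Finset.mem_univ, true_and, Cfsg.hermForm, ne_eq]
    rw [h1, Finset.card_erase_of_mem]
    · rfl
    · simp only [Finset.mem_filter, Finset.mem_univ, true_and, Pi.zero_apply]
      apply Finset.sum_eq_zero
      intro i _
      rw [zero_mul]
  have hcF : Fintype.card F ^ 2 = q ^ 4 := by
    rw [hF]
    ring
  have key1 : ∑ u ∈ I, (L.filter (fun W => u ∈ W)).card = L.card * (q ^ 4 - 1) := by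
    rw [hl_dc_sum I L (fun u W => u ∈ W)]
    apply Finset.sum_const_nat
    intro W hW
    rw [hL, Finset.mem_filter] at hW
    obtain ⟨-, hW2, hWti⟩ := hW
    have h1 := hl_card_sub_filter (⊥ : Submodule F (Fin n → F)) W bot_le
    rw [hW2, finrank_bot, pow_zero, hcF] at h1
    rw [← h1]
    congr 1
    rw [hI]
    ext w
    simp only [Finset.mem_filter, Finset.mem_univ, true_and, Submodule.mem_bot]
    constructor
    · rintro ⟨⟨hw0, -⟩, hwW⟩
      exact ⟨hwW, hw0⟩
    · rintro ⟨hwW, hw0⟩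
      exact ⟨⟨hw0, hWti w hwW w hwW⟩, hwW⟩
  have key2 : ∀ u ∈ I, (L.filter (fun W => u ∈ W)).card * (q ^ 4 - q ^ 2)
      = q ^ 2 * (hcount q (n - 2) (0 : F) - 1) := by
    intro u hu
    rw [hI, Finset.mem_filter] at hu
    obtain ⟨-, hu0, huu⟩ := hu
    rw [← hl_count_perp hF n hn u hu0 huu]
    have key := hl_dc (Finset.univ.filter (fun v : Fin n → F => Cfsg.hermForm n F q v u = 0 ∧
        Cfsg.hermForm n F q v v = 0 ∧ v ∉ Submodule.span F {u}))
      (L.filter (fun W => u ∈ W)) (fun v W => v ∈ W) 1 (q ^ 4 - q ^ 2) ?_ ?_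
    · rw [mul_one] at key
      exact key.symm
    · intro v hv
      rw [Finset.mem_filter] at hv
      obtain ⟨-, hvu, hvv, hvs⟩ := hv
      rw [Finset.card_eq_one]
      refine ⟨Submodule.span F {u, v}, ?_⟩
      ext W
      simp only [Finset.mem_filter, Finset.mem_singleton, hL, Finset.mem_univ, true_and]
      constructor
      · rintro ⟨⟨⟨hW2, -⟩, huW⟩, hvW⟩
        symm
        haveI : FiniteDimensional F W := inferInstance
        apply Submodule.eq_of_le_of_finrank_eq
        · rw [Submodule.span_le]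
          intro x hx
          rcases hx with rfl | rfl
          · exact huW
          · exact hvW
        · rw [hl_span_pair_finrank u v hu0 hvs, hW2]
      · rintro rfl
        refine ⟨⟨⟨hl_span_pair_finrank u v hu0 hvs, ?_⟩, Submodule.subset_span (by simp)⟩,
          Submodule.subset_span (by simp)⟩
        intro x hx y hy
        rw [hH]
        exact hl_span_pair_ti σ hσ2 u v (by rw [← hH]; exact huu) (by rw [← hH]; exact hvv)
          (by rw [← hH]; exact hvu) y hy x hx
    · intro W hW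
      rw [Finset.mem_filter, hL, Finset.mem_filter] at hW
      obtain ⟨⟨-, hW2, hWti⟩, huW⟩ := hW
      have hle : Submodule.span F {u} ≤ W := by
        rw [Submodule.span_singleton_le_iff_mem]
        exact huW
      have h1 := hl_card_sub_filter (Submodule.span F {u}) W hle
      rw [hW2, finrank_span_singleton hu0, pow_one, hcF, hF] at h1
      rw [← h1]
      congr 1
      ext w
      simp only [Finset.mem_filter, Finset.mem_univ, true_and]
      constructor
      · rintro ⟨⟨-, -, hws⟩, hwW⟩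
        exact ⟨hwW, hws⟩
      · rintro ⟨hwW, hws⟩
        exact ⟨⟨hWti w hwW u huW, hWti w hwW w hwW, hws⟩, hwW⟩
  calc L.card * ((q ^ 4 - 1) * (q ^ 4 - q ^ 2))
      = (L.card * (q ^ 4 - 1)) * (q ^ 4 - q ^ 2) := (mul_assoc _ _ _).symm
    _ = (∑ u ∈ I, (L.filter (fun W => u ∈ W)).card) * (q ^ 4 - q ^ 2) := by rw [key1]
    _ = ∑ u ∈ I, (L.filter (fun W => u ∈ W)).card * (q ^ 4 - q ^ 2) := Finset.sum_mul _ _ _
    _ = ∑ u ∈ I, q ^ 2 * (hcount q (n - 2) (0 : F) - 1) := Finset.sum_congr rfl key2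
    _ = (hcount q n (0 : F) - 1) * (q ^ 2 * (hcount q (n - 2) (0 : F) - 1)) := by
        rw [Finset.sum_const, smul_eq_mul, hIcard]

end Cfsg.Agent.Helper6
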