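import Mathlib
import Cfsg.Agent.Helper6.SpPerfect

set_option autoImplicit false

namespace Cfsg.Agent.Helper6

open Matrix
open scoped LinearAlgebra.Projectivization Pointwise

variable {F : Type*} [Field F] {m : ℕ}

/-- `S0768.toG` as a group hom -/
def toGHom (m : ℕ) (F : Type*) [Field F] :
    Matrix.symplecticGroup (Fin m) F →* ↥(Cfsg.spGL m F) where
  toFun := S0768.toG
  map_one' := by
    apply Subtype.ext
    apply Units.ext
    rfl
  map_mul' A B := by
    apply Subtype.ext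
    apply Units.ext
    rfl

theorem toGHom_surjective : Function.Surjective (toGHom m F) := by
  classical
  intro g
  have hA : ((g : GL (Fin m ⊕ Fin m) F) : Matrix (Fin m ⊕ Fin m) (Fin m ⊕ Fin m) F)
      ∈ Matrix.symplecticGroup (Fin m) F := by
    rw [SymplecticGroup.mem_iff']
    ext i j
    have h1 : Cfsg.sympForm m F
        (((g : GL (Fin m ⊕ Fin m) F) : Matrix (Fin m ⊕ Fin m) (Fin m ⊕ Fin m) F) *ᵥ Pi.single i 1)
        (((g : GL (Fin m ⊕ Fin m) F) : Matrix (Fin m ⊕ Fin m) (Fin m ⊕ Fin m) F) *ᵥ Pi.single j 1)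
        = Cfsg.sympForm m F (Pi.single i 1) (Pi.single j 1) := g.2 (Pi.single i 1) (Pi.single j 1)
    unfold Cfsg.sympForm at h1
    rw [Matrix.mulVec_mulVec, ← Matrix.vecMul_transpose, ← Matrix.dotProduct_mulVec,
      Matrix.mulVec_mulVec, ← Matrix.mul_assoc, Matrix.mulVec_single_one, Matrix.mulVec_single_one,
      single_dotProduct, single_dotProduct, one_mul, one_mul] at h1
    exact h1
  refine ⟨⟨_, hA⟩, ?_⟩
  apply Subtype.ext
  apply Units.ext
  rfl

/-- the action of `Sp` on points -/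
@[instance_reducible]
def spActP (m : ℕ) (F : Type*) [Field F] :
    MulAction (Matrix.symplecticGroup (Fin m) F) (ℙ F (Fin m ⊕ Fin m → F)) :=
  MulAction.compHom _ (toGHom m F)

attribute [local instance] spActP

/-- the identity as an equivariant map -/
def spEq (m : ℕ) (F : Type*) [Field F] :
    ℙ F (Fin m ⊕ Fin m → F) →ₑ[toGHom m F] ℙ F (Fin m ⊕ Fin m → F) where
  toFun := id
  map_smul' := fun _ _ => rfl

theorem sp_preprimitive [Finite F] (hm : 1 ≤ m) :
    MulAction.IsPreprimitive (Matrix.symplecticGroup (Fin m) F) (ℙ F (Fin m ⊕ Fin m → F)) :=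
  (MulAction.isPreprimitive_congr (f := spEq m F) toGHom_surjective Function.bijective_id).2
    (S0768.result m hm)

theorem sp_mulVec_ne_zero (A : Matrix.symplecticGroup (Fin m) F) (v : Fin m ⊕ Fin m → F)
    (hv : v ≠ 0) : (A : Matrix (Fin m ⊕ Fin m) (Fin m ⊕ Fin m) F) *ᵥ v ≠ 0 := by
  intro h
  apply hv
  rw [← sp_inv_mulVec A v, h, Matrix.mulVec_zero]

theorem sp_smul_mk (A : Matrix.symplecticGroup (Fin m) F) (v : Fin m ⊕ Fin m → F) (hv : v ≠ 0) :
    A • Projectivization.mk F v hv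
      = Projectivization.mk F ((A : Matrix (Fin m ⊕ Fin m) (Fin m ⊕ Fin m) F) *ᵥ v)
        (sp_mulVec_ne_zero A v hv) :=
  S0768.toG_smul_mk A v hv _ _ 1 (one_smul _ _).symm

/-- the root subgroup of a vector -/
def tvGrp (w : Fin m ⊕ Fin m → F) : Subgroup (Matrix.symplecticGroup (Fin m) F) where
  carrier := {A | ∃ c : F, A = tvS w c}
  mul_mem' := by
    rintro _ _ ⟨c, rfl⟩ ⟨d, rfl⟩
    exact ⟨c + d, tvS_mul w c d⟩
  one_mem' := ⟨0, (tvS_zero w).symm⟩
  inv_mem' := by
    rintro _ ⟨c, rfl⟩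
    exact ⟨-c, tvS_inv w c⟩

theorem mem_tvGrp (w : Fin m ⊕ Fin m → F) (A : Matrix.symplecticGroup (Fin m) F) :
    A ∈ tvGrp w ↔ ∃ c : F, A = tvS w c := Iff.rfl

theorem tvGrp_smul (a : F) (ha : a ≠ 0) (w : Fin m ⊕ Fin m → F) : tvGrp (a • w) = tvGrp w := by
  ext A
  rw [mem_tvGrp, mem_tvGrp]
  constructor
  · rintro ⟨c, rfl⟩
    exact ⟨a ^ 2 * c, tvS_smul a w c⟩
  · rintro ⟨c, rfl⟩
    refine ⟨c / a ^ 2, ?_⟩
    rw [tvS_smul]
    congr 1
    field_simp

theorem tvGrp_conj (g : Matrix.symplecticGroup (Fin m) F) (w : Fin m ⊕ Fin m → F) :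
    tvGrp ((g : Matrix (Fin m ⊕ Fin m) (Fin m ⊕ Fin m) F) *ᵥ w) = MulAut.conj g • tvGrp w := by
  ext A
  rw [Subgroup.mem_pointwise_smul_iff_inv_smul_mem, mem_tvGrp, mem_tvGrp]
  have h1 : (MulAut.conj g)⁻¹ • A = g⁻¹ * A * g := by
    rw [MulAut.smul_def, MulAut.conj_inv_apply]
  rw [h1]
  constructor
  · rintro ⟨c, rfl⟩
    refine ⟨c, ?_⟩
    rw [← tvS_conj]
    group
  · rintro ⟨c, hc⟩
    refine ⟨c, ?_⟩
    rw [← tvS_conj, ← hc]
    group

/-- the Iwasawa structure of the symplectic group -/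
noncomputable def spIwasawa (m : ℕ) (F : Type*) [Field F] :
    MulAction.IwasawaStructure (Matrix.symplecticGroup (Fin m) F) (ℙ F (Fin m ⊕ Fin m → F)) where
  T p := tvGrp p.rep
  is_comm p := ⟨⟨by
    rintro ⟨_, ⟨c, rfl⟩⟩ ⟨_, ⟨d, rfl⟩⟩
    apply Subtype.ext
    show tvS p.rep c * tvS p.rep d = tvS p.rep d * tvS p.rep c
    rw [tvS_mul, tvS_mul, add_comm]⟩⟩
  is_conj g p := by
    have h1 : g • p = Projectivization.mk F
        ((g : Matrix (Fin m ⊕ Fin m) (Fin m ⊕ Fin m) F) *ᵥ p.rep)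
        (sp_mulVec_ne_zero g p.rep p.rep_nonzero) := by
      conv_lhs => rw [← Projectivization.mk_rep p]
      exact sp_smul_mk g p.rep p.rep_nonzero
    obtain ⟨a, ha⟩ := Projectivization.exists_smul_eq_mk_rep F
      ((g : Matrix (Fin m ⊕ Fin m) (Fin m ⊕ Fin m) F) *ᵥ p.rep)
      (sp_mulVec_ne_zero g p.rep p.rep_nonzero)
    rw [h1, ← ha, Units.smul_def, tvGrp_smul _ (Units.ne_zero a), tvGrp_conj]
  is_generator := by
    rw [eq_top_iff, ← S0765.result m, Subgroup.closure_le]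
    rintro A ⟨w, c, hA⟩
    have hA' : A = tvS w c := Subtype.ext hA
    by_cases hw : w = 0
    · rw [hA', hw, tvS_zero_vec]
      exact Subgroup.one_mem _
    · obtain ⟨a, ha⟩ := Projectivization.exists_smul_eq_mk_rep F w hw
      apply Subgroup.mem_iSup_of_mem (Projectivization.mk F w hw)
      show A ∈ tvGrp (Projectivization.mk F w hw).rep
      rw [← ha, Units.smul_def, tvGrp_smul _ (Units.ne_zero a)]
      exact ⟨c, hA'⟩

theorem sp_scalar_of_fix (hm : 1 ≤ m) (n : Matrix.symplecticGroup (Fin m) F)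
    (hpt : ∀ v : Fin m ⊕ Fin m → F, v ≠ 0 →
      ∃ a : F, (n : Matrix (Fin m ⊕ Fin m) (Fin m ⊕ Fin m) F) *ᵥ v = a • v) :
    ∃ a : F, (n : Matrix (Fin m ⊕ Fin m) (Fin m ⊕ Fin m) F) = a • 1 := by
  classical
  have hs : ∀ i : Fin m ⊕ Fin m, (Pi.single i (1 : F) : Fin m ⊕ Fin m → F) ≠ 0 := by
    intro i h
    have := congrFun h i
    simp at this
  choose a ha using fun i => hpt (Pi.single i 1) (hs i)
  have hconst : ∀ i j, a i = a j := by
    intro i j
    by_cases hij : i = j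
    · rw [hij]
    · have hne : (Pi.single i (1 : F) + Pi.single j (1 : F) : Fin m ⊕ Fin m → F) ≠ 0 := by
        intro h
        have := congrFun h i
        simp [Pi.single_apply, hij] at this
      obtain ⟨b, hb⟩ := hpt _ hne
      rw [Matrix.mulVec_add, ha i, ha j] at hb
      have h1 := congrFun hb i
      have h2 := congrFun hb j
      simp [Pi.single_apply, hij, Ne.symm hij] at h1 h2
      rw [h1, h2]
  refine ⟨a (Sum.inl ⟨0, hm⟩), ?_⟩
  ext k l
  have h1 := congrFun (ha l) k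
  rw [Matrix.mulVec_single_one] at h1
  rw [Matrix.smul_apply, Matrix.one_apply, ← hconst l]
  rw [Pi.smul_apply, Pi.single_apply] at h1
  exact h1

theorem sp_normal_dichotomy [Finite F] (hm : 1 ≤ m)
    (hperf : commutator (Matrix.symplecticGroup (Fin m) F) = ⊤)
    (N : Subgroup (Matrix.symplecticGroup (Fin m) F)) [N.Normal] :
    N = ⊤ ∨ N ≤ Subgroup.center (Matrix.symplecticGroup (Fin m) F) := by
  haveI := sp_preprimitive (F := F) hm
  by_cases hfix : MulAction.fixedPoints N (ℙ F (Fin m ⊕ Fin m → F)) = Set.univ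
  · right
    intro n hn
    have hpt : ∀ v : Fin m ⊕ Fin m → F, v ≠ 0 →
        ∃ a : F, (n : Matrix (Fin m ⊕ Fin m) (Fin m ⊕ Fin m) F) *ᵥ v = a • v := by
      intro v hv
      have h1 : Projectivization.mk F v hv ∈ MulAction.fixedPoints N (ℙ F (Fin m ⊕ Fin m → F)) := by
        rw [hfix]
        trivial
      have h2 : n • Projectivization.mk F v hv = Projectivization.mk F v hv := h1 ⟨n, hn⟩
      rw [sp_smul_mk n v hv, Projectivization.mk_eq_mk_iff'] at h2
      obtain ⟨a, ha⟩ := h2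
      exact ⟨a, ha.symm⟩
    obtain ⟨a, ha⟩ := sp_scalar_of_fix hm n hpt
    rw [Subgroup.mem_center_iff]
    intro g
    apply Subtype.ext
    show (g : Matrix (Fin m ⊕ Fin m) (Fin m ⊕ Fin m) F) * (n : Matrix (Fin m ⊕ Fin m) (Fin m ⊕ Fin m) F)
      = (n : Matrix (Fin m ⊕ Fin m) (Fin m ⊕ Fin m) F) * (g : Matrix (Fin m ⊕ Fin m) (Fin m ⊕ Fin m) F)
    rw [ha]
    simp
  · left
    have h := (spIwasawa m F).commutator_le N hfix
    rw [hperf] at h
    exact top_le_iff.1 h

theorem psp_simple [Fintype F] (m : ℕ) (hm : 2 ≤ m) (h : m = 2 → 3 ≤ Fintype.card F) :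
    IsSimpleGroup (Matrix.symplecticGroup (Fin m) F ⧸
      Subgroup.center (Matrix.symplecticGroup (Fin m) F)) := by
  classical
  have hperf : commutator (Matrix.symplecticGroup (Fin m) F) = ⊤ := by
    apply sp_perfect m
    rcases Nat.lt_or_ge m 3 with h3 | h3
    · right
      left
      exact ⟨by omega, h (by omega)⟩
    · left
      exact h3
  have hZ : Subgroup.center (Matrix.symplecticGroup (Fin m) F) ≠ ⊤ := by
    intro htop
    have h1 := (commutator_eq_bot_iff_center_eq_top (G := Matrix.symplecticGroup (Fin m) F)).2 htop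
    rw [hperf] at h1
    have h2 : tvS (Pi.single (Sum.inl (⟨0, by omega⟩ : Fin m)) (1 : F)) (1 : F)
        ∈ (⊤ : Subgroup (Matrix.symplecticGroup (Fin m) F)) := Subgroup.mem_top _
    rw [h1, Subgroup.mem_bot] at h2
    have h3 := congrArg (fun A : Matrix.symplecticGroup (Fin m) F =>
      (A : Matrix (Fin m ⊕ Fin m) (Fin m ⊕ Fin m) F) *ᵥ
        (Pi.single (Sum.inr (⟨0, by omega⟩ : Fin m)) (1 : F))) h2
    simp only [tvS_mulVec, sp_coe_one, Matrix.one_mulVec, sf_single_inl, Pi.single_eq_same,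
      mul_one, one_smul] at h3
    have h4 := congrFun h3 (Sum.inl (⟨0, by omega⟩ : Fin m))
    simp at h4
  haveI : Nontrivial (Matrix.symplecticGroup (Fin m) F ⧸
      Subgroup.center (Matrix.symplecticGroup (Fin m) F)) :=
    not_subsingleton_iff_nontrivial.1
      (fun hs => hZ (QuotientGroup.subgroup_eq_top_of_subsingleton _ hs))
  apply IsSimpleGroup.mk
  intro K hK
  haveI : (K.comap (QuotientGroup.mk' (Subgroup.center (Matrix.symplecticGroup (Fin m) F)))).Normal :=
    hK.comap _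
  rcases sp_normal_dichotomy (F := F) (by omega) hperf
    (K.comap (QuotientGroup.mk' (Subgroup.center (Matrix.symplecticGroup (Fin m) F)))) with hN | hN
  · right
    rw [eq_top_iff]
    intro x _
    obtain ⟨g, rfl⟩ := QuotientGroup.mk_surjective x
    have hg : g ∈ K.comap (QuotientGroup.mk' (Subgroup.center (Matrix.symplecticGroup (Fin m) F))) := by
      rw [hN]
      trivial
    exact hg
  · left
    rw [eq_bot_iff]
    intro x hx
    obtain ⟨g, rfl⟩ := QuotientGroup.mk_surjective x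
    have hg : g ∈ K.comap (QuotientGroup.mk' (Subgroup.center (Matrix.symplecticGroup (Fin m) F))) := hx
    rw [Subgroup.mem_bot, QuotientGroup.eq_one_iff]
    exact hN hg

end Cfsg.Agent.Helper6
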