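import Mathlib

set_option autoImplicit false

namespace Cfsg.Agent.Helper6

/-- A matrix group of order `n!` stabilising a spanning set of `n` vectors is the symmetric group
on that set. -/
theorem perm_of_span {ι : Type} [Fintype ι] [DecidableEq ι] {F : Type*} [Field F] [Finite F]
    (G : Subgroup (Matrix.GeneralLinearGroup ι F)) (S : Set (ι → F))
    (hS : ∀ g ∈ G, ∀ v ∈ S, (g : Matrix ι ι F).mulVec v ∈ S)
    (hspan : Submodule.span F S = ⊤) (n : ℕ) (hn : Nat.card S = n)
    (hG : Nat.card G = n.factorial) :
    Nonempty (G ≃* Equiv.Perm (Fin n)) := by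
  classical
  haveI : Finite S := Finite.of_injective (fun s : S => (s : ι → F)) Subtype.val_injective
  letI act : MulAction G S :=
    { smul := fun g s => ⟨((g : Matrix.GeneralLinearGroup ι F) : Matrix ι ι F).mulVec s.1,
        hS g.1 g.2 s.1 s.2⟩
      one_smul := by
        intro s
        apply Subtype.ext
        show ((((1 : G) : Matrix.GeneralLinearGroup ι F) : Matrix ι ι F)).mulVec s.1 = s.1
        simp
      mul_smul := by
        intro g h s
        apply Subtype.ext
        show ((((g * h : G) : Matrix.GeneralLinearGroup ι F) : Matrix ι ι F)).mulVec s.1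
          = ((g : Matrix.GeneralLinearGroup ι F) : Matrix ι ι F).mulVec
            (((h : Matrix.GeneralLinearGroup ι F) : Matrix ι ι F).mulVec s.1)
        simp [Matrix.mulVec_mulVec] }
  have hsm : ∀ (g : G) (s : S), ((g • s : S) : ι → F)
      = ((g : Matrix.GeneralLinearGroup ι F) : Matrix ι ι F).mulVec s.1 := fun _ _ => rfl
  let φ : G →* Equiv.Perm S := MulAction.toPermHom G S
  have hinj : Function.Injective φ := by
    rw [injective_iff_map_eq_one]
    intro g hg
    have h1 : ∀ v ∈ S, ((g : Matrix.GeneralLinearGroup ι F) : Matrix ι ι F).mulVec v = v := by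
      intro v hv
      have h2 : φ g ⟨v, hv⟩ = ⟨v, hv⟩ := by rw [hg]; rfl
      have h3 := congrArg Subtype.val h2
      exact h3
    have h4 : Matrix.toLin' ((g : Matrix.GeneralLinearGroup ι F) : Matrix ι ι F)
        = LinearMap.id := by
      apply LinearMap.ext_on hspan
      intro v hv
      simp only [Matrix.toLin'_apply, LinearMap.id_coe, id_eq]
      exact h1 v hv
    have h5 : ((g : Matrix.GeneralLinearGroup ι F) : Matrix ι ι F) = 1 := by
      apply Matrix.toLin'.injective
      rw [h4, Matrix.toLin'_one]
    apply Subtype.ext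
    apply Units.ext
    exact h5
  have hcard : Nat.card G = Nat.card (Equiv.Perm S) := by
    rw [hG, Nat.card_perm, hn]
  haveI : Finite G := Nat.finite_of_card_ne_zero (by rw [hG]; exact Nat.factorial_ne_zero n)
  have hbij : Function.Bijective φ := by
    rw [Nat.bijective_iff_injective_and_card]
    exact ⟨hinj, hcard⟩
  have e : S ≃ Fin n := hn ▸ Finite.equivFin S
  exact ⟨(MulEquiv.ofBijective φ hbij).trans e.permCongrHom⟩

end Cfsg.Agent.Helper6
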