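import Mathlib
import Cfsg.Agent.Helper16.SiegelOmega
import Cfsg.Agent.S5016
import Cfsg.Agent.Helper26.RankOne

set_option autoImplicit false

namespace Cfsg.Agent.H6Sg

open Cfsg Matrix QuadraticMap Cfsg.Agent.Helper16 Cfsg.Agent.Helper26

variable {ι : Type} [Fintype ι] [DecidableEq ι] {F : Type*} [Field F]
variable (Q : QuadraticForm F (ι → F))

theorem pl_add_left (x x' y : ι → F) :
    polar ⇑Q (x + x') y = polar ⇑Q x y + polar ⇑Q x' y := polar_add_left Q x x' y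

theorem pl_add_right (x y y' : ι → F) :
    polar ⇑Q x (y + y') = polar ⇑Q x y + polar ⇑Q x y' := polar_add_right Q x y y'

theorem pl_smul_left (a : F) (x y : ι → F) : polar ⇑Q (a • x) y = a * polar ⇑Q x y := by
  rw [polar_smul_left, smul_eq_mul]

theorem pl_smul_right (a : F) (x y : ι → F) : polar ⇑Q x (a • y) = a * polar ⇑Q x y := by
  rw [polar_smul_right, smul_eq_mul]

theorem pl_sub_left (x x' y : ι → F) :
    polar ⇑Q (x - x') y = polar ⇑Q x y - polar ⇑Q x' y := polar_sub_left Q x x' y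

theorem pl_sub_right (x y y' : ι → F) :
    polar ⇑Q x (y - y') = polar ⇑Q x y - polar ⇑Q x y' := polar_sub_right Q x y y'

theorem pl_self (x : ι → F) (hx : Q x = 0) : polar ⇑Q x x = 0 := by
  rw [qf_polar_self, hx, mul_zero]

theorem pl_symm {x y : ι → F} {c : F} (h : polar ⇑Q x y = c) : polar ⇑Q y x = c := by
  rw [polar_comm]
  exact h

/-- `(p, r)` spans a totally singular line -/
structure SLine (p r : ι → F) : Prop where
  ind : ∀ a b : F, a • p + b • r = 0 → a = 0 ∧ b = 0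
  qp : Q p = 0
  qr : Q r = 0
  pr : polar ⇑Q p r = 0

variable {Q}

theorem SLine.rp {p r : ι → F} (h : SLine Q p r) : polar ⇑Q r p = 0 := pl_symm Q h.pr

theorem SLine.pp {p r : ι → F} (h : SLine Q p r) : polar ⇑Q p p = 0 := pl_self Q p h.qp

theorem SLine.rr {p r : ι → F} (h : SLine Q p r) : polar ⇑Q r r = 0 := pl_self Q r h.qr

theorem SLine.p_ne {p r : ι → F} (h : SLine Q p r) : p ≠ 0 := by
  rintro rfl
  have := (h.ind 1 0 (by simp)).1
  exact one_ne_zero this

theorem SLine.r_ne {p r : ι → F} (h : SLine Q p r) : r ≠ 0 := by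
  rintro rfl
  have := (h.ind 0 1 (by simp)).2
  exact one_ne_zero this

theorem SLine.swap {p r : ι → F} (h : SLine Q p r) : SLine Q r p :=
  ⟨fun a b hab => (h.ind b a (by rw [add_comm]; exact hab)).symm, h.qr, h.qp, h.rp⟩

theorem act_inv_act' (g : ↥(Cfsg.isometryGroup F ⇑Q)) (u : ι → F) :
    act ⇑Q g⁻¹ (act ⇑Q g u) = u := by
  rw [← act_mul, inv_mul_cancel, act_one]

theorem SLine.img {p r : ι → F} (h : SLine Q p r) (g : ↥(Cfsg.isometryGroup F ⇑Q)) :
    SLine Q (Helper16.act ⇑Q g p) (Helper16.act ⇑Q g r) := by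
  refine ⟨fun a b hab => ?_, by rw [act_Q ⇑Q g]; exact h.qp, by rw [act_Q ⇑Q g]; exact h.qr,
    by rw [act_polar]; exact h.pr⟩
  apply h.ind
  have h1 : Helper16.act ⇑Q g (a • p + b • r) = 0 := by
    rw [act_add, act_smul, act_smul]
    exact hab
  have h2 := congrArg (Helper16.act ⇑Q g⁻¹) h1
  rw [act_inv_act'] at h2
  rw [h2]
  exact Matrix.mulVec_zero _

variable (Q)

/-- the Siegel element of a singular line -/
noncomputable def sg (p r : ι → F) (h : SLine Q p r) (c : F) : ↥(Cfsg.isometryGroup F ⇑Q) :=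
  siegelElt Q p r h.qp h.qr h.pr c

theorem act_sg (p r : ι → F) (h : SLine Q p r) (c : F) (x : ι → F) :
    act ⇑Q (sg Q p r h c) x = x + (c * polar ⇑Q p x) • r - (c * polar ⇑Q r x) • p := by
  rw [sg, act_siegelElt]
  module

theorem sg_mul (p r : ι → F) (h : SLine Q p r) (c d : F) :
    sg Q p r h c * sg Q p r h d = sg Q p r h (c + d) := by
  apply act_ext
  intro x
  simp only [act_mul, act_sg, pl_add_right, pl_sub_right, pl_smul_right, h.pr, h.rp, h.pp, h.rr]
  module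

theorem sg_zero (p r : ι → F) (h : SLine Q p r) : sg Q p r h 0 = 1 := by
  apply act_ext
  intro x
  rw [act_sg, act_one]
  module

theorem sg_inv (p r : ι → F) (h : SLine Q p r) (c : F) :
    (sg Q p r h c)⁻¹ = sg Q p r h (-c) :=
  (eq_inv_of_mul_eq_one_left (a := sg Q p r h (-c)) (b := sg Q p r h c)
    (by rw [sg_mul, neg_add_cancel, sg_zero])).symm

/-- dual vectors of a singular line -/
theorem exists_dual (hQ : ∀ x, (∀ y, polar ⇑Q x y = 0) → x = 0) (p r : ι → F)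
    (h : SLine Q p r) :
    ∃ p' r' : ι → F, polar ⇑Q p p' = 1 ∧ polar ⇑Q p r' = 0 ∧ polar ⇑Q r p' = 0 ∧
      polar ⇑Q r r' = 1 := by
  obtain ⟨x₀, hx₀⟩ : ∃ x₀, polar ⇑Q p x₀ ≠ 0 := by
    by_contra hcon
    push Not at hcon
    exact h.p_ne (hQ p hcon)
  obtain ⟨x₁, hx₁⟩ : ∃ x₁, polar ⇑Q p x₁ = 1 :=
    ⟨(polar ⇑Q p x₀)⁻¹ • x₀, by rw [pl_smul_right, inv_mul_cancel₀ hx₀]⟩
  obtain ⟨y, hy1, hy2⟩ : ∃ y, polar ⇑Q p y = 0 ∧ polar ⇑Q r y ≠ 0 := by
    by_contra hcon
    push Not at hcon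
    have h1 : ∀ v, polar ⇑Q (r - polar ⇑Q r x₁ • p) v = 0 := by
      intro v
      have h2 := hcon (v - polar ⇑Q p v • x₁) (by
        rw [pl_sub_right, pl_smul_right, hx₁]
        ring)
      rw [pl_sub_right, pl_smul_right] at h2
      rw [pl_sub_left, pl_smul_left]
      linear_combination h2
    have h3 := hQ _ h1
    have h4 := (h.ind (-polar ⇑Q r x₁) 1 (by rw [← h3]; module)).2
    exact one_ne_zero h4
  refine ⟨x₁ - polar ⇑Q r x₁ • ((polar ⇑Q r y)⁻¹ • y), (polar ⇑Q r y)⁻¹ • y, ?_, ?_, ?_, ?_⟩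
  · rw [pl_sub_right, pl_smul_right, pl_smul_right, hx₁, hy1]
    ring
  · rw [pl_smul_right, hy1, mul_zero]
  · rw [pl_sub_right, pl_smul_right, pl_smul_right, inv_mul_cancel₀ hy2]
    ring
  · rw [pl_smul_right, inv_mul_cancel₀ hy2]

theorem sg_ne_one (hQ : ∀ x, (∀ y, polar ⇑Q x y = 0) → x = 0) (p r : ι → F)
    (h : SLine Q p r) (c : F) (hc : c ≠ 0) : sg Q p r h c ≠ 1 := by
  intro h1
  obtain ⟨p', r', h11, h12, h21, h22⟩ := exists_dual Q hQ p r h
  have h2 := act_sg Q p r h c p'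
  rw [h1, act_one, h11, h21, mul_zero, zero_smul, sub_zero, mul_one] at h2
  have h3 : c • r = 0 := add_left_cancel (a := p') (by rw [add_zero]; exact h2.symm)
  rcases smul_eq_zero.1 h3 with h4 | h4
  · exact hc h4
  · exact h.r_ne h4

/-- the group of isometries fixing `ℓ^⊥` pointwise -/
def Tq (p r : ι → F) : Subgroup ↥(Cfsg.isometryGroup F ⇑Q) :=
  Subgroup.closure {σ | ∀ v : ι → F, polar ⇑Q v p = 0 → polar ⇑Q v r = 0 → act ⇑Q σ v = v}

theorem ts_iff (hQ : ∀ x, (∀ y, polar ⇑Q x y = 0) → x = 0) (p r : ι → F) (h : SLine Q p r)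
    (σ : ↥(Cfsg.isometryGroup F ⇑Q)) :
    (∀ v : ι → F, polar ⇑Q v p = 0 → polar ⇑Q v r = 0 → act ⇑Q σ v = v) ↔
      ∃ c, σ = sg Q p r h c := by
  constructor
  · intro hσ
    obtain ⟨p', r', h11, h12, h21, h22⟩ := exists_dual Q hQ p r h
    have h11' := pl_symm Q h11
    have h12' := pl_symm Q h12
    have h21' := pl_symm Q h21
    have h22' := pl_symm Q h22
    have hpr := h.pr
    have hrp := h.rp
    have hpp := h.pp
    have hrr := h.rr
    -- decomposition of an arbitrary vector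
    have hdec : ∀ u : ι → F, polar ⇑Q (u - polar ⇑Q u p • p' - polar ⇑Q u r • r') p = 0 ∧
        polar ⇑Q (u - polar ⇑Q u p • p' - polar ⇑Q u r • r') r = 0 := by
      intro u
      constructor
      · rw [pl_sub_left, pl_sub_left, pl_smul_left, pl_smul_left, h11', h12']
        ring
      · rw [pl_sub_left, pl_sub_left, pl_smul_left, pl_smul_left, h21', h22']
        ring
    have key1 : ∀ v w, polar ⇑Q w p = 0 → polar ⇑Q w r = 0 →
        polar ⇑Q (act ⇑Q σ v - v) w = 0 := by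
      intro v w hw1 hw2
      have e := act_polar ⇑Q σ v w
      rw [hσ w hw1 hw2] at e
      rw [pl_sub_left, e, sub_self]
    have key2 : ∀ v, act ⇑Q σ v - v = polar ⇑Q (act ⇑Q σ v - v) p' • p
        + polar ⇑Q (act ⇑Q σ v - v) r' • r := by
      intro v
      obtain ⟨x, hx⟩ : ∃ x, x = act ⇑Q σ v - v := ⟨_, rfl⟩
      rw [← hx]
      have hy : x - polar ⇑Q x p' • p - polar ⇑Q x r' • r = 0 := by
        apply hQ
        intro u
        obtain ⟨hu1, hu2⟩ := hdec u
        have e1 : polar ⇑Q x (u - polar ⇑Q u p • p' - polar ⇑Q u r • r') = 0 := by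
          rw [hx]
          exact key1 v _ hu1 hu2
        have e2 : u = (u - polar ⇑Q u p • p' - polar ⇑Q u r • r') + polar ⇑Q u p • p'
            + polar ⇑Q u r • r' := by module
        have hu1' := pl_symm Q hu1
        have hu2' := pl_symm Q hu2
        rw [pl_sub_left, pl_sub_left, pl_smul_left, pl_smul_left]
        have e3 : polar ⇑Q x u = polar ⇑Q x p' * polar ⇑Q u p + polar ⇑Q x r' * polar ⇑Q u r := by
          conv_lhs => rw [e2]
          rw [pl_add_right, pl_add_right, pl_smul_right, pl_smul_right, e1]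
          ring
        have e4 : polar ⇑Q p u = polar ⇑Q u p := polar_comm _ _ _
        have e5 : polar ⇑Q r u = polar ⇑Q u r := polar_comm _ _ _
        rw [e3, e4, e5]
        ring
      have e6 : x = (x - polar ⇑Q x p' • p - polar ⇑Q x r' • r) + polar ⇑Q x p' • p
          + polar ⇑Q x r' • r := by module
      rw [hy, zero_add] at e6
      exact e6
    -- the images of the dual vectors
    obtain ⟨a₁, ha₁⟩ : ∃ a, a = polar ⇑Q (act ⇑Q σ p' - p') p' := ⟨_, rfl⟩
    obtain ⟨b₁, hb₁⟩ : ∃ a, a = polar ⇑Q (act ⇑Q σ p' - p') r' := ⟨_, rfl⟩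
    obtain ⟨a₂, ha₂⟩ : ∃ a, a = polar ⇑Q (act ⇑Q σ r' - r') p' := ⟨_, rfl⟩
    obtain ⟨b₂, hb₂⟩ : ∃ a, a = polar ⇑Q (act ⇑Q σ r' - r') r' := ⟨_, rfl⟩
    have hp' : act ⇑Q σ p' = p' + (a₁ • p + b₁ • r) := by
      have e := key2 p'
      rw [← ha₁, ← hb₁] at e
      rw [← e]
      module
    have hr' : act ⇑Q σ r' = r' + (a₂ • p + b₂ • r) := by
      have e := key2 r'
      rw [← ha₂, ← hb₂] at e
      rw [← e]
      module
    have hsing : ∀ a b : F, Q (a • p + b • r) = 0 := by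
      intro a b
      rw [qf_lin2, h.qp, h.qr, h.pr]
      ring
    have hA1 : a₁ = 0 := by
      have e := act_Q ⇑Q σ p'
      rw [hp', qf_add, hsing, pl_add_right, pl_smul_right, pl_smul_right, h11', h21'] at e
      linear_combination e
    have hB2 : b₂ = 0 := by
      have e := act_Q ⇑Q σ r'
      rw [hr', qf_add, hsing, pl_add_right, pl_smul_right, pl_smul_right, h12', h22'] at e
      linear_combination e
    have hAB : a₂ + b₁ = 0 := by
      have e := act_Q ⇑Q σ (p' + r')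
      have e' : act ⇑Q σ (p' + r') = (p' + r') + ((a₁ + a₂) • p + (b₁ + b₂) • r) := by
        rw [act_add, hp', hr']
        module
      rw [e', qf_add, hsing, pl_add_right, pl_smul_right, pl_smul_right, pl_add_left, pl_add_left,
        h11', h21', h12', h22', hA1, hB2] at e
      linear_combination e
    refine ⟨b₁, act_ext _ _ _ (fun v => ?_)⟩
    obtain ⟨hv1, hv2⟩ := hdec v
    have e1 := hσ _ hv1 hv2
    have e2 : v = (v - polar ⇑Q v p • p' - polar ⇑Q v r • r') + polar ⇑Q v p • p'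
        + polar ⇑Q v r • r' := by module
    have e3 : act ⇑Q σ v = (v - polar ⇑Q v p • p' - polar ⇑Q v r • r')
        + polar ⇑Q v p • (p' + (a₁ • p + b₁ • r)) + polar ⇑Q v r • (r' + (a₂ • p + b₂ • r)) := by
      conv_lhs => rw [e2]
      rw [act_add, act_add, act_smul, act_smul, e1, hp', hr']
    have e4 : polar ⇑Q p v = polar ⇑Q v p := polar_comm _ _ _
    have e5 : polar ⇑Q r v = polar ⇑Q v r := polar_comm _ _ _
    have hA2 : a₂ = -b₁ := by linear_combination hAB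
    rw [e3, act_sg, hA1, hB2, hA2, e4, e5]
    module
  · rintro ⟨c, rfl⟩ v hv1 hv2
    have e4 : polar ⇑Q p v = 0 := pl_symm Q hv1
    have e5 : polar ⇑Q r v = 0 := pl_symm Q hv2
    rw [act_sg, e4, e5]
    module

theorem mem_Tq (hQ : ∀ x, (∀ y, polar ⇑Q x y = 0) → x = 0) (p r : ι → F) (h : SLine Q p r)
    (σ : ↥(Cfsg.isometryGroup F ⇑Q)) : σ ∈ Tq Q p r ↔ ∃ c, σ = sg Q p r h c := by
  constructor
  · intro hσ
    refine Subgroup.closure_induction (p := fun g _ => ∃ c, g = sg Q p r h c) ?_ ?_ ?_ ?_ hσ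
    · intro x hx
      exact (ts_iff Q hQ p r h x).1 hx
    · exact ⟨0, (sg_zero Q p r h).symm⟩
    · rintro x y - - ⟨c, rfl⟩ ⟨d, rfl⟩
      exact ⟨c + d, sg_mul Q p r h c d⟩
    · rintro x - ⟨c, rfl⟩
      exact ⟨-c, sg_inv Q p r h c⟩
  · intro hσ
    exact Subgroup.subset_closure ((ts_iff Q hQ p r h σ).2 hσ)

theorem sg_mem (hQ : ∀ x, (∀ y, polar ⇑Q x y = 0) → x = 0) (p r : ι → F) (h : SLine Q p r)
    (c : F) : sg Q p r h c ∈ Tq Q p r := (mem_Tq Q hQ p r h _).2 ⟨c, rfl⟩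

theorem Tq_congr (p r p₁ r₁ : ι → F)
    (h : ∀ v, (polar ⇑Q v p = 0 ∧ polar ⇑Q v r = 0) ↔ (polar ⇑Q v p₁ = 0 ∧ polar ⇑Q v r₁ = 0)) :
    Tq Q p r = Tq Q p₁ r₁ := by
  unfold Tq
  congr 1
  ext σ
  constructor
  · intro hσ v h1 h2
    exact hσ v ((h v).2 ⟨h1, h2⟩).1 ((h v).2 ⟨h1, h2⟩).2
  · intro hσ v h1 h2
    exact hσ v ((h v).1 ⟨h1, h2⟩).1 ((h v).1 ⟨h1, h2⟩).2

theorem Tq_swap (p r : ι → F) : Tq Q p r = Tq Q r p :=
  Tq_congr Q p r r p (fun v => and_comm)

end Cfsg.Agent.H6Sg
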