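import Mathlib
import Cfsg.Agent.Helper6.SgRootA

set_option autoImplicit false

namespace Cfsg.Agent.H6Sg

open Cfsg Matrix QuadraticMap Cfsg.Agent.Helper16 Cfsg.Agent.Helper26

variable {ι : Type} [Fintype ι] [DecidableEq ι] {F : Type*} [Field F]
variable (Q : QuadraticForm F (ι → F))

theorem act_act_inv' (g : ↥(Cfsg.isometryGroup F ⇑Q)) (u : ι → F) :
    act ⇑Q g (act ⇑Q g⁻¹ u) = u := by
  rw [← act_mul, mul_inv_cancel, act_one]

theorem act_sub' (g : ↥(Cfsg.isometryGroup F ⇑Q)) (u v : ι → F) :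
    act ⇑Q g (u - v) = act ⇑Q g u - act ⇑Q g v := Matrix.mulVec_sub _ _ _

theorem sg_conj (p r : ι → F) (h : SLine Q p r) (g : ↥(Cfsg.isometryGroup F ⇑Q)) (c : F) :
    g * sg Q p r h c * g⁻¹ = sg Q (act ⇑Q g p) (act ⇑Q g r) (h.img g) c := by
  apply act_ext
  intro x
  have e1 : polar ⇑Q (act ⇑Q g p) x = polar ⇑Q p (act ⇑Q g⁻¹ x) := by
    rw [← act_polar ⇑Q g p (act ⇑Q g⁻¹ x), act_act_inv']
  have e2 : polar ⇑Q (act ⇑Q g r) x = polar ⇑Q r (act ⇑Q g⁻¹ x) := by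
    rw [← act_polar ⇑Q g r (act ⇑Q g⁻¹ x), act_act_inv']
  rw [act_mul, act_mul, act_sg, act_sg, e1, e2, act_sub', act_add, act_smul, act_smul,
    act_act_inv']

theorem conjBy_Tq (hQ : ∀ x, (∀ y, polar ⇑Q x y = 0) → x = 0) (p r : ι → F) (h : SLine Q p r)
    (g : ↥(Cfsg.isometryGroup F ⇑Q)) :
    Cfsg.conjBy (Tq Q p r) g = Tq Q (act ⇑Q g p) (act ⇑Q g r) := by
  ext x
  rw [Subgroup.mem_map, mem_Tq Q hQ _ _ (h.img g)]
  constructor
  · rintro ⟨t, ht, rfl⟩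
    obtain ⟨c, rfl⟩ := (mem_Tq Q hQ p r h t).1 ht
    exact ⟨c, sg_conj Q p r h g c⟩
  · rintro ⟨c, rfl⟩
    exact ⟨sg Q p r h c, sg_mem Q hQ p r h c, sg_conj Q p r h g c⟩

theorem Tq_comm (hQ : ∀ x, (∀ y, polar ⇑Q x y = 0) → x = 0) (p r : ι → F) (h : SLine Q p r) :
    IsMulCommutative (Tq Q p r) :=
  ⟨⟨by
    rintro ⟨a, ha⟩ ⟨b, hb⟩
    obtain ⟨c, rfl⟩ := (mem_Tq Q hQ p r h a).1 ha
    obtain ⟨d, rfl⟩ := (mem_Tq Q hQ p r h b).1 hb
    apply Subtype.ext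
    show sg Q p r h c * sg Q p r h d = sg Q p r h d * sg Q p r h c
    rw [sg_mul, sg_mul, add_comm]⟩⟩

theorem Tq_ne_bot (hQ : ∀ x, (∀ y, polar ⇑Q x y = 0) → x = 0) (p r : ι → F) (h : SLine Q p r) :
    Tq Q p r ≠ ⊥ := by
  intro hb
  have h1 := sg_mem Q hQ p r h 1
  rw [hb, Subgroup.mem_bot] at h1
  exact sg_ne_one Q hQ p r h 1 one_ne_zero h1

theorem sg_comm_perp (p r p' r' : ι → F) (h : SLine Q p r) (h' : SLine Q p' r')
    (m11 : polar ⇑Q p p' = 0) (m12 : polar ⇑Q p r' = 0) (m21 : polar ⇑Q r p' = 0)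
    (m22 : polar ⇑Q r r' = 0) (c d : F) :
    sg Q p r h c * sg Q p' r' h' d = sg Q p' r' h' d * sg Q p r h c := by
  apply act_ext
  intro x
  simp only [act_mul, act_sg, pl_add_right, pl_sub_right, pl_smul_right, m11, m12, m21, m22,
    pl_symm Q m11, pl_symm Q m12, pl_symm Q m21, pl_symm Q m22]
  module

theorem sg_comm_share (x r x₂ y' : ι → F) (μ : F) (hx₂ : x₂ = μ • x) (h : SLine Q x r)
    (h' : SLine Q x₂ y') (hxy : polar ⇑Q x y' = 0) (c d : F) :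
    sg Q x r h c * sg Q x₂ y' h' d = sg Q x₂ y' h' d * sg Q x r h c := by
  subst hx₂
  apply act_ext
  intro v
  have e : polar ⇑Q y' r = polar ⇑Q r y' := polar_comm _ _ _
  simp only [act_mul, act_sg, pl_add_right, pl_sub_right, pl_smul_right, pl_smul_left, h.pr, h.rp,
    h.pp, h.rr, hxy, pl_symm Q hxy, e]
  module

theorem sg_comm_formula (x r x' y' : ι → F) (h : SLine Q x r) (h' : SLine Q x' y')
    (h'' : SLine Q x x') (g12 : polar ⇑Q x y' = 0) (g21 : polar ⇑Q r x' = 0)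
    (g22 : polar ⇑Q r y' = 1) (c d : F) :
    sg Q x r h c * sg Q x' y' h' d
      = sg Q x x' h'' (c * d) * (sg Q x' y' h' d * sg Q x r h c) := by
  apply act_ext
  intro v
  simp only [act_mul, act_sg, pl_add_right, pl_sub_right, pl_smul_right, h.pr, h.rp, h.pp, h.rr,
    h'.pr, h'.rp, h'.pp, h'.rr, h''.pr, h''.rp, g12, g21, g22, pl_symm Q g12, pl_symm Q g21,
    pl_symm Q g22]
  module

theorem Tq_comm_bot_perp (hQ : ∀ x, (∀ y, polar ⇑Q x y = 0) → x = 0) (p r p' r' : ι → F)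
    (h : SLine Q p r) (h' : SLine Q p' r')
    (m11 : polar ⇑Q p p' = 0) (m12 : polar ⇑Q p r' = 0) (m21 : polar ⇑Q r p' = 0)
    (m22 : polar ⇑Q r r' = 0) : ⁅Tq Q p r, Tq Q p' r'⁆ = ⊥ := by
  rw [Subgroup.commutator_eq_bot_iff_le_centralizer]
  intro a ha
  rw [Subgroup.mem_centralizer_iff]
  intro b hb
  obtain ⟨c, rfl⟩ := (mem_Tq Q hQ p r h a).1 ha
  obtain ⟨d, rfl⟩ := (mem_Tq Q hQ p' r' h' b).1 hb
  exact (sg_comm_perp Q p r p' r' h h' m11 m12 m21 m22 c d).symm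

theorem Tq_comm_bot_share (hQ : ∀ x, (∀ y, polar ⇑Q x y = 0) → x = 0) (x r x₂ y' : ι → F)
    (μ : F) (hx₂ : x₂ = μ • x) (h : SLine Q x r) (h' : SLine Q x₂ y')
    (hxy : polar ⇑Q x y' = 0) : ⁅Tq Q x r, Tq Q x₂ y'⁆ = ⊥ := by
  rw [Subgroup.commutator_eq_bot_iff_le_centralizer]
  intro a ha
  rw [Subgroup.mem_centralizer_iff]
  intro b hb
  obtain ⟨c, rfl⟩ := (mem_Tq Q hQ x r h a).1 ha
  obtain ⟨d, rfl⟩ := (mem_Tq Q hQ x₂ y' h' b).1 hb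
  exact (sg_comm_share Q x r x₂ y' μ hx₂ h h' hxy c d).symm

end Cfsg.Agent.H6Sg
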