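import Mathlib
import Cfsg.Agent.Helper6.SgRootB

set_option autoImplicit false

namespace Cfsg.Agent.H6Sg

open Cfsg Matrix QuadraticMap Cfsg.Agent.Helper16 Cfsg.Agent.Helper26

variable {ι : Type} [Fintype ι] [DecidableEq ι] {F : Type*} [Field F]
variable (Q : QuadraticForm F (ι → F))

section opp

variable (hQ : ∀ x, (∀ y, polar ⇑Q x y = 0) → x = 0) (p r p' r' : ι → F)
  (h : SLine Q p r) (h' : SLine Q p' r') (g11 : polar ⇑Q p p' = 1) (g12 : polar ⇑Q p r' = 0)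
  (g21 : polar ⇑Q r p' = 0) (g22 : polar ⇑Q r r' = 1)

include hQ h h' g11 g21 in
theorem Tq_ne_opp : Tq Q p r ≠ Tq Q p' r' := by
  intro hEq
  have h1 : sg Q p r h 1 ∈ Tq Q p' r' := hEq ▸ sg_mem Q hQ p r h 1
  obtain ⟨d, hd⟩ := (mem_Tq Q hQ p' r' h' _).1 h1
  have e := congrArg (fun σ => act ⇑Q σ p') hd
  simp only [act_sg, g11, g21, h'.pp, h'.rp] at e
  have e2 : r = 0 := by
    have e3 : p' + r = p' + 0 := by
      rw [add_zero]
      calc p' + r = p' + (1 * 1 : F) • r - (1 * 0 : F) • p := by module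
        _ = p' + (d * 0) • r' - (d * 0) • p' := e
        _ = p' := by module
    exact add_left_cancel e3
  exact h.r_ne e2

include hQ h h' g11 g12 g21 g22 in
theorem cond_opp : Cfsg.RankOneCondition (Tq Q p r) (Tq Q p' r') := by
  intro a ha ha1
  obtain ⟨c, rfl⟩ := (mem_Tq Q hQ p r h a).1 ha
  have hc : c ≠ 0 := by
    rintro rfl
    exact ha1 (sg_zero Q p r h)
  obtain ⟨e, he⟩ : ∃ e, c * e - 1 = 0 := ⟨c⁻¹, by rw [mul_inv_cancel₀ hc, sub_self]⟩
  have he0 : e ≠ 0 := by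
    rintro rfl
    rw [mul_zero, zero_sub] at he
    exact one_ne_zero (neg_eq_zero.1 he)
  refine ⟨sg Q p' r' h' (-e), sg_mem Q hQ p' r' h' _,
    sg_ne_one Q hQ p' r' h' _ (neg_ne_zero.2 he0), ?_⟩
  rw [conjBy_Tq Q hQ p r h, conjBy_Tq Q hQ p' r' h', sg_inv, sg_inv, neg_neg]
  have g11' := pl_symm Q g11
  have g12' := pl_symm Q g12
  have g21' := pl_symm Q g21
  have g22' := pl_symm Q g22
  have e1 : act ⇑Q (sg Q p' r' h' e) p = p + e • r' := by
    rw [act_sg, g11', g12']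
    module
  have e2 : act ⇑Q (sg Q p' r' h' e) r = r - e • p' := by
    rw [act_sg, g21', g22']
    module
  have e3 : act ⇑Q (sg Q p r h (-c)) p' = p' - c • r := by
    rw [act_sg, g11, g21]
    module
  have e4 : act ⇑Q (sg Q p r h (-c)) r' = r' + c • p := by
    rw [act_sg, g12, g22]
    module
  rw [e1, e2, e3, e4]
  apply Tq_congr
  intro v
  simp only [pl_add_right, pl_sub_right, pl_smul_right]
  constructor
  · rintro ⟨h1, h2⟩
    exact ⟨by linear_combination (-c) * h2 - polar ⇑Q v p' * he,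
      by linear_combination c * h1 - polar ⇑Q v r' * he⟩
  · rintro ⟨h3, h4⟩
    exact ⟨by linear_combination e * h4 - polar ⇑Q v p * he,
      by linear_combination (-e) * h3 - polar ⇑Q v r * he⟩

include hQ h h' g11 g12 g21 g22 in
theorem rank_one_opp : Cfsg.IsRankOnePair (Tq Q p r) (Tq Q p' r') :=
  ⟨Tq_ne_opp Q hQ p r p' r' h h' g11 g21,
    isNilpotent_of_isMulCommutative (Tq_comm Q hQ p r h),
    isNilpotent_of_isMulCommutative (Tq_comm Q hQ p' r' h'),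
    cond_opp Q hQ p r p' r' h h' g11 g12 g21 g22,
    cond_opp Q hQ p' r' p r h' h (pl_symm Q g11) (pl_symm Q g21) (pl_symm Q g12)
      (pl_symm Q g22)⟩

/-- the action of a 2×2 matrix on `⟨p, r'⟩ ⊕ ⟨r, p'⟩`, extended by the identity -/
def Tl (N : Matrix (Fin 2) (Fin 2) F) (v : ι → F) : ι → F :=
  v + ((N 0 0 - 1) * polar ⇑Q p' v - N 0 1 * polar ⇑Q r v) • p
    + (-(N 1 0) * polar ⇑Q p' v + (N 1 1 - 1) * polar ⇑Q r v) • r'
    + ((N 0 0 - 1) * polar ⇑Q r' v + N 0 1 * polar ⇑Q p v) • r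
    + (N 1 0 * polar ⇑Q r' v + (N 1 1 - 1) * polar ⇑Q p v) • p'

theorem Tl_apply (N : Matrix (Fin 2) (Fin 2) F) (v : ι → F) :
    Tl Q p r p' r' N v = v + ((N 0 0 - 1) * polar ⇑Q p' v - N 0 1 * polar ⇑Q r v) • p
    + (-(N 1 0) * polar ⇑Q p' v + (N 1 1 - 1) * polar ⇑Q r v) • r'
    + ((N 0 0 - 1) * polar ⇑Q r' v + N 0 1 * polar ⇑Q p v) • r
    + (N 1 0 * polar ⇑Q r' v + (N 1 1 - 1) * polar ⇑Q p v) • p' := rfl

include h h' g11 g12 g21 g22 in
theorem Tl_coord (N : Matrix (Fin 2) (Fin 2) F) (v : ι → F) :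
    polar ⇑Q p' (Tl Q p r p' r' N v) = N 0 0 * polar ⇑Q p' v - N 0 1 * polar ⇑Q r v ∧
    polar ⇑Q r (Tl Q p r p' r' N v) = -(N 1 0) * polar ⇑Q p' v + N 1 1 * polar ⇑Q r v ∧
    polar ⇑Q r' (Tl Q p r p' r' N v) = N 0 0 * polar ⇑Q r' v + N 0 1 * polar ⇑Q p v ∧
    polar ⇑Q p (Tl Q p r p' r' N v) = N 1 0 * polar ⇑Q r' v + N 1 1 * polar ⇑Q p v := by
  have g11' := pl_symm Q g11
  have g12' := pl_symm Q g12
  have g21' := pl_symm Q g21
  have g22' := pl_symm Q g22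
  refine ⟨?_, ?_, ?_, ?_⟩
  · simp only [Tl_apply, pl_add_right, pl_smul_right, g11', g21', h'.pp, h'.pr]
    ring
  · simp only [Tl_apply, pl_add_right, pl_smul_right, g21, g22, h.rr, h.rp]
    ring
  · simp only [Tl_apply, pl_add_right, pl_smul_right, g12', g22', h'.rr, h'.rp]
    ring
  · simp only [Tl_apply, pl_add_right, pl_smul_right, g11, g12, h.pp, h.pr]
    ring

include h h' g11 g12 g21 g22 in
theorem Tl_mul (N₁ N₂ : Matrix (Fin 2) (Fin 2) F) (v : ι → F) :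
    Tl Q p r p' r' (N₁ * N₂) v = Tl Q p r p' r' N₁ (Tl Q p r p' r' N₂ v) := by
  obtain ⟨c1, c2, c3, c4⟩ := Tl_coord Q p r p' r' h h' g11 g12 g21 g22 N₂ v
  rw [Tl_apply Q p r p' r' N₁, c1, c2, c3, c4, Tl_apply, Tl_apply]
  simp only [Matrix.mul_apply, Fin.sum_univ_two]
  module

theorem Tl_one (v : ι → F) : Tl Q p r p' r' 1 v = v := by
  rw [Tl_apply]
  simp

theorem Tl_up (c : F) (v : ι → F) :
    Tl Q p r p' r' !![1, c; 0, 1] v = v + (c * polar ⇑Q p v) • r - (c * polar ⇑Q r v) • p := by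
  rw [Tl_apply]
  simp
  try module

theorem Tl_lo (c : F) (v : ι → F) :
    Tl Q p r p' r' !![1, 0; c, 1] v
      = v + (-c * polar ⇑Q p' v) • r' - (-c * polar ⇑Q r' v) • p' := by
  rw [Tl_apply]
  simp
  try module

include hQ h h' g11 g12 g21 g22 in
theorem exists_acts (N : Matrix.SpecialLinearGroup (Fin 2) F) :
    ∃ g ∈ Tq Q p r ⊔ Tq Q p' r', ∀ v, act ⇑Q g v = Tl Q p r p' r' N.1 v := by
  let Hs : Subgroup (Matrix.SpecialLinearGroup (Fin 2) F) :=
    { carrier := {N | ∃ g ∈ Tq Q p r ⊔ Tq Q p' r', ∀ v, act ⇑Q g v = Tl Q p r p' r' N.1 v}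
      mul_mem' := by
        rintro M N ⟨g, hg, h1⟩ ⟨g', hg', h2⟩
        refine ⟨g * g', Subgroup.mul_mem _ hg hg', fun v => ?_⟩
        rw [act_mul, h2 v, h1]
        exact (Tl_mul Q p r p' r' h h' g11 g12 g21 g22 M.1 N.1 v).symm
      one_mem' := ⟨1, Subgroup.one_mem _, fun v => by
        rw [act_one]
        exact (Tl_one Q p r p' r' v).symm⟩
      inv_mem' := by
        rintro M ⟨g, hg, h1⟩
        refine ⟨g⁻¹, Subgroup.inv_mem _ hg, fun v => ?_⟩
        have h2 : act ⇑Q g (Tl Q p r p' r' (M⁻¹).1 v) = v := by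
          rw [h1, ← Tl_mul Q p r p' r' h h' g11 g12 g21 g22]
          have e : M.1 * (M⁻¹).1 = 1 := by
            have := congrArg Subtype.val (mul_inv_cancel M)
            exact this
          rw [e, Tl_one]
        have h3 := congrArg (act ⇑Q g⁻¹) h2
        rw [act_inv_act'] at h3
        exact h3.symm }
  have hup : Cfsg.upperUnipotentSL2 F ≤ Hs := by
    intro M hM
    obtain ⟨t, rfl⟩ := Cfsg.Agent.S5016.mem_upper.1 hM
    exact ⟨sg Q p r h t, Subgroup.mem_sup_left (sg_mem Q hQ p r h t), fun v => by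
      rw [act_sg]
      exact (Tl_up Q p r p' r' t v).symm⟩
  have hlo : Cfsg.lowerUnipotentSL2 F ≤ Hs := by
    intro M hM
    obtain ⟨t, rfl⟩ := Cfsg.Agent.S5016.mem_lower.1 hM
    exact ⟨sg Q p' r' h' (-t), Subgroup.mem_sup_right (sg_mem Q hQ p' r' h' (-t)), fun v => by
      rw [act_sg]
      exact (Tl_lo Q p r p' r' t v).symm⟩
  exact (sup_le hlo hup) (Cfsg.Agent.S5016.generate N)

include hQ h h' g11 g12 g21 g22 in
theorem exists_hom :
    ∃ ψ : Matrix.SpecialLinearGroup (Fin 2) F →* ↥(Cfsg.isometryGroup F ⇑Q),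
      ψ.range = Tq Q p r ⊔ Tq Q p' r' ∧
      ψ.ker ≤ Subgroup.center (Matrix.SpecialLinearGroup (Fin 2) F) ∧
      (Cfsg.upperUnipotentSL2 F).map ψ = Tq Q p r ∧
      (Cfsg.lowerUnipotentSL2 F).map ψ = Tq Q p' r' := by
  have hex := fun N => exists_acts Q hQ p r p' r' h h' g11 g12 g21 g22 N
  choose f hf1 hf2 using hex
  let ψ : Matrix.SpecialLinearGroup (Fin 2) F →* ↥(Cfsg.isometryGroup F ⇑Q) :=
    MonoidHom.mk' f (fun M N => act_ext _ _ _ (fun v => by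
      rw [act_mul, hf2, hf2, hf2]
      exact Tl_mul Q p r p' r' h h' g11 g12 g21 g22 M.1 N.1 v))
  have hψ : ∀ M v, act ⇑Q (ψ M) v = Tl Q p r p' r' M.1 v := hf2
  have hup : ∀ t, ψ (Cfsg.Agent.S5016.up t) = sg Q p r h t := fun t =>
    act_ext _ _ _ (fun v => by
      rw [hψ, act_sg]
      exact Tl_up Q p r p' r' t v)
  have hlo : ∀ t, ψ (Cfsg.Agent.S5016.lo t) = sg Q p' r' h' (-t) := fun t =>
    act_ext _ _ _ (fun v => by
      rw [hψ, act_sg]
      exact Tl_lo Q p r p' r' t v)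
  have hmu : (Cfsg.upperUnipotentSL2 F).map ψ = Tq Q p r := by
    ext A
    rw [Subgroup.mem_map, mem_Tq Q hQ p r h]
    constructor
    · rintro ⟨M, hM, rfl⟩
      obtain ⟨t, rfl⟩ := Cfsg.Agent.S5016.mem_upper.1 hM
      exact ⟨t, hup t⟩
    · rintro ⟨c, rfl⟩
      exact ⟨Cfsg.Agent.S5016.up c, Cfsg.Agent.S5016.up_mem c, hup c⟩
  have hml : (Cfsg.lowerUnipotentSL2 F).map ψ = Tq Q p' r' := by
    ext A
    rw [Subgroup.mem_map, mem_Tq Q hQ p' r' h']
    constructor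
    · rintro ⟨M, hM, rfl⟩
      obtain ⟨t, rfl⟩ := Cfsg.Agent.S5016.mem_lower.1 hM
      exact ⟨-t, hlo t⟩
    · rintro ⟨c, rfl⟩
      exact ⟨Cfsg.Agent.S5016.lo (-c), Cfsg.Agent.S5016.lo_mem _, by rw [hlo, neg_neg]⟩
  refine ⟨ψ, ?_, ?_, hmu, hml⟩
  · have htop : (⊤ : Subgroup (Matrix.SpecialLinearGroup (Fin 2) F))
        = Cfsg.lowerUnipotentSL2 F ⊔ Cfsg.upperUnipotentSL2 F :=
      (eq_top_iff.2 (fun g _ => Cfsg.Agent.S5016.generate g)).symm
    rw [MonoidHom.range_eq_map, htop, Subgroup.map_sup, hmu, hml, sup_comm]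
  · intro M hM
    rw [MonoidHom.mem_ker] at hM
    have h1 : ∀ v, Tl Q p r p' r' M.1 v = v := by
      intro v
      rw [← hψ, hM, act_one]
    have g11' := pl_symm Q g11
    have g12' := pl_symm Q g12
    have g21' := pl_symm Q g21
    have g22' := pl_symm Q g22
    obtain ⟨c1, c2, -, -⟩ := Tl_coord Q p r p' r' h h' g11 g12 g21 g22 M.1 p
    obtain ⟨d1, d2, -, -⟩ := Tl_coord Q p r p' r' h h' g11 g12 g21 g22 M.1 r'
    rw [h1, g11', h.rp] at c1 c2
    rw [h1, h'.pr, g22] at d1 d2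
    have ha : M.1 0 0 = 1 := by linear_combination -c1
    have hc : M.1 1 0 = 0 := by linear_combination c2
    have hb : M.1 0 1 = 0 := by linear_combination d1
    have hd : M.1 1 1 = 1 := by linear_combination -d2
    have hM1 : M = 1 := by
      ext i j
      fin_cases i <;> fin_cases j <;> simp [ha, hb, hc, hd]
    rw [hM1]
    exact Subgroup.one_mem _

end opp

end Cfsg.Agent.H6Sg
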