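import Mathlib
import Cfsg.Agent.Helper6.SgRootC

set_option autoImplicit false

namespace Cfsg.Agent.H6Sg

open Cfsg Matrix QuadraticMap Cfsg.Agent.Helper16 Cfsg.Agent.Helper26

variable {ι : Type} [Fintype ι] [DecidableEq ι] {F : Type*} [Field F]
variable (Q : QuadraticForm F (ι → F))

theorem rcc (hQ : ∀ x, (∀ y, polar ⇑Q x y = 0) → x = 0)
    (S : Set (Subgroup ↥(Cfsg.isometryGroup F ⇑Q))) (x r x' y' : ι → F)
    (h : SLine Q x r) (h' : SLine Q x' y') (h'' : SLine Q x x')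
    (g12 : polar ⇑Q x y' = 0) (g21 : polar ⇑Q r x' = 0) (g22 : polar ⇑Q r y' = 1)
    (hS : Tq Q x x' ∈ S) : Cfsg.RootCommutatorCase S (Tq Q x r) (Tq Q x' y') := by
  have key : ∀ c d : F,
      sg Q x r h c * sg Q x' y' h' d * (sg Q x r h c)⁻¹ * (sg Q x' y' h' d)⁻¹
        = sg Q x x' h'' (c * d) := by
    intro c d
    rw [sg_comm_formula Q x r x' y' h h' h'' g12 g21 g22]
    group
  have hcomm : ⁅Tq Q x r, Tq Q x' y'⁆ = Tq Q x x' := by
    apply le_antisymm
    · rw [Subgroup.commutator_le]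
      intro a ha b hb
      obtain ⟨c, rfl⟩ := (mem_Tq Q hQ x r h a).1 ha
      obtain ⟨d, rfl⟩ := (mem_Tq Q hQ x' y' h' b).1 hb
      rw [commutatorElement_def, key c d]
      exact sg_mem Q hQ x x' h'' _
    · intro z hz
      obtain ⟨e, rfl⟩ := (mem_Tq Q hQ x x' h'' z).1 hz
      have h1 := key 1 e
      rw [one_mul] at h1
      rw [← h1]
      exact Subgroup.commutator_mem_commutator (sg_mem Q hQ x r h 1) (sg_mem Q hQ x' y' h' e)
  have hcen1 : ∀ e c, sg Q x x' h'' e * sg Q x r h c = sg Q x r h c * sg Q x x' h'' e := by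
    intro e c
    exact (sg_comm_share Q x r x x' 1 (one_smul F x).symm h h'' h''.pr c e).symm
  have hcen2 : ∀ e d,
      sg Q x x' h'' e * sg Q x' y' h' d = sg Q x' y' h' d * sg Q x x' h'' e := by
    intro e d
    have h1 : sg Q x x' h'' e ∈ Tq Q x' x := by
      rw [← Tq_swap]
      exact sg_mem Q hQ x x' h'' e
    obtain ⟨e', he'⟩ := (mem_Tq Q hQ x' x h''.swap _).1 h1
    rw [he']
    exact (sg_comm_share Q x' y' x' x 1 (one_smul F x').symm h' h''.swap h''.rp d e').symm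
  refine ⟨by rw [hcomm]; exact hS, ?_, ?_, ?_⟩
  · intro z hz g hg
    rw [hcomm] at hz
    obtain ⟨e, rfl⟩ := (mem_Tq Q hQ x x' h'' z).1 hz
    have hle : Tq Q x r ⊔ Tq Q x' y' ≤ Subgroup.centralizer {sg Q x x' h'' e} := by
      apply sup_le
      · intro a ha
        obtain ⟨c, rfl⟩ := (mem_Tq Q hQ x r h a).1 ha
        rw [Subgroup.mem_centralizer_iff]
        intro w hw
        rw [Set.mem_singleton_iff] at hw
        rw [hw]
        exact hcen1 e c
      · intro b hb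
        obtain ⟨d, rfl⟩ := (mem_Tq Q hQ x' y' h' b).1 hb
        rw [Subgroup.mem_centralizer_iff]
        intro w hw
        rw [Set.mem_singleton_iff] at hw
        rw [hw]
        exact hcen2 e d
    exact (Subgroup.mem_centralizer_iff.1 (hle hg)) _ rfl
  · intro a ha ha1
    obtain ⟨c, rfl⟩ := (mem_Tq Q hQ x r h a).1 ha
    have hc : c ≠ 0 := by
      rintro rfl
      exact ha1 (sg_zero Q x r h)
    rw [hcomm]
    have hset : (fun b => sg Q x r h c * b * (sg Q x r h c)⁻¹ * b⁻¹) ''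
        (Tq Q x' y' : Set ↥(Cfsg.isometryGroup F ⇑Q)) = (Tq Q x x' : Set _) := by
      ext z
      constructor
      · rintro ⟨b, hb, rfl⟩
        obtain ⟨d, rfl⟩ := (mem_Tq Q hQ x' y' h' b).1 hb
        show sg Q x r h c * sg Q x' y' h' d * (sg Q x r h c)⁻¹ * (sg Q x' y' h' d)⁻¹
          ∈ Tq Q x x'
        rw [key c d]
        exact sg_mem Q hQ x x' h'' _
      · intro hz
        obtain ⟨e, rfl⟩ := (mem_Tq Q hQ x x' h'' z).1 hz
        refine ⟨sg Q x' y' h' (e / c), sg_mem Q hQ x' y' h' _, ?_⟩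
        show sg Q x r h c * sg Q x' y' h' (e / c) * (sg Q x r h c)⁻¹
          * (sg Q x' y' h' (e / c))⁻¹ = _
        rw [key, mul_div_cancel₀ e hc]
    rw [hset, Subgroup.closure_eq]
  · intro b hb hb1
    obtain ⟨d, rfl⟩ := (mem_Tq Q hQ x' y' h' b).1 hb
    have hd : d ≠ 0 := by
      rintro rfl
      exact hb1 (sg_zero Q x' y' h')
    rw [hcomm]
    have hset : (fun a => a * sg Q x' y' h' d * a⁻¹ * (sg Q x' y' h' d)⁻¹) ''
        (Tq Q x r : Set ↥(Cfsg.isometryGroup F ⇑Q)) = (Tq Q x x' : Set _) := by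
      ext z
      constructor
      · rintro ⟨a, ha, rfl⟩
        obtain ⟨c, rfl⟩ := (mem_Tq Q hQ x r h a).1 ha
        show sg Q x r h c * sg Q x' y' h' d * (sg Q x r h c)⁻¹ * (sg Q x' y' h' d)⁻¹
          ∈ Tq Q x x'
        rw [key c d]
        exact sg_mem Q hQ x x' h'' _
      · intro hz
        obtain ⟨e, rfl⟩ := (mem_Tq Q hQ x x' h'' z).1 hz
        refine ⟨sg Q x r h (e / d), sg_mem Q hQ x r h _, ?_⟩
        show sg Q x r h (e / d) * sg Q x' y' h' d * (sg Q x r h (e / d))⁻¹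
          * (sg Q x' y' h' d)⁻¹ = _
        rw [key, div_mul_cancel₀ e hd]
    rw [hset, Subgroup.closure_eq]

theorem classify22 (hQ : ∀ x, (∀ y, polar ⇑Q x y = 0) → x = 0) (p r p' r' : ι → F)
    (h : SLine Q p r) (h' : SLine Q p' r') (m22 : polar ⇑Q r r' ≠ 0)
    (hδ : polar ⇑Q p p' * polar ⇑Q r r' - polar ⇑Q p r' * polar ⇑Q r p' = 0) :
    ⁅Tq Q p r, Tq Q p' r'⁆ = ⊥ ∨
    (∃ x y x' y', SLine Q x y ∧ SLine Q x' y' ∧ SLine Q x x' ∧ Tq Q x y = Tq Q p r ∧
      Tq Q x' y' = Tq Q p' r' ∧ polar ⇑Q x y' = 0 ∧ polar ⇑Q y x' = 0 ∧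
      polar ⇑Q y y' = 1) := by
  obtain ⟨m11, hm11⟩ : ∃ m, m = polar ⇑Q p p' := ⟨_, rfl⟩
  obtain ⟨m12, hm12⟩ : ∃ m, m = polar ⇑Q p r' := ⟨_, rfl⟩
  obtain ⟨m21, hm21⟩ : ∃ m, m = polar ⇑Q r p' := ⟨_, rfl⟩
  obtain ⟨k, hk⟩ : ∃ m, m = polar ⇑Q r r' := ⟨_, rfl⟩
  rw [← hm11, ← hm12, ← hm21, ← hk] at hδ
  rw [← hk] at m22
  obtain ⟨l, hl⟩ : ∃ l, l * k - m12 = 0 := ⟨m12 / k, by rw [div_mul_cancel₀ m12 m22, sub_self]⟩
  obtain ⟨l', hl'⟩ : ∃ l', l' * k - m21 = 0 :=
    ⟨m21 / k, by rw [div_mul_cancel₀ m21 m22, sub_self]⟩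
  obtain ⟨ν, hν⟩ : ∃ ν, ν * k = 1 := ⟨k⁻¹, inv_mul_cancel₀ m22⟩
  have hν0 : ν ≠ 0 := by
    rintro rfl
    rw [zero_mul] at hν
    exact zero_ne_one hν
  have hx : SLine Q (p - l • r) r := by
    refine ⟨fun a b hab => ?_, ?_, h.qr, ?_⟩
    · have h1 := h.ind a (b - a * l) (by rw [← hab]; module)
      obtain ⟨ha, hb⟩ := h1
      exact ⟨ha, by rw [ha] at hb; linear_combination hb⟩
    · have e : p - l • r = (1 : F) • p + (-l) • r := by module
      rw [e, qf_lin2, h.qp, h.qr, h.pr]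
      ring
    · rw [pl_sub_left, pl_smul_left, h.pr, h.rr]
      ring
  have hx' : SLine Q (p' - l' • r') (ν • r') := by
    refine ⟨fun a b hab => ?_, ?_, ?_, ?_⟩
    · have h1 := h'.ind a (b * ν - a * l') (by rw [← hab]; module)
      obtain ⟨ha, hb⟩ := h1
      refine ⟨ha, ?_⟩
      rw [ha] at hb
      have h2 : b * ν = 0 := by linear_combination hb
      rcases mul_eq_zero.1 h2 with h3 | h3
      · exact h3
      · exact absurd h3 hν0
    · have e : p' - l' • r' = (1 : F) • p' + (-l') • r' := by module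
      rw [e, qf_lin2, h'.qp, h'.qr, h'.pr]
      ring
    · rw [qf_smul, h'.qr]
      ring
    · rw [pl_sub_left, pl_smul_left, pl_smul_right, pl_smul_right, h'.pr, h'.rr]
      ring
  have hT : Tq Q (p - l • r) r = Tq Q p r := by
    apply Tq_congr
    intro v
    rw [pl_sub_right, pl_smul_right]
    constructor
    · rintro ⟨h1, h2⟩
      exact ⟨by rw [h2] at h1; linear_combination h1, h2⟩
    · rintro ⟨h1, h2⟩
      exact ⟨by rw [h1, h2]; ring, h2⟩
  have hT' : Tq Q (p' - l' • r') (ν • r') = Tq Q p' r' := by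
    apply Tq_congr
    intro v
    rw [pl_sub_right, pl_smul_right, pl_smul_right]
    constructor
    · rintro ⟨h1, h2⟩
      have h3 : polar ⇑Q v r' = 0 := by
        rcases mul_eq_zero.1 h2 with h4 | h4
        · exact absurd h4 hν0
        · exact h4
      exact ⟨by rw [h3] at h1; linear_combination h1, h3⟩
    · rintro ⟨h1, h2⟩
      exact ⟨by rw [h1, h2]; ring, by rw [h2]; ring⟩
  have g12 : polar ⇑Q (p - l • r) (ν • r') = 0 := by
    rw [pl_sub_left, pl_smul_left, pl_smul_right, pl_smul_right, ← hm12, ← hk]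
    linear_combination (-ν) * hl
  have g21 : polar ⇑Q r (p' - l' • r') = 0 := by
    rw [pl_sub_right, pl_smul_right, ← hm21, ← hk]
    linear_combination -hl'
  have g22 : polar ⇑Q r (ν • r') = 1 := by
    rw [pl_smul_right, ← hk]
    exact hν
  have g11 : polar ⇑Q (p - l • r) (p' - l' • r') = 0 := by
    simp only [pl_sub_left, pl_sub_right, pl_smul_left, pl_smul_right, ← hm11, ← hm12, ← hm21,
      ← hk]
    have hν' : ν * k - 1 = 0 := by rw [hν, sub_self]
    linear_combination ν * hδ + ν * (l' * k - m21) * hl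
      - (m11 - l' * m12 - l * m21 + l * l' * k) * hν'
  by_cases hdep : ∃ μ : F, p' - l' • r' = μ • (p - l • r)
  · left
    obtain ⟨μ, hμ⟩ := hdep
    rw [← hT, ← hT']
    exact Tq_comm_bot_share Q hQ (p - l • r) r (p' - l' • r') (ν • r') μ hμ hx hx' g12
  · right
    have hx'' : SLine Q (p - l • r) (p' - l' • r') := by
      refine ⟨fun a b hab => ?_, hx.qp, hx'.qp, g11⟩
      by_cases hb : b = 0
      · subst hb
        rw [zero_smul, add_zero] at hab
        rcases smul_eq_zero.1 hab with h1 | h1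
        · exact ⟨h1, rfl⟩
        · exact absurd h1 hx.p_ne
      · exfalso
        apply hdep
        refine ⟨-(b⁻¹ * a), ?_⟩
        have e : b • (p' - l' • r') = -(a • (p - l • r)) := by
          rw [eq_neg_iff_add_eq_zero, add_comm]
          exact hab
        have e2 : p' - l' • r' = b⁻¹ • (b • (p' - l' • r')) := by
          rw [smul_smul, inv_mul_cancel₀ hb, one_smul]
        rw [e2, e]
        module
    exact ⟨_, _, _, _, hx, hx', hx'', hT, hT', g12, g21, g22⟩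

theorem opp_normalize (p r p' r' : ι → F) (h' : SLine Q p' r')
    (hδ : polar ⇑Q p p' * polar ⇑Q r r' - polar ⇑Q p r' * polar ⇑Q r p' ≠ 0) :
    ∃ p'' r'', SLine Q p'' r'' ∧ Tq Q p'' r'' = Tq Q p' r' ∧ polar ⇑Q p p'' = 1 ∧
      polar ⇑Q p r'' = 0 ∧ polar ⇑Q r p'' = 0 ∧ polar ⇑Q r r'' = 1 := by
  obtain ⟨m11, hm11⟩ : ∃ m, m = polar ⇑Q p p' := ⟨_, rfl⟩
  obtain ⟨m12, hm12⟩ : ∃ m, m = polar ⇑Q p r' := ⟨_, rfl⟩
  obtain ⟨m21, hm21⟩ : ∃ m, m = polar ⇑Q r p' := ⟨_, rfl⟩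
  obtain ⟨m22, hm22⟩ : ∃ m, m = polar ⇑Q r r' := ⟨_, rfl⟩
  rw [← hm11, ← hm12, ← hm21, ← hm22] at hδ
  obtain ⟨ν, hν⟩ : ∃ ν, ν * (m11 * m22 - m12 * m21) - 1 = 0 :=
    ⟨_, by rw [inv_mul_cancel₀ hδ, sub_self]⟩
  refine ⟨(ν * m22) • p' + (-(ν * m21)) • r', (-(ν * m12)) • p' + (ν * m11) • r',
    ⟨fun a b hab => ?_, ?_, ?_, ?_⟩, ?_, ?_, ?_, ?_, ?_⟩
  · have e1 := congrArg (fun z => polar ⇑Q p z) hab
    have e2 := congrArg (fun z => polar ⇑Q r z) hab
    simp only [pl_add_right, pl_smul_right, ← hm11, ← hm12, ← hm21, ← hm22,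
      QuadraticMap.polar_zero_right] at e1 e2
    exact ⟨by linear_combination e1 - a * hν, by linear_combination e2 - b * hν⟩
  · rw [qf_lin2, h'.qp, h'.qr, h'.pr]
    ring
  · rw [qf_lin2, h'.qp, h'.qr, h'.pr]
    ring
  · simp only [pl_add_left, pl_add_right, pl_smul_left, pl_smul_right, h'.pp, h'.rr, h'.pr, h'.rp]
    ring
  · apply Tq_congr
    intro v
    simp only [pl_add_right, pl_smul_right]
    constructor
    · rintro ⟨h1, h2⟩
      exact ⟨by linear_combination m11 * h1 + m21 * h2 - polar ⇑Q v p' * hν,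
        by linear_combination m12 * h1 + m22 * h2 - polar ⇑Q v r' * hν⟩
    · rintro ⟨h1, h2⟩
      exact ⟨by rw [h1, h2]; ring, by rw [h1, h2]; ring⟩
  · rw [pl_add_right, pl_smul_right, pl_smul_right, ← hm11, ← hm12]
    linear_combination hν
  · rw [pl_add_right, pl_smul_right, pl_smul_right, ← hm11, ← hm12]
    ring
  · rw [pl_add_right, pl_smul_right, pl_smul_right, ← hm21, ← hm22]
    ring
  · rw [pl_add_right, pl_smul_right, pl_smul_right, ← hm21, ← hm22]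
    linear_combination hν

theorem classify (hQ : ∀ x, (∀ y, polar ⇑Q x y = 0) → x = 0) (p r p' r' : ι → F)
    (h : SLine Q p r) (h' : SLine Q p' r') :
    ⁅Tq Q p r, Tq Q p' r'⁆ = ⊥ ∨
    (∃ p'' r'', SLine Q p'' r'' ∧ Tq Q p'' r'' = Tq Q p' r' ∧ polar ⇑Q p p'' = 1 ∧
      polar ⇑Q p r'' = 0 ∧ polar ⇑Q r p'' = 0 ∧ polar ⇑Q r r'' = 1) ∨
    (∃ x y x' y', SLine Q x y ∧ SLine Q x' y' ∧ SLine Q x x' ∧ Tq Q x y = Tq Q p r ∧
      Tq Q x' y' = Tq Q p' r' ∧ polar ⇑Q x y' = 0 ∧ polar ⇑Q y x' = 0 ∧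
      polar ⇑Q y y' = 1) := by
  by_cases hδ : polar ⇑Q p p' * polar ⇑Q r r' - polar ⇑Q p r' * polar ⇑Q r p' = 0
  · by_cases h22 : polar ⇑Q r r' = 0
    · by_cases h21 : polar ⇑Q r p' = 0
      · by_cases h12 : polar ⇑Q p r' = 0
        · by_cases h11 : polar ⇑Q p p' = 0
          · exact Or.inl (Tq_comm_bot_perp Q hQ p r p' r' h h' h11 h12 h21 h22)
          · rcases classify22 Q hQ r p r' p' h.swap h'.swap h11 (by linear_combination hδ) with
              hc | ⟨x, y, x', y', a1, a2, a3, a4, a5, a6, a7, a8⟩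
            · left
              rw [Tq_swap Q p r, Tq_swap Q p' r']
              exact hc
            · right; right
              exact ⟨x, y, x', y', a1, a2, a3, by rw [a4, ← Tq_swap], by rw [a5, ← Tq_swap],
                a6, a7, a8⟩
        · rcases classify22 Q hQ r p p' r' h.swap h' h12 (by linear_combination -hδ) with
            hc | ⟨x, y, x', y', a1, a2, a3, a4, a5, a6, a7, a8⟩
          · left
            rw [Tq_swap Q p r]
            exact hc
          · right; right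
            exact ⟨x, y, x', y', a1, a2, a3, by rw [a4, ← Tq_swap], a5, a6, a7, a8⟩
      · rcases classify22 Q hQ p r r' p' h h'.swap h21 (by linear_combination -hδ) with
          hc | ⟨x, y, x', y', a1, a2, a3, a4, a5, a6, a7, a8⟩
        · left
          rw [Tq_swap Q p' r']
          exact hc
        · right; right
          exact ⟨x, y, x', y', a1, a2, a3, a4, by rw [a5, ← Tq_swap], a6, a7, a8⟩
    · rcases classify22 Q hQ p r p' r' h h' h22 hδ with hc | hc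
      · exact Or.inl hc
      · exact Or.inr (Or.inr hc)
  · exact Or.inr (Or.inl (opp_normalize Q p r p' r' h' hδ))

/-- the set of Siegel transvection groups -/
def lineSet : Set (Subgroup ↥(Cfsg.isometryGroup F ⇑Q)) :=
  {A | ∃ p r, SLine Q p r ∧ A = Tq Q p r}

theorem pair_cases (hQ : ∀ x, (∀ y, polar ⇑Q x y = 0) → x = 0) :
    ∀ A ∈ lineSet Q, ∀ B ∈ lineSet Q, ⁅A, B⁆ = ⊥ ∨
      (Cfsg.IsRankOnePair A B ∧
        ∃ ψ : Matrix.SpecialLinearGroup (Fin 2) F →* ↥(Cfsg.isometryGroup F ⇑Q),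
          ψ.range = A ⊔ B ∧ ψ.ker ≤ Subgroup.center (Matrix.SpecialLinearGroup (Fin 2) F) ∧
          (Cfsg.upperUnipotentSL2 F).map ψ = A ∧ (Cfsg.lowerUnipotentSL2 F).map ψ = B) ∨
      Cfsg.RootCommutatorCase (lineSet Q) A B := by
  rintro _ ⟨p, r, h, rfl⟩ _ ⟨p', r', h', rfl⟩
  rcases classify Q hQ p r p' r' h h' with hc | ⟨p'', r'', h'', hT, g11, g12, g21, g22⟩ |
    ⟨x, y, x', y', hx, hx', hx'', hT, hT', g12, g21, g22⟩
  · exact Or.inl hc
  · right; left
    rw [← hT]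
    exact ⟨rank_one_opp Q hQ p r p'' r'' h h'' g11 g12 g21 g22,
      exists_hom Q hQ p r p'' r'' h h'' g11 g12 g21 g22⟩
  · right; right
    rw [← hT, ← hT']
    exact rcc Q hQ (lineSet Q) x y x' y' hx hx' hx'' g12 g21 g22 ⟨x, x', hx'', rfl⟩

theorem adj_of_det (hQ : ∀ x, (∀ y, polar ⇑Q x y = 0) → x = 0) (p r p' r' : ι → F)
    (h : SLine Q p r) (h' : SLine Q p' r')
    (hδ : polar ⇑Q p p' * polar ⇑Q r r' - polar ⇑Q p r' * polar ⇑Q r p' ≠ 0) :
    Cfsg.FAdj (lineSet Q) (Tq Q p r) (Tq Q p' r') := by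
  obtain ⟨p'', r'', h'', hT, g11, g12, g21, g22⟩ := opp_normalize Q p r p' r' h' hδ
  refine ⟨⟨p, r, h, rfl⟩, ⟨p', r', h', rfl⟩, ?_⟩
  rw [← hT]
  exact rank_one_opp Q hQ p r p'' r'' h h'' g11 g12 g21 g22

end Cfsg.Agent.H6Sg
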