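import Mathlib
import Cfsg.Agent.Helper6.SgRootD
import Cfsg.Agent.Helper16.StdForms

set_option autoImplicit false

namespace Cfsg.Agent.H6Sg

open Cfsg Matrix QuadraticMap Cfsg.Agent.Helper16 Cfsg.Agent.Helper26

variable {F : Type*} [Field F] {N : ℕ}

/-- the index underlying a coordinate -/
def und (k : Fin N ⊕ Fin N) : Fin N := Sum.elim id id k

/-- standard basis vector -/
def bv (F : Type*) [Field F] (k : Fin N ⊕ Fin N) : Fin N ⊕ Fin N → F := Pi.single k 1

theorem und_swap (k : Fin N ⊕ Fin N) : und (Sum.swap k) = und k := by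
  cases k <;> rfl

theorem pol_bv (k : Fin N ⊕ Fin N) (x : Fin N ⊕ Fin N → F) :
    polar ⇑(qfPlus N F) (bv F k) x = x (Sum.swap k) := by
  cases k with
  | inl i => exact polar_qfPlus_inl i x
  | inr i => exact polar_qfPlus_inr i x

theorem q_bv (k : Fin N ⊕ Fin N) : qfPlus N F (bv F k) = 0 := by
  cases k with
  | inl i => exact qfPlus_single_inl i
  | inr i => exact qfPlus_single_inr i

theorem bv_apply (k j : Fin N ⊕ Fin N) : bv F k j = if j = k then 1 else 0 := by
  unfold bv
  rw [Pi.single_apply]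

theorem ne_of_und {k l : Fin N ⊕ Fin N} (h : und k ≠ und l) :
    k ≠ l ∧ k ≠ Sum.swap l ∧ Sum.swap k ≠ l ∧ Sum.swap k ≠ Sum.swap l := by
  refine ⟨?_, ?_, ?_, ?_⟩
  · rintro rfl
    exact h rfl
  · rintro rfl
    exact h (und_swap l)
  · rintro rfl
    exact h (und_swap k).symm
  · intro e
    apply h
    have := congrArg und e
    rwa [und_swap, und_swap] at this

theorem sw_ne {k l : Fin N ⊕ Fin N} (h : und k ≠ und l) : Sum.swap k ≠ Sum.swap l :=
  (ne_of_und h).2.2.2

theorem pol_bv_bv_zero {k l : Fin N ⊕ Fin N} (h : und k ≠ und l) :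
    polar ⇑(qfPlus N F) (bv F k) (bv F l) = 0 := by
  rw [pol_bv, bv_apply, if_neg (ne_of_und h).2.2.1]

theorem plus_nondeg :
    ∀ x : Fin N ⊕ Fin N → F, (∀ y, polar ⇑(qfPlus N F) x y = 0) → x = 0 := by
  intro x hx
  funext c
  have := hx (bv F (Sum.swap c))
  rw [polar_comm, pol_bv, Sum.swap_swap] at this
  exact this

theorem sline_bv {k l : Fin N ⊕ Fin N} (h : und k ≠ und l) :
    SLine (qfPlus N F) (bv F k) (bv F l) := by
  refine ⟨fun a b hab => ?_, q_bv k, q_bv l, pol_bv_bv_zero h⟩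
  have h1 := congrFun hab k
  have h2 := congrFun hab l
  simp [bv_apply, (ne_of_und h).1, (ne_of_und h).1.symm] at h1 h2
  exact ⟨h1, h2⟩

theorem exists_minor (p r : Fin N ⊕ Fin N → F) (h : SLine (qfPlus N F) p r) :
    ∃ k l : Fin N ⊕ Fin N, und k ≠ und l ∧ p k * r l - p l * r k ≠ 0 := by
  by_contra hcon
  push Not at hcon
  obtain ⟨k, l, hkl⟩ : ∃ k l, p k * r l - p l * r k ≠ 0 := by
    by_contra hc2
    push Not at hc2
    obtain ⟨k₀, hk₀⟩ : ∃ k₀, p k₀ ≠ 0 := by
      by_contra hc3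
      push Not at hc3
      exact h.p_ne (funext hc3)
    have e : (-(r k₀)) • p + (p k₀) • r = 0 := by
      funext j
      have := hc2 k₀ j
      simp only [Pi.add_apply, Pi.smul_apply, smul_eq_mul, Pi.zero_apply]
      linear_combination this
    exact hk₀ (h.ind _ _ e).2
  have hl : und k = und l := by
    by_contra hne
    exact hkl (hcon k l hne)
  have hz : ∀ j, und j ≠ und k → p j = 0 ∧ r j = 0 := by
    intro j hj
    have e1 := hcon k j (Ne.symm hj)
    have e2 := hcon l j (by rw [← hl]; exact Ne.symm hj)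
    constructor
    · have e3 : (p k * r l - p l * r k) * p j = 0 := by
        linear_combination p l * e1 - p k * e2
      rcases mul_eq_zero.1 e3 with h1 | h1
      · exact absurd h1 hkl
      · exact h1
    · have e3 : (p k * r l - p l * r k) * r j = 0 := by
        linear_combination r l * e1 - r k * e2
      rcases mul_eq_zero.1 e3 with h1 | h1
      · exact absurd h1 hkl
      · exact h1
  obtain ⟨i₀, hi₀⟩ : ∃ i₀, i₀ = und k := ⟨_, rfl⟩
  have hz1 : ∀ i, i ≠ i₀ → p (Sum.inl i) = 0 := fun i hi =>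
    (hz (Sum.inl i) (by rw [← hi₀]; exact hi)).1
  have hz2 : ∀ i, i ≠ i₀ → r (Sum.inl i) = 0 := fun i hi =>
    (hz (Sum.inl i) (by rw [← hi₀]; exact hi)).2
  have hQ : p (Sum.inl i₀) * p (Sum.inr i₀) = 0 := by
    have e := h.qp
    rw [qfPlus_apply] at e
    unfold Cfsg.quadFormPlus at e
    rw [Finset.sum_eq_single i₀ (fun i _ hi => by rw [hz1 i hi, zero_mul])
      (fun hi => absurd (Finset.mem_univ _) hi)] at e
    exact e
  have hB : p (Sum.inl i₀) * r (Sum.inr i₀) + r (Sum.inl i₀) * p (Sum.inr i₀) = 0 := by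
    have e := h.pr
    rw [polar_qfPlus, Finset.sum_eq_single i₀
      (fun i _ hi => by rw [hz1 i hi, hz2 i hi, zero_mul, zero_mul, add_zero])
      (fun hi => absurd (Finset.mem_univ _) hi)] at e
    exact e
  have hD : p (Sum.inl i₀) * r (Sum.inr i₀) - p (Sum.inr i₀) * r (Sum.inl i₀) ≠ 0 := by
    intro hD0
    apply hkl
    have hkl' : k ≠ l := by
      rintro rfl
      apply hkl
      ring
    cases k with
    | inl i =>
      cases l with
      | inl j =>
        have : i = j := hl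
        exact absurd (by rw [this]) hkl'
      | inr j =>
        have e1 : i₀ = i := hi₀
        have e2 : i = j := hl
        rw [← e2, ← e1]
        exact hD0
    | inr i =>
      cases l with
      | inl j =>
        have e1 : i₀ = i := hi₀
        have e2 : i = j := hl
        rw [← e2, ← e1]
        linear_combination -hD0
      | inr j =>
        have : i = j := hl
        exact absurd (by rw [this]) hkl'
  rcases mul_eq_zero.1 hQ with h1 | h1
  · apply hD
    rw [h1] at hB ⊢
    linear_combination -hB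
  · apply hD
    rw [h1] at hB ⊢
    linear_combination hB

theorem coord_step {k l j : Fin N ⊕ Fin N} (hkl : und k ≠ und l) (hkj : und k ≠ und j)
    (hlj : und l ≠ und j) :
    Relation.ReflTransGen (Cfsg.FAdj (lineSet (qfPlus N F)))
      (Tq (qfPlus N F) (bv F k) (bv F l)) (Tq (qfPlus N F) (bv F k) (bv F j)) := by
  have hX : SLine (qfPlus N F) (bv F (Sum.swap k)) (bv F (Sum.swap l) + bv F (Sum.swap j)) := by
    refine ⟨fun a b hab => ?_, q_bv _, ?_, ?_⟩
    · have h1 := congrFun hab (Sum.swap k)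
      have h2 := congrFun hab (Sum.swap l)
      simp [bv_apply, sw_ne hkl, sw_ne hkj, sw_ne hlj, (sw_ne hkl).symm, (sw_ne hkj).symm,
        (sw_ne hlj).symm] at h1 h2
      exact ⟨h1, h2⟩
    · rw [qf_add, q_bv, q_bv, pol_bv_bv_zero (by rw [und_swap, und_swap]; exact hlj)]
      ring
    · rw [pl_add_right, pol_bv_bv_zero (by rw [und_swap, und_swap]; exact hkl),
        pol_bv_bv_zero (by rw [und_swap, und_swap]; exact hkj)]
      ring
  have a1 : Cfsg.FAdj (lineSet (qfPlus N F)) (Tq (qfPlus N F) (bv F k) (bv F l))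
      (Tq (qfPlus N F) (bv F (Sum.swap k)) (bv F (Sum.swap l) + bv F (Sum.swap j))) := by
    apply adj_of_det _ plus_nondeg _ _ _ _ (sline_bv hkl) hX
    simp [pl_add_right, pol_bv, bv_apply, sw_ne hkl, sw_ne hkj, sw_ne hlj, (sw_ne hkl).symm,
      (sw_ne hkj).symm, (sw_ne hlj).symm]
  have a2 : Cfsg.FAdj (lineSet (qfPlus N F)) (Tq (qfPlus N F) (bv F k) (bv F j))
      (Tq (qfPlus N F) (bv F (Sum.swap k)) (bv F (Sum.swap l) + bv F (Sum.swap j))) := by
    apply adj_of_det _ plus_nondeg _ _ _ _ (sline_bv hkj) hX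
    simp [pl_add_right, pol_bv, bv_apply, sw_ne hkl, sw_ne hkj, sw_ne hlj, (sw_ne hkl).symm,
      (sw_ne hkj).symm, (sw_ne hlj).symm]
  exact Relation.ReflTransGen.head a1
    (Relation.ReflTransGen.single ⟨a2.2.1, a2.1, Cfsg.RankOnePair_symm a2.2.2⟩)

theorem exists_third (hN : 3 ≤ N) (k l : Fin N ⊕ Fin N) :
    ∃ i : Fin N ⊕ Fin N, und i ≠ und k ∧ und i ≠ und l := by
  have key : ∃ t : Fin N, t ≠ und k ∧ t ≠ und l := by
    by_cases h0 : (⟨0, by omega⟩ : Fin N) ≠ und k ∧ (⟨0, by omega⟩ : Fin N) ≠ und l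
    · exact ⟨_, h0⟩
    · by_cases h1 : (⟨1, by omega⟩ : Fin N) ≠ und k ∧ (⟨1, by omega⟩ : Fin N) ≠ und l
      · exact ⟨_, h1⟩
      · simp only [ne_eq, not_and_or, not_not, Fin.ext_iff] at h0 h1
        refine ⟨⟨2, by omega⟩, ?_, ?_⟩
        · intro h2
          rw [Fin.ext_iff] at h2
          simp only at h2
          omega
        · intro h2
          rw [Fin.ext_iff] at h2
          simp only at h2
          omega
  obtain ⟨t, h1, h2⟩ := key
  exact ⟨Sum.inl t, h1, h2⟩

theorem coord_step' (hN : 3 ≤ N) {k l j : Fin N ⊕ Fin N} (hkl : und k ≠ und l)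
    (hkj : und k ≠ und j) :
    Relation.ReflTransGen (Cfsg.FAdj (lineSet (qfPlus N F)))
      (Tq (qfPlus N F) (bv F k) (bv F l)) (Tq (qfPlus N F) (bv F k) (bv F j)) := by
  by_cases hlj : und l = und j
  · obtain ⟨i, hik, hil⟩ := exists_third hN k l
    have hij : und i ≠ und j := by
      rw [← hlj]
      exact hil
    exact (coord_step hkl (Ne.symm hik) (Ne.symm hil)).trans
      (coord_step (Ne.symm hik) hkj hij)
  · exact coord_step hkl hkj hlj

theorem coord_conn (hN : 3 ≤ N) {k l a b : Fin N ⊕ Fin N} (hkl : und k ≠ und l)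
    (hab : und a ≠ und b) :
    Relation.ReflTransGen (Cfsg.FAdj (lineSet (qfPlus N F)))
      (Tq (qfPlus N F) (bv F k) (bv F l)) (Tq (qfPlus N F) (bv F a) (bv F b)) := by
  by_cases h1 : und a = und k
  · have hla : und l ≠ und a := by
      rw [h1]
      exact Ne.symm hkl
    have s1 := coord_step' (F := F) hN (Ne.symm hkl) hla
    have s2 := coord_step' (F := F) hN (Ne.symm hla) hab
    rw [Tq_swap _ (bv F k) (bv F l)]
    rw [Tq_swap _ (bv F l) (bv F a)] at s1
    exact s1.trans s2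
  · have s1 := coord_step' (F := F) hN hkl (Ne.symm h1)
    have s2 := coord_step' (F := F) hN h1 hab
    rw [Tq_swap _ (bv F k) (bv F a)] at s1
    exact s1.trans s2

theorem connected (hN : 3 ≤ N) :
    Cfsg.IsConnectedFamily (Cfsg.FAdj (lineSet (qfPlus N F))) (lineSet (qfPlus N F)) := by
  have key : ∀ p r, SLine (qfPlus N F) p r → ∃ k l : Fin N ⊕ Fin N, und k ≠ und l ∧
      Cfsg.FAdj (lineSet (qfPlus N F)) (Tq (qfPlus N F) p r)
        (Tq (qfPlus N F) (bv F k) (bv F l)) := by
    intro p r h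
    obtain ⟨k, l, hkl, hD⟩ := exists_minor p r h
    have hkl' : und (Sum.swap k) ≠ und (Sum.swap l) := by
      rw [und_swap, und_swap]
      exact hkl
    refine ⟨Sum.swap k, Sum.swap l, hkl', ?_⟩
    apply adj_of_det _ plus_nondeg p r _ _ h (sline_bv hkl')
    have e : ∀ (x : Fin N ⊕ Fin N → F) (c : Fin N ⊕ Fin N),
        polar ⇑(qfPlus N F) x (bv F c) = x (Sum.swap c) := fun x c => by
      rw [polar_comm, pol_bv]
    rw [e, e, e, e, Sum.swap_swap, Sum.swap_swap]
    exact hD
  rintro _ ⟨p, r, h, rfl⟩ _ ⟨p', r', h', rfl⟩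
  obtain ⟨k, l, hkl, a1⟩ := key p r h
  obtain ⟨a, b, hab, a2⟩ := key p' r' h'
  exact (Relation.ReflTransGen.single a1).trans ((coord_conn hN hkl hab).trans
    (Relation.ReflTransGen.single ⟨a2.2.1, a2.1, Cfsg.RankOnePair_symm a2.2.2⟩))

end Cfsg.Agent.H6Sg
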