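import Mathlib
import Cfsg.Agent.S0035

set_option autoImplicit false

namespace Cfsg.Agent.Helper6

open scoped Pointwise

variable {α : Type*} [Fintype α] [DecidableEq α]

/-- Two-transitivity in elementary form. -/
theorem sharp2_trans (H : Subgroup (Equiv.Perm α)) [MulAction.IsMultiplyPretransitive H α 2]
    {a b c d : α} (hab : a ≠ b) (hcd : c ≠ d) : ∃ g : H, g • a = c ∧ g • b = d :=
  MulAction.is_two_pretransitive_iff.1 inferInstance hab hcd

/-- Sharpness in elementary form: an element fixing two distinct points is trivial. -/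
theorem sharp2_fix (H : Subgroup (Equiv.Perm α))
    (hsharp : ∀ x : Fin 2 ↪ α, MulAction.stabilizer H x = ⊥) (g : H) {a b : α} (hab : a ≠ b)
    (ha : g • a = a) (hb : g • b = b) : g = 1 := by
  have hinj : Function.Injective ![a, b] := by
    intro i j hij
    fin_cases i <;> fin_cases j
    · rfl
    · exact absurd hij hab
    · exact absurd hij.symm hab
    · rfl
  have hmem : g ∈ MulAction.stabilizer H (⟨![a, b], hinj⟩ : Fin 2 ↪ α) := by
    rw [MulAction.mem_stabilizer_iff]
    ext i
    show (g : Equiv.Perm α) (![a, b] i) = ![a, b] i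
    fin_cases i
    · exact ha
    · exact hb
  rw [hsharp] at hmem
  exact Subgroup.mem_bot.1 hmem

/-- A finite sharply doubly transitive group has a regular normal subgroup, consisting of the
identity and the fixed-point-free elements. -/
theorem sharp2_regular_normal (H : Subgroup (Equiv.Perm α))
    [MulAction.IsMultiplyPretransitive H α 2]
    (hsharp : ∀ x : Fin 2 ↪ α, MulAction.stabilizer H x = ⊥) (h2 : 2 ≤ Fintype.card α) :
    ∃ N : Subgroup H, N.Normal ∧ (∀ a b : α, ∃ n ∈ N, n • a = b) ∧
      (∀ g : H, g ∈ N ↔ g = 1 ∨ ∀ a : α, g • a ≠ a) := by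
  obtain ⟨a₀, a₁, h01⟩ := Fintype.one_lt_card_iff.1 (show 1 < Fintype.card α by omega)
  have htr : ∀ a b : α, ∃ g : H, g • a = b := by
    intro a b
    by_cases hab : a = b
    · exact ⟨1, by rw [one_smul, hab]⟩
    · obtain ⟨c, hc⟩ : ∃ c, c ≠ a := ⟨b, Ne.symm hab⟩
      obtain ⟨d, hd⟩ : ∃ d, d ≠ b := ⟨a, hab⟩
      obtain ⟨g, hg, -⟩ := sharp2_trans H (Ne.symm hc) (Ne.symm hd)
      exact ⟨g, hg⟩
  by_cases hK : MulAction.stabilizer H a₀ = ⊥
  · have hfree : ∀ (a : α) (g : H), g • a = a → g = 1 := by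
      intro a g hga
      obtain ⟨t, ht⟩ := htr a₀ a
      have h1 : (t⁻¹ * g * t) ∈ MulAction.stabilizer H a₀ := by
        rw [MulAction.mem_stabilizer_iff, mul_smul, mul_smul, ht, hga, ← ht, inv_smul_smul]
      rw [hK, Subgroup.mem_bot] at h1
      have h3 : g = t * (t⁻¹ * g * t) * t⁻¹ := by group
      rw [h3, h1]
      group
    refine ⟨⊤, inferInstance, ?_, ?_⟩
    · intro a b
      obtain ⟨g, hg⟩ := htr a b
      exact ⟨g, Subgroup.mem_top g, hg⟩
    · intro g
      constructor
      · intro _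
        by_cases hg : g = 1
        · exact Or.inl hg
        · exact Or.inr (fun a hga => hg (hfree a g hga))
      · intro _
        exact Subgroup.mem_top g
  · have hFC : Cfsg.IsFrobeniusComplement (MulAction.stabilizer H a₀) := by
      refine ⟨hK, ?_, ?_⟩
      · intro htop
        obtain ⟨g, hg⟩ := htr a₀ a₁
        have h1 : g ∈ MulAction.stabilizer H a₀ := by rw [htop]; exact Subgroup.mem_top g
        rw [MulAction.mem_stabilizer_iff, hg] at h1
        exact h01 h1.symm
      · intro g hg
        rw [eq_bot_iff]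
        intro x hx
        rw [Subgroup.mem_inf, Cfsg.Agent.S0034.mem_conj_smul, MulAction.mem_stabilizer_iff,
          MulAction.mem_stabilizer_iff] at hx
        obtain ⟨hx1, hx2⟩ := hx
        rw [Subgroup.mem_bot]
        have hne : a₀ ≠ g • a₀ := by
          intro h
          exact hg (MulAction.mem_stabilizer_iff.2 h.symm)
        refine sharp2_fix H hsharp x hne hx1 ?_
        rw [mul_smul, mul_smul] at hx2
        have h3 := congrArg (fun z => g • z) hx2
        simpa using h3
    obtain ⟨N, hNset, hNn, hNK⟩ := Cfsg.Agent.S0035.result (MulAction.stabilizer H a₀) hFC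
    have hmemN : ∀ g : H, g ∈ N ↔ g = 1 ∨ ∀ a : α, g • a ≠ a := by
      intro g
      have h1 : g ∈ N ↔ g ∈ Cfsg.frobeniusKernel (MulAction.stabilizer H a₀) := by
        rw [← hNset]; rfl
      rw [h1]
      show (g = 1 ∨ ∀ g' : H, g ∉ MulAut.conj g' • MulAction.stabilizer H a₀) ↔ _
      apply or_congr Iff.rfl
      constructor
      · intro h a hga
        obtain ⟨t, ht⟩ := htr a₀ a
        apply h t
        rw [Cfsg.Agent.S0034.mem_conj_smul, MulAction.mem_stabilizer_iff, mul_smul, mul_smul, ht,
          hga, ← ht, inv_smul_smul]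
      · intro h t hmem
        rw [Cfsg.Agent.S0034.mem_conj_smul, MulAction.mem_stabilizer_iff, mul_smul,
          mul_smul] at hmem
        apply h (t • a₀)
        have h3 := congrArg (fun z => t • z) hmem
        simpa using h3
    refine ⟨N, hNn, ?_, hmemN⟩
    intro a b
    obtain ⟨t, ht⟩ := htr a₀ a
    obtain ⟨h, hh⟩ := htr a b
    obtain ⟨⟨n', k⟩, hnk⟩ := hNK.2 (t⁻¹ * h * t)
    have hnk' : (n' : H) * (k : H) = t⁻¹ * h * t := hnk
    refine ⟨t * n' * t⁻¹, hNn.conj_mem _ n'.2 t, ?_⟩
    have hk : (k : H) • a₀ = a₀ := MulAction.mem_stabilizer_iff.1 k.2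
    have h5 : h = t * ((n' : H) * (k : H)) * t⁻¹ := by rw [hnk']; group
    rw [← hh, h5]
    simp only [mul_smul]
    rw [← ht, inv_smul_smul, hk]

end Cfsg.Agent.Helper6
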