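import Mathlib
import Cfsg.Agent.Helper16.UnitK
import Cfsg.Agent.S5631

set_option autoImplicit false

namespace Cfsg.Agent.Helper6

open Cfsg Matrix Cfsg.Agent.Helper3 Cfsg.Agent.Helper16

variable {F : Type*} [Field F] [Fintype F] {n q : ℕ}

/-- transfer of maximality from `SU` to `GU ⊓ specialLinear`, for any subgroup `K₀` -/
theorem maximal_of_core_su (K₀ : Subgroup (GL (Fin n) F))
    (hlt : ∃ A : ↥(Cfsg.SU n F q),
      Matrix.SpecialLinearGroup.toGL (A : Matrix.SpecialLinearGroup (Fin n) F) ∉ K₀)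
    (hcore : ∀ M : Subgroup ↥(Cfsg.SU n F q),
      (∀ A : ↥(Cfsg.SU n F q),
        Matrix.SpecialLinearGroup.toGL (A : Matrix.SpecialLinearGroup (Fin n) F) ∈ K₀ → A ∈ M) →
      (∃ A ∈ M, Matrix.SpecialLinearGroup.toGL (A : Matrix.SpecialLinearGroup (Fin n) F) ∉ K₀) →
      M = ⊤) :
    Cfsg.Geo.IsMaximalIn (Cfsg.GU n F q ⊓ Cfsg.Geo.specialLinear (Fin n) F)
      (K₀ ⊓ (Cfsg.GU n F q ⊓ Cfsg.Geo.specialLinear (Fin n) F)) := by
  have hsurj : ∀ g ∈ Cfsg.GU n F q ⊓ Cfsg.Geo.specialLinear (Fin n) F,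
      ∃ A : ↥(Cfsg.SU n F q),
        Matrix.SpecialLinearGroup.toGL (A : Matrix.SpecialLinearGroup (Fin n) F) = g := by
    intro g hg
    refine ⟨mkSU (g : Matrix (Fin n) (Fin n) F) ((mem_GU_iff g).mp hg.1)
      ((Cfsg.Agent.S5631.gl_mem_specialLinear g).1 hg.2), ?_⟩
    apply Units.ext
    rfl
  have hmem : ∀ A : ↥(Cfsg.SU n F q),
      Matrix.SpecialLinearGroup.toGL (A : Matrix.SpecialLinearGroup (Fin n) F) ∈
        Cfsg.GU n F q ⊓ Cfsg.Geo.specialLinear (Fin n) F := by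
    intro A
    rw [Subgroup.mem_inf]
    exact ⟨(mem_GU_iff _).mpr ((mem_SU_iff A.1).mp A.2),
      (Cfsg.Agent.S5631.gl_mem_specialLinear _).mpr A.1.2⟩
  obtain ⟨θ, hθ⟩ : ∃ θ : ↥(Cfsg.SU n F q) →* GL (Fin n) F, ∀ A : ↥(Cfsg.SU n F q),
      θ A = Matrix.SpecialLinearGroup.toGL (A : Matrix.SpecialLinearGroup (Fin n) F) :=
    ⟨(Matrix.SpecialLinearGroup.toGL).comp (Cfsg.SU n F q).subtype, fun A => rfl⟩
  constructor
  · refine lt_of_le_of_ne inf_le_right ?_
    intro heq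
    obtain ⟨A, hA⟩ := hlt
    have h1 : Matrix.SpecialLinearGroup.toGL (A : Matrix.SpecialLinearGroup (Fin n) F) ∈
        K₀ ⊓ (Cfsg.GU n F q ⊓ Cfsg.Geo.specialLinear (Fin n) F) := by
      rw [heq]; exact hmem A
    exact hA h1.1
  · intro M hPM hMK
    by_cases hMP : M ≤ K₀ ⊓ (Cfsg.GU n F q ⊓ Cfsg.Geo.specialLinear (Fin n) F)
    · left; exact le_antisymm hMP hPM
    · right
      obtain ⟨h, hhM, hhP⟩ := SetLike.not_le_iff_exists.mp hMP
      obtain ⟨A, hA⟩ := hsurj h (hMK hhM)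
      have key := hcore (M.comap θ) ?_ ?_
      · apply le_antisymm hMK
        intro g hg
        obtain ⟨B, hB⟩ := hsurj g hg
        have h2 : B ∈ M.comap θ := by rw [key]; trivial
        rw [Subgroup.mem_comap, hθ, hB] at h2
        exact h2
      · intro B hB
        rw [Subgroup.mem_comap, hθ]
        exact hPM ⟨hB, hmem B⟩
      · refine ⟨A, ?_, ?_⟩
        · rw [Subgroup.mem_comap, hθ, hA]; exact hhM
        · intro hst
          apply hhP
          refine ⟨?_, hMK hhM⟩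
          rw [← hA]; exact hst

theorem sact_sub {n : ℕ} (g : ↥(Cfsg.SU n F q)) (u v : Fin n → F) :
    sact g (u - v) = sact g u - sact g v := Matrix.mulVec_sub _ _ _

theorem sact_neg {n : ℕ} (g : ↥(Cfsg.SU n F q)) (u : Fin n → F) :
    sact g (-u) = -sact g u := Matrix.mulVec_neg _ _

theorem sact_inv_left {n : ℕ} (g : ↥(Cfsg.SU n F q)) (u : Fin n → F) :
    sact g⁻¹ (sact g u) = u := by
  rw [← sact_mul, inv_mul_cancel, sact_one]

theorem sact_inv_right {n : ℕ} (g : ↥(Cfsg.SU n F q)) (u : Fin n → F) :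
    sact g (sact g⁻¹ u) = u := by
  rw [← sact_mul, mul_inv_cancel, sact_one]

theorem um_symm (Φ : Frob F q) (x y : Fin n → F) (h : Cfsg.hermForm n F q x y = 0) :
    Cfsg.hermForm n F q y x = 0 := by
  rw [← uherm_conj Φ x y, h, map_zero]

theorem um_ne_symm (Φ : Frob F q) (x y : Fin n → F) (h : Cfsg.hermForm n F q x y ≠ 0) :
    Cfsg.hermForm n F q y x ≠ 0 := fun h' => h (um_symm Φ y x h')

/-- `g` acts as the unitary transvection with direction `y` and parameter `c` -/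
def IsUt (g : ↥(Cfsg.SU n F q)) (y : Fin n → F) (c : F) : Prop :=
  ∀ x, sact g x = x + (c * Cfsg.hermForm n F q x y) • y

theorem exists_ut (Φ : Frob F q) (y : Fin n → F) (c : F) (hy : Cfsg.hermForm n F q y y = 0)
    (hc : c + Φ.φ c = 0) : ∃ g : ↥(Cfsg.SU n F q), IsUt g y c := by
  have hc' : c + c ^ q = 0 := by rw [← Φ.hφ]; exact hc
  exact ⟨mkSU (Cfsg.unitaryTransvection n q y c) (ut_pres Φ y c hy hc') (ut_det y c hy),
    fun x => by rw [sact_mkSU, ut_mulVec]⟩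

/-- isotropic directions all of whose unitary transvections lie in `M` -/
def udirs (Φ : Frob F q) (M : Subgroup ↥(Cfsg.SU n F q)) : Set (Fin n → F) :=
  {y | Cfsg.hermForm n F q y y = 0 ∧
    ∀ c : F, c + Φ.φ c = 0 → ∀ g : ↥(Cfsg.SU n F q), IsUt g y c → g ∈ M}

theorem udirs_conj (Φ : Frob F q) (M : Subgroup ↥(Cfsg.SU n F q)) (A : ↥(Cfsg.SU n F q))
    (hA : A ∈ M) (y : Fin n → F) (hy : y ∈ udirs Φ M) : sact A y ∈ udirs Φ M := by
  refine ⟨by rw [sact_herm]; exact hy.1, ?_⟩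
  intro c hc g hg
  obtain ⟨g₀, hg₀⟩ := exists_ut Φ y c hy.1 hc
  have h0 : g₀ ∈ M := hy.2 c hc g₀ hg₀
  have e : g * A = A * g₀ := by
    apply su_ext
    intro u
    rw [sact_mul, sact_mul, hg (sact A u), hg₀ u, sact_herm, sact_add, sact_smul]
  have e2 : g = A * g₀ * A⁻¹ := eq_mul_inv_of_mul_eq e
  rw [e2]
  exact M.mul_mem (M.mul_mem hA h0) (M.inv_mem hA)

theorem udirs_move (Φ : Frob F q) (M : Subgroup ↥(Cfsg.SU n F q)) (x y : Fin n → F)
    (hx : x ∈ udirs Φ M) (hy : y ∈ udirs Φ M) (c : F) (hc : c + Φ.φ c = 0) :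
    y + (c * Cfsg.hermForm n F q y x) • x ∈ udirs Φ M := by
  obtain ⟨g₀, hg₀⟩ := exists_ut Φ x c hx.1 hc
  have h := udirs_conj Φ M g₀ (hx.2 c hc g₀ hg₀) y hy
  rwa [hg₀ y] at h

theorem udirs_smul (Φ : Frob F q) (M : Subgroup ↥(Cfsg.SU n F q)) (y : Fin n → F)
    (hy : y ∈ udirs Φ M) (l : F) : l • y ∈ udirs Φ M := by
  refine ⟨by rw [uherm_smul_left, uherm_smul_right Φ, hy.1, mul_zero, mul_zero], ?_⟩
  intro c hc g hg
  apply hy.2 (c * (l * Φ.φ l)) ?_ g
  · intro x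
    rw [hg x, uherm_smul_right Φ, smul_smul]
    congr 2
    ring
  · rw [map_mul, map_mul, Φ.hφ2]
    linear_combination (l * Φ.φ l) * hc

theorem top_of_udirs (hF : Fintype.card F = q ^ 2) (Φ : Frob F q) (h32 : ¬ (n = 3 ∧ q = 2))
    (M : Subgroup ↥(Cfsg.SU n F q))
    (h : ∀ y : Fin n → F, Cfsg.hermForm n F q y y = 0 → y ∈ udirs Φ M) : M = ⊤ := by
  have key : ∀ A : Matrix (Fin n) (Fin n) F, A ∈ TM n q →
      ∀ g : ↥(Cfsg.SU n F q),
        ((g : Matrix.SpecialLinearGroup (Fin n) F) : Matrix (Fin n) (Fin n) F) = A → g ∈ M := by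
    intro A hA
    induction hA using Submonoid.closure_induction with
    | mem B hB =>
      obtain ⟨v, c, hv, hc, rfl⟩ := hB
      intro g hg
      apply (h v hv).2 c (by rw [Φ.hφ]; exact hc) g
      intro x
      show ((g : Matrix.SpecialLinearGroup (Fin n) F) : Matrix (Fin n) (Fin n) F) *ᵥ x = _
      rw [hg, ut_mulVec]
    | one =>
      intro g hg
      have : g = 1 := Subtype.ext (Subtype.ext hg)
      rw [this]; exact M.one_mem
    | mul B C hB hC ihB ihC =>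
      intro g hg
      obtain ⟨pB, dB⟩ := TM_pres Φ B hB
      obtain ⟨pC, dC⟩ := TM_pres Φ C hC
      have e : g = mkSU B pB dB * mkSU C pC dC := Subtype.ext (Subtype.ext hg)
      rw [e]
      exact M.mul_mem (ihB _ rfl) (ihC _ rfl)
  rw [eq_top_iff]
  intro g _
  exact key _ (TM_all hF n h32 _ ((mem_SU_iff g.1).mp g.2) g.1.2) g rfl

theorem exists_skew_sub (hF : Fintype.card F = q ^ 2) (Φ : Frob F q) (e : F)
    (he : e + Φ.φ e = 0) : ∃ z : F, z - Φ.φ z = e := by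
  obtain ⟨b₀, hb₀⟩ := exists_tr_one hF Φ
  refine ⟨e * b₀, ?_⟩
  rw [map_mul]
  linear_combination e * hb₀ - Φ.φ b₀ * he

/-- `g` acts as the Siegel element `x ↦ x + c h(x,a) b - φ(c) h(x,b) a` -/
def IsSg (Φ : Frob F q) (g : ↥(Cfsg.SU n F q)) (a b : Fin n → F) (c : F) : Prop :=
  ∀ x, sact g x = x + (c * Cfsg.hermForm n F q x a) • b
    - (Φ.φ c * Cfsg.hermForm n F q x b) • a

theorem exists_sg (hF : Fintype.card F = q ^ 2) (Φ : Frob F q) (a b : Fin n → F)
    (ha : Cfsg.hermForm n F q a a = 0) (hb : Cfsg.hermForm n F q b b = 0)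
    (hab : Cfsg.hermForm n F q a b = 0) (c : F) :
    ∃ g : ↥(Cfsg.SU n F q), IsSg Φ g a b c := by
  obtain ⟨e, he0, he⟩ := exists_skew hF Φ
  have hba := um_symm Φ a b hab
  have he' : Φ.φ e = -e := by linear_combination he
  obtain ⟨l, rfl⟩ : ∃ l, c = e * l := ⟨c / e, by field_simp⟩
  obtain ⟨g₁, h1⟩ := exists_ut Φ (a + l • b) e (by
    simp only [uherm_add_left, uherm_add_right Φ, uherm_smul_left, uherm_smul_right Φ, ha, hb,
      hab, hba]
    ring) he
  obtain ⟨g₂, h2⟩ := exists_ut Φ a (-e) ha (by rw [map_neg, he']; ring)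
  obtain ⟨g₃, h3⟩ := exists_ut Φ b (-(e * (l * Φ.φ l))) hb (by
    rw [map_neg, map_mul, map_mul, Φ.hφ2, he']; ring)
  refine ⟨g₁ * g₂ * g₃, fun x => ?_⟩
  rw [sact_mul, sact_mul, h3 x, h2, h1]
  simp only [uherm_add_left, uherm_add_right Φ, uherm_smul_left, uherm_smul_right Φ, ha, hb,
    hab, hba, map_mul, he']
  module

/-- all Siegel elements of the totally isotropic pair `(a, b)` lie in `M` -/
def uPp (Φ : Frob F q) (M : Subgroup ↥(Cfsg.SU n F q)) (a b : Fin n → F) : Prop :=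
  Cfsg.hermForm n F q a a = 0 ∧ Cfsg.hermForm n F q b b = 0 ∧ Cfsg.hermForm n F q a b = 0 ∧
    ∀ (c : F) (g : ↥(Cfsg.SU n F q)), IsSg Φ g a b c → g ∈ M

theorem uPp_conj (hF : Fintype.card F = q ^ 2) (Φ : Frob F q) (M : Subgroup ↥(Cfsg.SU n F q))
    (A : ↥(Cfsg.SU n F q)) (hA : A ∈ M) (a b : Fin n → F) (h : uPp Φ M a b) :
    uPp Φ M (sact A a) (sact A b) := by
  obtain ⟨ha, hb, hab, hM⟩ := h
  refine ⟨by rw [sact_herm]; exact ha, by rw [sact_herm]; exact hb,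
    by rw [sact_herm]; exact hab, ?_⟩
  intro c g hg
  obtain ⟨g₀, hg₀⟩ := exists_sg hF Φ a b ha hb hab c
  have e : g * A = A * g₀ := by
    apply su_ext
    intro u
    rw [sact_mul, sact_mul, hg (sact A u), hg₀ u, sact_herm, sact_herm, sact_sub, sact_add,
      sact_smul, sact_smul]
  have e2 : g = A * g₀ * A⁻¹ := eq_mul_inv_of_mul_eq e
  rw [e2]
  exact M.mul_mem (M.mul_mem hA (hM c g₀ hg₀)) (M.inv_mem hA)

theorem uPp_symm (Φ : Frob F q) (M : Subgroup ↥(Cfsg.SU n F q)) (a b : Fin n → F)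
    (h : uPp Φ M a b) : uPp Φ M b a := by
  obtain ⟨ha, hb, hab, hM⟩ := h
  refine ⟨hb, ha, um_symm Φ a b hab, ?_⟩
  intro c g hg
  apply hM (-Φ.φ c) g
  intro x
  rw [hg x, map_neg, Φ.hφ2]
  module

theorem udir_of_rel1 (hF : Fintype.card F = q ^ 2) (Φ : Frob F q)
    (M : Subgroup ↥(Cfsg.SU n F q)) (a b b' : Fin n → F)
    (ha : Cfsg.hermForm n F q a a = 0) (hb : Cfsg.hermForm n F q b b = 0)
    (hb' : Cfsg.hermForm n F q b' b' = 0) (hab : Cfsg.hermForm n F q a b = 0)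
    (hab' : Cfsg.hermForm n F q a b' = 0) (hβ : Cfsg.hermForm n F q b b' ≠ 0)
    (h1 : ∀ c : F, c + Φ.φ c = 0 → ∀ g : ↥(Cfsg.SU n F q), IsSg Φ g a b c → g ∈ M)
    (h1' : ∀ (d : F) (g : ↥(Cfsg.SU n F q)), IsSg Φ g a b' d → g ∈ M) : a ∈ udirs Φ M := by
  refine ⟨ha, ?_⟩
  intro e he gT hgT
  obtain ⟨ε, hε0, hε⟩ := exists_skew hF Φ
  obtain ⟨b₀, hb₀⟩ := exists_tr_one hF Φ
  obtain ⟨d, hd⟩ : ∃ d : F, ε * Φ.φ d * Cfsg.hermForm n F q b b' = e * b₀ :=
    ⟨Φ.φ (e * b₀ / (ε * Cfsg.hermForm n F q b b')), by rw [Φ.hφ2]; field_simp⟩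
  obtain ⟨gA, hgA⟩ := exists_sg hF Φ a b ha hb hab ε
  obtain ⟨gB, hgB⟩ := exists_sg hF Φ a b' ha hb' hab' d
  have hba := um_symm Φ a b hab
  have hb'a := um_symm Φ a b' hab'
  have hε' : Φ.φ ε = -ε := by linear_combination hε
  have he' : Φ.φ e = -e := by linear_combination he
  have hd2 : ε * d * Cfsg.hermForm n F q b' b = e * Φ.φ b₀ := by
    have h := congrArg Φ.φ hd
    rw [map_mul, map_mul, map_mul, Φ.hφ2, uherm_conj Φ, hε', he'] at h
    linear_combination -h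
  have he_eq : e = ε * d * Cfsg.hermForm n F q b' b + ε * Φ.φ d * Cfsg.hermForm n F q b b' := by
    rw [hd, hd2]
    linear_combination -e * hb₀
  have hgA' : ∀ x, sact gA x = x + (ε * Cfsg.hermForm n F q x a) • b
      - (Φ.φ ε * Cfsg.hermForm n F q x b) • a := hgA
  have hgB' : ∀ x, sact gB x = x + (d * Cfsg.hermForm n F q x a) • b'
      - (Φ.φ d * Cfsg.hermForm n F q x b') • a := hgB
  have hgT' : ∀ x, sact gT x = x + ((ε * d * Cfsg.hermForm n F q b' b
      + ε * Φ.φ d * Cfsg.hermForm n F q b b') * Cfsg.hermForm n F q x a) • a := by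
    intro x
    rw [hgT x, ← he_eq]
  have key : gA * gB = gT * (gB * gA) := by
    apply su_ext
    intro x
    simp only [sact_mul, hgA', hgB', hgT', uherm_add_left, uherm_sub_left, uherm_smul_left, ha,
      hb, hb', hab, hab', hba, hb'a, hε']
    module
  have e2 : gT = (gA * gB) * (gB * gA)⁻¹ := by rw [key, mul_inv_cancel_right]
  rw [e2]
  exact M.mul_mem (M.mul_mem (h1 ε hε gA hgA) (h1' d gB hgB))
    (M.inv_mem (M.mul_mem (h1' d gB hgB) (h1 ε hε gA hgA)))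

theorem uPp_of_rel2 (hF : Fintype.card F = q ^ 2) (Φ : Frob F q)
    (M : Subgroup ↥(Cfsg.SU n F q)) (a b a' b' : Fin n → F)
    (haa' : Cfsg.hermForm n F q a a' = 0) (hab' : Cfsg.hermForm n F q a b' = 0)
    (hba' : Cfsg.hermForm n F q b a' = 0) (hβ : Cfsg.hermForm n F q b b' ≠ 0)
    (h1 : uPp Φ M a b) (h1' : uPp Φ M a' b') : uPp Φ M a a' := by
  obtain ⟨ha, hb, hab, hM⟩ := h1
  obtain ⟨ha', hb', ha'b', hM'⟩ := h1'
  refine ⟨ha, ha', haa', ?_⟩
  intro γ gC hgC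
  obtain ⟨d, hd⟩ : ∃ d : F, Φ.φ d * Cfsg.hermForm n F q b b' = γ :=
    ⟨Φ.φ (γ / Cfsg.hermForm n F q b b'), by rw [Φ.hφ2]; field_simp⟩
  subst hd
  obtain ⟨gA, hgA⟩ := exists_sg hF Φ a b ha hb hab 1
  obtain ⟨gB, hgB⟩ := exists_sg hF Φ a' b' ha' hb' ha'b' d
  have hba := um_symm Φ a b hab
  have hb'a' := um_symm Φ a' b' ha'b'
  have ha'a := um_symm Φ a a' haa'
  have hb'a := um_symm Φ a b' hab'
  have ha'b := um_symm Φ b a' hba'
  have hgA' : ∀ x, sact gA x = x + (1 * Cfsg.hermForm n F q x a) • b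
      - (Φ.φ 1 * Cfsg.hermForm n F q x b) • a := hgA
  have hgB' : ∀ x, sact gB x = x + (d * Cfsg.hermForm n F q x a') • b'
      - (Φ.φ d * Cfsg.hermForm n F q x b') • a' := hgB
  have hgC' : ∀ x, sact gC x = x + (Φ.φ d * Cfsg.hermForm n F q b b' * Cfsg.hermForm n F q x a) • a'
      - (Φ.φ (Φ.φ d * Cfsg.hermForm n F q b b') * Cfsg.hermForm n F q x a') • a := hgC
  have key : gA * gB = gC * (gB * gA) := by
    apply su_ext
    intro x
    simp only [sact_mul, hgA', hgB', hgC', uherm_add_left, uherm_sub_left, uherm_smul_left, ha,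
      hb, ha', hb', hab, ha'b', haa', hab', hba', hba, hb'a', ha'a, hb'a, ha'b, map_mul, map_one,
      Φ.hφ2, uherm_conj Φ]
    module
  have e2 : gC = (gA * gB) * (gB * gA)⁻¹ := by rw [key, mul_inv_cancel_right]
  rw [e2]
  exact M.mul_mem (M.mul_mem (hM 1 gA hgA) (hM' d gB hgB))
    (M.inv_mem (M.mul_mem (hM' d gB hgB) (hM 1 gA hgA)))

theorem sg_prod (Φ : Frob F q) (x₁ y₁ : Fin n → F) (hx : Cfsg.hermForm n F q x₁ x₁ = 0)
    (hy : Cfsg.hermForm n F q y₁ y₁ = 0) (hxy : Cfsg.hermForm n F q x₁ y₁ = 0)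
    (α β γ δ c : F) (g g₀ t₁ t₂ : ↥(Cfsg.SU n F q))
    (hg : IsSg Φ g (α • x₁ + β • y₁) (γ • x₁ + δ • y₁) c)
    (hg₀ : IsSg Φ g₀ x₁ y₁ (c * Φ.φ α * δ - Φ.φ c * Φ.φ γ * β))
    (ht₁ : IsUt t₁ x₁ (c * Φ.φ α * γ - Φ.φ c * Φ.φ γ * α))
    (ht₂ : IsUt t₂ y₁ (c * Φ.φ β * δ - Φ.φ c * Φ.φ δ * β)) :
    g = g₀ * t₁ * t₂ := by
  have hyx := um_symm Φ x₁ y₁ hxy
  apply su_ext
  intro x
  rw [sact_mul, sact_mul, hg x, ht₂ x, ht₁, hg₀]
  simp only [uherm_add_left, uherm_add_right Φ, uherm_smul_left, uherm_smul_right Φ, hx, hy,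
    hxy, hyx, map_sub, map_mul, Φ.hφ2]
  module

theorem ut_pair (Φ : Frob F q) (y₁ y : Fin n → F) (hy₁ : Cfsg.hermForm n F q y₁ y₁ = 0)
    (hy : Cfsg.hermForm n F q y y = 0) (hyy : Cfsg.hermForm n F q y y₁ = 0) (e μ : F)
    (he : e + Φ.φ e = 0) (hμ : μ + Φ.φ μ = 1) (t₁ t₂ g : ↥(Cfsg.SU n F q))
    (ht₁ : IsUt t₁ y₁ (-e)) (ht₂ : IsUt t₂ (y₁ + y) e) (hg : IsSg Φ g y (y₁ + μ • y) e) :
    g = t₁ * t₂ := by
  have hy1y := um_symm Φ y y₁ hyy
  have he' : Φ.φ e = -e := by linear_combination he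
  have hμ' : Φ.φ μ = 1 - μ := by linear_combination hμ
  apply su_ext
  intro x
  rw [sact_mul, hg x, ht₂ x, ht₁]
  simp only [uherm_add_left, uherm_add_right Φ, uherm_smul_left, uherm_smul_right Φ, hy₁, hy,
    hyy, hy1y, he', hμ']
  module

/-- the linear functional `x ↦ h(x, v)` -/
def hL (n q : ℕ) (v : Fin n → F) : (Fin n → F) →ₗ[F] F where
  toFun x := Cfsg.hermForm n F q x v
  map_add' x y := uherm_add_left x y v
  map_smul' c x := by
    rw [uherm_smul_left]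
    rfl

theorem hL_apply (v x : Fin n → F) : hL n q v x = Cfsg.hermForm n F q x v := rfl

theorem cutf_finrank {V : Type*} [AddCommGroup V] [Module F V] [FiniteDimensional F V]
    (K : Submodule F V) (f : V →ₗ[F] F) :
    Module.finrank F K ≤ Module.finrank F (K ⊓ LinearMap.ker f : Submodule F V) + 1 := by
  have h1 := LinearMap.finrank_range_add_finrank_ker (f.domRestrict K)
  have h2 : Module.finrank F (LinearMap.range (f.domRestrict K)) ≤ 1 := by
    have := Submodule.finrank_le (LinearMap.range (f.domRestrict K))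
    rwa [Module.finrank_self] at this
  have h3 : Module.finrank F (LinearMap.ker (f.domRestrict K))
      = Module.finrank F (K ⊓ LinearMap.ker f : Submodule F V) := by
    have e : (LinearMap.ker (f.domRestrict K)).map K.subtype = K ⊓ LinearMap.ker f := by
      ext a
      rw [Submodule.mem_map, Submodule.mem_inf, LinearMap.mem_ker]
      constructor
      · rintro ⟨⟨b, hb⟩, hker, rfl⟩
        refine ⟨hb, ?_⟩
        rw [LinearMap.mem_ker, LinearMap.domRestrict_apply] at hker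
        exact hker
      · rintro ⟨ha, h0⟩
        refine ⟨⟨a, ha⟩, ?_, rfl⟩
        rw [LinearMap.mem_ker, LinearMap.domRestrict_apply]
        exact h0
    rw [← e]
    exact LinearEquiv.finrank_eq
      (Submodule.equivMapOfInjective K.subtype K.injective_subtype _)
  omega

/-- the part of `K` orthogonal to `v` for the hermitian form -/
def ucut (q : ℕ) (K : Submodule F (Fin n → F)) (v : Fin n → F) : Submodule F (Fin n → F) :=
  K ⊓ LinearMap.ker (hL n q v)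

theorem mem_ucut (K : Submodule F (Fin n → F)) (v a : Fin n → F) :
    a ∈ ucut q K v ↔ a ∈ K ∧ Cfsg.hermForm n F q a v = 0 := by
  unfold ucut
  rw [Submodule.mem_inf, LinearMap.mem_ker]
  exact Iff.rfl

theorem ucut_finrank (K : Submodule F (Fin n → F)) (v : Fin n → F) :
    Module.finrank F K ≤ Module.finrank F (ucut q K v) + 1 :=
  cutf_finrank K (hL n q v)

theorem exists_not_smul' {V : Type*} [AddCommGroup V] [Module F V] [FiniteDimensional F V]
    (K : Submodule F V) (hK : 2 ≤ Module.finrank F K) (w : V) : ∃ a ∈ K, ∀ c : F, a ≠ c • w := by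
  by_contra hcon
  push Not at hcon
  have hle : K ≤ Submodule.span F {w} := by
    intro a ha
    obtain ⟨c, hc⟩ := hcon a ha
    rw [Submodule.mem_span_singleton]
    exact ⟨c, hc.symm⟩
  have h1 := Submodule.finrank_mono hle
  by_cases hw : w = 0
  · rw [hw, Submodule.span_zero_singleton, finrank_bot] at h1
    omega
  · rw [finrank_span_singleton hw] at h1
    omega

theorem exists_ne_zero' {V : Type*} [AddCommGroup V] [Module F V] [FiniteDimensional F V]
    (K : Submodule F V) (hK : 1 ≤ Module.finrank F K) : ∃ a ∈ K, a ≠ 0 := by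
  obtain ⟨⟨a, ha⟩, h0⟩ := Module.finrank_pos_iff_exists_ne_zero.mp (by omega : 0 < Module.finrank F K)
  exact ⟨a, ha, fun h => h0 (Subtype.ext h)⟩

theorem su_toLin_inj (A : ↥(Cfsg.SU n F q)) :
    Function.Injective (Matrix.toLin' (A.1.1 : Matrix (Fin n) (Fin n) F)) := by
  intro u v huv
  rw [Matrix.toLin'_apply, Matrix.toLin'_apply] at huv
  have h1 : sact A u = sact A v := huv
  have h2 := congrArg (sact A⁻¹) h1
  rwa [sact_inv_left, sact_inv_left] at h2

theorem su_map_eq (A : ↥(Cfsg.SU n F q)) (U W : Submodule F (Fin n → F))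
    (hfr : Module.finrank F U = Module.finrank F W) (h : ∀ x ∈ U, sact A x ∈ W) :
    U.map (Matrix.toLin' (A.1.1 : Matrix (Fin n) (Fin n) F)) = W := by
  apply Submodule.eq_of_le_of_finrank_eq
  · rintro _ ⟨x, hx, rfl⟩
    rw [Matrix.toLin'_apply]
    exact h x hx
  · rw [← LinearEquiv.finrank_eq (Submodule.equivMapOfInjective _ (su_toLin_inj A) U), hfr]

theorem su_exists_preimage (A : ↥(Cfsg.SU n F q)) (U W : Submodule F (Fin n → F))
    (hfr : Module.finrank F U = Module.finrank F W) (h : ∀ x ∈ U, sact A x ∈ W) :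
    ∀ w ∈ W, ∃ x ∈ U, sact A x = w := by
  intro w hw
  rw [← su_map_eq A U W hfr h] at hw
  obtain ⟨x, hx, hxw⟩ := hw
  exact ⟨x, hx, by rw [← hxw, Matrix.toLin'_apply]; rfl⟩

theorem um_nondeg (Φ : Frob F q) (y : Fin n → F)
    (h : ∀ v, Cfsg.hermForm n F q v y = 0) : y = 0 := by
  funext i
  have h1 := h (Pi.single i 1)
  rw [uherm_single_left Φ] at h1
  exact (map_eq_zero Φ.φ).mp h1

theorem um_nondeg' (Φ : Frob F q) (y : Fin n → F) (hy : y ≠ 0) :
    ∃ v, Cfsg.hermForm n F q y v ≠ 0 := by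
  by_contra hcon
  push Not at hcon
  exact hy (um_nondeg Φ y (fun v => um_symm Φ y v (hcon v)))

theorem isUt_conj (A t : ↥(Cfsg.SU n F q)) (v : Fin n → F) (c : F) (h : IsUt t v c) :
    IsUt (A * t * A⁻¹) (sact A v) c := by
  intro u
  rw [sact_mul, sact_mul, h (sact A⁻¹ u), sact_add, sact_smul, sact_inv_right]
  have e : Cfsg.hermForm n F q (sact A⁻¹ u) v = Cfsg.hermForm n F q u (sact A v) := by
    rw [← sact_herm A (sact A⁻¹ u) v, sact_inv_right]
  rw [e]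

theorem isUt_inv (t : ↥(Cfsg.SU n F q)) (v : Fin n → F) (c : F)
    (hv : Cfsg.hermForm n F q v v = 0) (h : IsUt t v c) : IsUt t⁻¹ v (-c) := by
  intro u
  have h1 : sact t (u + (-c * Cfsg.hermForm n F q u v) • v) = u := by
    rw [h, uherm_add_left, uherm_smul_left, hv]
    module
  have h2 := congrArg (sact t⁻¹) h1
  rw [sact_inv_left] at h2
  exact h2.symm

theorem isUt_unique (t t' : ↥(Cfsg.SU n F q)) (v : Fin n → F) (c : F) (h : IsUt t v c)
    (h' : IsUt t' v c) : t = t' :=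
  su_ext t t' (fun u => by rw [h u, h' u])

theorem isUt_one (v : Fin n → F) : IsUt (1 : ↥(Cfsg.SU n F q)) v 0 := by
  intro u
  rw [sact_one, zero_mul, zero_smul, add_zero]

/-- the element interchanging the two vectors of a hyperbolic pair up to scalars -/
theorem exists_flip (Φ : Frob F q) (x y : Fin n → F) (hx : Cfsg.hermForm n F q x x = 0)
    (hy : Cfsg.hermForm n F q y y = 0) (hyx : Cfsg.hermForm n F q y x = 1) (ε δ : F)
    (hε : ε + Φ.φ ε = 0) (hδ : δ + Φ.φ δ = 0) (hεδ : δ * ε = -1) :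
    ∃ g : ↥(Cfsg.SU n F q), sact g x = ε • y ∧ sact g y = δ • x ∧
      ∀ u, Cfsg.hermForm n F q u x = 0 → Cfsg.hermForm n F q u y = 0 → sact g u = u := by
  have hxy : Cfsg.hermForm n F q x y = 1 := by rw [← uherm_conj Φ y x, hyx, map_one]
  obtain ⟨t₁, ht₁⟩ := exists_ut Φ y ε hy hε
  obtain ⟨t₂, ht₂⟩ := exists_ut Φ x δ hx hδ
  refine ⟨t₁ * t₂ * t₁, ?_, ?_, ?_⟩
  · rw [sact_mul, sact_mul, ht₁ x, ht₂, ht₁]
    simp only [uherm_add_left, uherm_smul_left, hx, hy, hxy, hyx]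
    match_scalars
    · linear_combination hεδ
    · linear_combination ε * hεδ
  · rw [sact_mul, sact_mul, ht₁ y, ht₂, ht₁]
    simp only [uherm_add_left, uherm_smul_left, hx, hy, hxy, hyx]
    match_scalars
    · linear_combination hεδ
    · ring
  · intro u hux huy
    rw [sact_mul, sact_mul, ht₁ u, ht₂, ht₁]
    simp only [uherm_add_left, uherm_smul_left, hx, hy, hxy, hyx, hux, huy]
    module

end Cfsg.Agent.Helper6
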