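import Mathlib
import Cfsg.Agent.S5649
import Cfsg.Agent.S5644

set_option autoImplicit false

namespace Cfsg.Agent.H6SpSub

open Matrix Cfsg.Agent.Helper6 Cfsg.Agent.S5646 Cfsg.Agent.S5647 Cfsg.Agent.S5649

section rat

variable {F : Type*} [Field F] [Fintype F] {m : ℕ}

/-- `v` lies in the `F₀`-span of the columns of `P` -/
def IsRat (F₀ : Subfield F) (P : (Matrix (Fin m ⊕ Fin m) (Fin m ⊕ Fin m) F)) (v : (Fin m ⊕ Fin m → F)) : Prop :=
  ∃ u : (Fin m ⊕ Fin m → F), (∀ i, u i ∈ F₀) ∧ v = P *ᵥ u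

theorem isRat_zero (F₀ : Subfield F) (P : (Matrix (Fin m ⊕ Fin m) (Fin m ⊕ Fin m) F)) : IsRat F₀ P 0 :=
  ⟨0, fun _ => F₀.zero_mem, by rw [Matrix.mulVec_zero]⟩

theorem isRat_add {F₀ : Subfield F} {P : (Matrix (Fin m ⊕ Fin m) (Fin m ⊕ Fin m) F)} {x y : (Fin m ⊕ Fin m → F)}
    (hx : IsRat F₀ P x) (hy : IsRat F₀ P y) : IsRat F₀ P (x + y) := by
  obtain ⟨u, hu, rfl⟩ := hx
  obtain ⟨w, hw, rfl⟩ := hy
  exact ⟨u + w, fun i => F₀.add_mem (hu i) (hw i), by rw [Matrix.mulVec_add]⟩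

theorem isRat_smul {F₀ : Subfield F} {P : (Matrix (Fin m ⊕ Fin m) (Fin m ⊕ Fin m) F)} {x : (Fin m ⊕ Fin m → F)}
    (c : F) (hc : c ∈ F₀) (hx : IsRat F₀ P x) : IsRat F₀ P (c • x) := by
  obtain ⟨u, hu, rfl⟩ := hx
  exact ⟨c • u, fun i => F₀.mul_mem hc (hu i), by rw [Matrix.mulVec_smul]⟩

theorem isRat_neg {F₀ : Subfield F} {P : (Matrix (Fin m ⊕ Fin m) (Fin m ⊕ Fin m) F)} {x : (Fin m ⊕ Fin m → F)}
    (hx : IsRat F₀ P x) : IsRat F₀ P (-x) := by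
  have h := isRat_smul (-1) (F₀.neg_mem F₀.one_mem) hx
  rwa [neg_smul, one_smul] at h

theorem isRat_sub {F₀ : Subfield F} {P : (Matrix (Fin m ⊕ Fin m) (Fin m ⊕ Fin m) F)} {x y : (Fin m ⊕ Fin m → F)}
    (hx : IsRat F₀ P x) (hy : IsRat F₀ P y) : IsRat F₀ P (x - y) := by
  rw [sub_eq_add_neg]
  exact isRat_add hx (isRat_neg hy)

theorem isRat_col (F₀ : Subfield F) (P : (Matrix (Fin m ⊕ Fin m) (Fin m ⊕ Fin m) F)) (j : Fin m ⊕ Fin m) :
    IsRat F₀ P (P *ᵥ Pi.single j 1) :=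
  ⟨Pi.single j 1, fun i => by
    by_cases hij : i = j
    · rw [hij, Pi.single_eq_same]
      exact F₀.one_mem
    · rw [Pi.single_eq_of_ne hij]
      exact F₀.zero_mem, rfl⟩

theorem mulVec_expand (P : (Matrix (Fin m ⊕ Fin m) (Fin m ⊕ Fin m) F)) (u : (Fin m ⊕ Fin m → F)) :
    P *ᵥ u = ∑ j, u j • (P *ᵥ Pi.single j 1) := by
  classical
  conv_lhs => rw [pi_eq_sum_univ' u]
  rw [Matrix.mulVec_sum]
  apply Finset.sum_congr rfl
  intro j _
  rw [Matrix.mulVec_smul]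

theorem sf_zero_right (v : (Fin m ⊕ Fin m → F)) : Cfsg.sympForm m F v 0 = 0 := by
  rw [sf_swap, sf_zero_left, neg_zero]

theorem sf_sum_right {κ : Type*} (z : (Fin m ⊕ Fin m → F)) (s : Finset κ) (c : κ → F) (w : κ → (Fin m ⊕ Fin m → F)) :
    Cfsg.sympForm m F z (∑ j ∈ s, c j • w j) = ∑ j ∈ s, c j * Cfsg.sympForm m F z (w j) := by
  have h := map_sum (sfB m F z) (fun j => c j • w j) s
  simp only [map_smul, smul_eq_mul] at h
  exact h

theorem sf_sum_left {κ : Type*} (z : (Fin m ⊕ Fin m → F)) (s : Finset κ) (c : κ → F) (w : κ → (Fin m ⊕ Fin m → F)) :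
    Cfsg.sympForm m F (∑ j ∈ s, c j • w j) z = ∑ j ∈ s, c j * Cfsg.sympForm m F (w j) z := by
  have h := map_sum ((sfB m F).flip z) (fun j => c j • w j) s
  simp only [map_smul, smul_eq_mul] at h
  exact h

theorem exists_proj (F₀ : Subfield F) : ∃ π : F →+ F, (∀ a, π a ∈ F₀) ∧
    (∀ c ∈ F₀, ∀ a, π (c * a) = c * π a) ∧ (∀ c ∈ F₀, π c = c) := by
  obtain ⟨g, hg⟩ := LinearMap.exists_leftInverse_of_injective (Algebra.linearMap F₀ F)
    (LinearMap.ker_eq_bot.mpr (FaithfulSMul.algebraMap_injective F₀ F))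
  refine ⟨(F₀.subtype : F₀ →+ F).comp g.toAddMonoidHom, ?_, ?_, ?_⟩
  · intro a
    exact (g a).2
  · intro c hc a
    have h1 : g ((⟨c, hc⟩ : F₀) • a) = (⟨c, hc⟩ : F₀) • g a := map_smul g _ _
    have h2 : ((⟨c, hc⟩ : F₀) • a : F) = c * a := rfl
    rw [h2] at h1
    show ((g (c * a) : F₀) : F) = c * ((g a : F₀) : F)
    rw [h1]
    rfl
  · intro c hc
    have h1 := LinearMap.congr_fun hg (⟨c, hc⟩ : F₀)
    show ((g c : F₀) : F) = c
    have h2 : g c = (⟨c, hc⟩ : F₀) := h1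
    rw [h2]

theorem sub_max (F₀ : Subfield F) (r : ℕ) (hr : r.Prime)
    (hcard : Fintype.card F = Nat.card F₀ ^ r)
    (L : Subfield F) (hle : F₀ ≤ L) (x : F) (hxL : x ∈ L) (hx : x ∉ F₀) : ∀ y : F, y ∈ L := by
  classical
  haveI : Fintype F₀ := Fintype.ofFinite _
  have h1 : Fintype.card F = Fintype.card F₀ ^ Module.finrank F₀ F := Module.card_eq_pow_finrank
  have h2 : Module.finrank F₀ F = r := by
    rw [hcard, Nat.card_eq_fintype_card] at h1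
    exact (Nat.pow_right_injective (Fintype.one_lt_card (α := F₀)) h1).symm
  have hprime : (Module.finrank F₀ F).Prime := by rw [h2]; exact hr
  haveI := IntermediateField.isSimpleOrder_of_finrank_prime F₀ F hprime
  obtain ⟨E, hE⟩ : ∃ E : IntermediateField F₀ F, ∀ y, y ∈ E ↔ y ∈ L :=
    ⟨L.toIntermediateField (fun y => hle y.2), fun y => Iff.rfl⟩
  rcases eq_bot_or_eq_top E with h | h
  · exfalso
    have h3 : x ∈ E := (hE x).mpr hxL
    rw [h, IntermediateField.mem_bot] at h3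
    obtain ⟨y, hy⟩ := h3
    apply hx
    rw [← hy]
    exact y.2
  · intro y
    rw [← hE y, h]
    exact IntermediateField.mem_top

theorem two_squares (c : F) : ∃ x y : F, x ^ 2 + y ^ 2 = c := by
  rcases Nat.even_or_odd (Fintype.card F) with he | ho
  · have h2 : ringChar F = 2 := FiniteField.even_card_iff_char_two.mpr (Nat.even_iff.mp he)
    obtain ⟨x, hx⟩ := FiniteField.isSquare_of_char_two h2 c
    exact ⟨x, 0, by rw [hx]; ring⟩
  · obtain ⟨x, y, h⟩ := Cfsg.Agent.S5644.exists_sq_sum ho 1 1 c one_ne_zero one_ne_zero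
    exact ⟨x, y, by linear_combination h⟩

/-- the data of a rational structure compatible with the symplectic form -/
structure RatP (F₀ : Subfield F) (ζ : F) (P Q : (Matrix (Fin m ⊕ Fin m) (Fin m ⊕ Fin m) F)) : Prop where
  z0 : ζ ≠ 0
  inv1 : ∀ v : (Fin m ⊕ Fin m → F), P *ᵥ (Q *ᵥ v) = v
  inv2 : ∀ v : (Fin m ⊕ Fin m → F), Q *ᵥ (P *ᵥ v) = v
  frat : ∀ x y : (Fin m ⊕ Fin m → F), IsRat F₀ P x → IsRat F₀ P y → ζ * Cfsg.sympForm m F x y ∈ F₀

variable {F₀ : Subfield F} {ζ : F} {P Q : (Matrix (Fin m ⊕ Fin m) (Fin m ⊕ Fin m) F)}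

theorem RatP.expand (R : RatP F₀ ζ P Q) (v : (Fin m ⊕ Fin m → F)) :
    v = ∑ j, (Q *ᵥ v) j • (P *ᵥ Pi.single j 1) := by
  conv_lhs => rw [← R.inv1 v]
  exact mulVec_expand P (Q *ᵥ v)

theorem RatP.col_ne_zero (R : RatP F₀ ζ P Q) (j : Fin m ⊕ Fin m) :
    P *ᵥ Pi.single j 1 ≠ 0 := by
  classical
  intro h0
  have h1 := R.inv2 (Pi.single j 1)
  rw [h0, Matrix.mulVec_zero] at h1
  have h2 := congrFun h1 j
  rw [Pi.single_eq_same, Pi.zero_apply] at h2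
  exact zero_ne_one h2

theorem RatP.span0 (R : RatP F₀ ζ P Q) (z : (Fin m ⊕ Fin m → F))
    (h : ∀ x, IsRat F₀ P x → Cfsg.sympForm m F x z = 0) : z = 0 := by
  classical
  by_contra hz
  obtain ⟨x, hx⟩ := S0768.nondeg z hz
  apply hx
  rw [R.expand x, sf_sum_right]
  apply Finset.sum_eq_zero
  intro j _
  rw [sf_swap, h _ (isRat_col F₀ P j), neg_zero, mul_zero]

theorem RatP.rat (R : RatP F₀ ζ P Q) (x : (Fin m ⊕ Fin m → F)) :
    ∃ x', IsRat F₀ P x' ∧ ∀ v, IsRat F₀ P v → ζ * Cfsg.sympForm m F x v ∈ F₀ → Cfsg.sympForm m F x' v = Cfsg.sympForm m F x v := by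
  classical
  obtain ⟨π, hπ1, hπ2, hπ3⟩ := exists_proj F₀
  refine ⟨P *ᵥ (fun j => π ((Q *ᵥ x) j)), ⟨_, fun j => hπ1 _, rfl⟩, ?_⟩
  intro v hv hmem
  have hg : ∀ j, ζ * Cfsg.sympForm m F (P *ᵥ Pi.single j 1) v ∈ F₀ :=
    fun j => R.frat _ _ (isRat_col F₀ P j) hv
  have e1 : ∀ u : (Fin m ⊕ Fin m → F), ζ * Cfsg.sympForm m F (P *ᵥ u) v
      = ∑ j, u j * (ζ * Cfsg.sympForm m F (P *ᵥ Pi.single j 1) v) := by
    intro u
    rw [mulVec_expand P u, sf_sum_left, Finset.mul_sum]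
    apply Finset.sum_congr rfl
    intro j _
    ring
  have e2 := e1 (fun j => π ((Q *ᵥ x) j))
  have e3 := e1 (Q *ᵥ x)
  rw [R.inv1] at e3
  have e4 : ζ * Cfsg.sympForm m F (P *ᵥ fun j => π ((Q *ᵥ x) j)) v = π (ζ * Cfsg.sympForm m F x v) := by
    rw [e2, e3, map_sum]
    apply Finset.sum_congr rfl
    intro j _
    rw [mul_comm ((Q *ᵥ x) j), hπ2 _ (hg j), mul_comm]
  rw [hπ3 _ hmem] at e4
  exact mul_left_cancel₀ R.z0 e4

theorem RatP.crit (R : RatP F₀ ζ P Q) (y : (Fin m ⊕ Fin m → F))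
    (h : ∀ w, IsRat F₀ P w → ζ * Cfsg.sympForm m F y w ∈ F₀) : IsRat F₀ P y := by
  obtain ⟨x', hx', hx'2⟩ := R.rat y
  have e : y - x' = 0 := by
    apply R.span0
    intro w hw
    rw [sf_sub_right, sf_swap w y, sf_swap w x', hx'2 w hw (h w hw)]
    ring
  rw [sub_eq_zero.mp e]
  exact hx'

theorem RatP.dual1 (R : RatP F₀ ζ P Q) (u : (Fin m ⊕ Fin m → F)) (hu : IsRat F₀ P u) (hu0 : u ≠ 0) :
    ∃ z, IsRat F₀ P z ∧ ζ * Cfsg.sympForm m F z u = 1 := by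
  have h1 : ∃ x, IsRat F₀ P x ∧ Cfsg.sympForm m F x u ≠ 0 := by
    by_contra hcon
    push Not at hcon
    exact hu0 (R.span0 u hcon)
  obtain ⟨x, hx, hxu⟩ := h1
  have hc : ζ * Cfsg.sympForm m F x u ≠ 0 := mul_ne_zero R.z0 hxu
  refine ⟨(ζ * Cfsg.sympForm m F x u)⁻¹ • x, isRat_smul _ (F₀.inv_mem (R.frat x u hx hu)) hx, ?_⟩
  rw [sf_smul_left]
  have hz0 := R.z0
  field_simp

theorem RatP.perp_span (R : RatP F₀ ζ P Q) (a u : (Fin m ⊕ Fin m → F)) (hu : IsRat F₀ P u) (hu0 : u ≠ 0)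
    (h : ∀ x, IsRat F₀ P x → Cfsg.sympForm m F x u = 0 → Cfsg.sympForm m F x a = 0) : ∃ c : F, a = c • u := by
  obtain ⟨w, hw, hwu⟩ := R.dual1 u hu hu0
  refine ⟨ζ * Cfsg.sympForm m F w a, ?_⟩
  have e : a - (ζ * Cfsg.sympForm m F w a) • u = 0 := by
    apply R.span0
    intro x hx
    have hx' : IsRat F₀ P (x - (ζ * Cfsg.sympForm m F x u) • w) :=
      isRat_sub hx (isRat_smul _ (R.frat x u hx hu) hw)
    have h1 := h _ hx' (by
      rw [sf_sub_left, sf_smul_left]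
      linear_combination (-(Cfsg.sympForm m F x u)) * hwu)
    rw [sf_sub_left, sf_smul_left] at h1
    rw [sf_sub_right, sf_smul_right]
    linear_combination h1
  exact sub_eq_zero.mp e

theorem RatP.dual2 (R : RatP F₀ ζ P Q) (u v : (Fin m ⊕ Fin m → F)) (hu : IsRat F₀ P u) (hv : IsRat F₀ P v)
    (h : ∀ c : F, u ≠ c • v) :
    ∃ z, IsRat F₀ P z ∧ Cfsg.sympForm m F z v = 0 ∧ ζ * Cfsg.sympForm m F z u = 1 := by
  have h1 : ∃ x, IsRat F₀ P x ∧ Cfsg.sympForm m F x v = 0 ∧ Cfsg.sympForm m F x u ≠ 0 := by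
    by_cases hv0 : v = 0
    · have hu0 : u ≠ 0 := by
        intro h0
        apply h 0
        rw [h0, zero_smul]
      obtain ⟨z, hz, hzu⟩ := R.dual1 u hu hu0
      refine ⟨z, hz, ?_, ?_⟩
      · rw [hv0, sf_zero_right]
      · intro h0
        rw [h0, mul_zero] at hzu
        exact zero_ne_one hzu
    · by_contra hcon
      push Not at hcon
      obtain ⟨c, hc⟩ := R.perp_span u v hv hv0 (fun x hx hxv => hcon x hx hxv)
      exact h c hc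
  obtain ⟨x, hx, hxv, hxu⟩ := h1
  have hc : ζ * Cfsg.sympForm m F x u ≠ 0 := mul_ne_zero R.z0 hxu
  refine ⟨(ζ * Cfsg.sympForm m F x u)⁻¹ • x, isRat_smul _ (F₀.inv_mem (R.frat x u hx hu)) hx, ?_, ?_⟩
  · rw [sf_smul_left, hxv, mul_zero]
  · rw [sf_smul_left]
    have hz0 := R.z0
    field_simp

theorem cutL (l : List (Fin m ⊕ Fin m → F)) : ∃ K : Submodule F (Fin m ⊕ Fin m → F),
    (∀ t ∈ K, ∀ a ∈ l, Cfsg.sympForm m F t a = 0) ∧ 2 * m ≤ Module.finrank F K + l.length := by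
  induction l with
  | nil =>
    refine ⟨⊤, fun t _ a ha => absurd ha List.not_mem_nil, ?_⟩
    rw [finrank_top, Module.finrank_fintype_fun_eq_card, Fintype.card_sum, Fintype.card_fin]
    simp only [List.length_nil]
    omega
  | cons a l ih =>
    obtain ⟨K, hK, hfr⟩ := ih
    refine ⟨cut K a, ?_, ?_⟩
    · intro t ht b hb
      rw [mem_cut] at ht
      rcases List.mem_cons.mp hb with rfl | hb'
      · exact ht.2
      · exact hK t ht.1 b hb'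
    · have h1 := cut_finrank K a
      rw [List.length_cons]
      omega

theorem RatP.perpL (R : RatP F₀ ζ P Q) (l : List (Fin m ⊕ Fin m → F)) (hl : ∀ a ∈ l, IsRat F₀ P a)
    (hlen : l.length < 2 * m) :
    ∃ z, IsRat F₀ P z ∧ z ≠ 0 ∧ ∀ a ∈ l, Cfsg.sympForm m F z a = 0 := by
  obtain ⟨K, hK, hfr⟩ := cutL (F := F) (m := m) l
  have hK0 : K ≠ ⊥ := by
    intro h0
    rw [h0, finrank_bot] at hfr
    omega
  obtain ⟨t, ht, ht0⟩ := Submodule.exists_mem_ne_zero_of_ne_bot hK0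
  have h1 : ∃ x, IsRat F₀ P x ∧ Cfsg.sympForm m F x t ≠ 0 := by
    by_contra hcon
    push Not at hcon
    exact ht0 (R.span0 t hcon)
  obtain ⟨v₀, hv₀, hv₀t⟩ := h1
  have hne : Cfsg.sympForm m F t v₀ ≠ 0 := by
    rw [sf_swap]
    exact neg_ne_zero.mpr hv₀t
  have hc : ζ * Cfsg.sympForm m F t v₀ ≠ 0 := mul_ne_zero R.z0 hne
  obtain ⟨t₁, ht₁⟩ : ∃ t₁, t₁ = (ζ * Cfsg.sympForm m F t v₀)⁻¹ • t := ⟨_, rfl⟩
  obtain ⟨x', hx', hx'2⟩ := R.rat t₁
  have e1 : ζ * Cfsg.sympForm m F t₁ v₀ = 1 := by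
    rw [ht₁, sf_smul_left]
    have hz0 := R.z0
    field_simp
  refine ⟨x', hx', ?_, ?_⟩
  · intro h0
    have h2 := hx'2 v₀ hv₀ (by rw [e1]; exact F₀.one_mem)
    rw [h0, sf_zero_left] at h2
    rw [← h2, mul_zero] at e1
    exact zero_ne_one e1
  · intro a ha
    have e2 : Cfsg.sympForm m F t₁ a = 0 := by
      rw [ht₁, sf_smul_left, hK t ht a ha, mul_zero]
    rw [hx'2 a (hl a ha) (by rw [e2, mul_zero]; exact F₀.zero_mem), e2]

theorem RatP.tv_rat (R : RatP F₀ ζ P Q) (w : (Fin m ⊕ Fin m → F)) (hw : IsRat F₀ P w) (s : F) (hs : s ∈ F₀)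
    (x : (Fin m ⊕ Fin m → F)) (hx : IsRat F₀ P x) :
    IsRat F₀ P ((tvS w (ζ * s) : (Matrix (Fin m ⊕ Fin m) (Fin m ⊕ Fin m) F)) *ᵥ x) := by
  rw [tvS_mulVec]
  refine isRat_add hx (isRat_smul _ ?_ hw)
  have e : ζ * s * Cfsg.sympForm m F x w = s * (ζ * Cfsg.sympForm m F x w) := by ring
  rw [e]
  exact F₀.mul_mem hs (R.frat x w hx hw)

end rat

section sfg

open scoped Pointwise

variable {F : Type*} [Field F] [Fintype F] {m : ℕ}

theorem gl_inv_mulVec' (a : (GL (Fin m ⊕ Fin m) F)) (x : (Fin m ⊕ Fin m → F)) : ((a⁻¹ : (GL (Fin m ⊕ Fin m) F)) : (Matrix (Fin m ⊕ Fin m) (Fin m ⊕ Fin m) F)) *ᵥ ((a : (Matrix (Fin m ⊕ Fin m) (Fin m ⊕ Fin m) F)) *ᵥ x) = x := by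
  rw [Matrix.mulVec_mulVec, ← Units.val_mul, inv_mul_cancel, Units.val_one, Matrix.one_mulVec]

theorem gl_mulVec_inv' (a : (GL (Fin m ⊕ Fin m) F)) (x : (Fin m ⊕ Fin m → F)) : (a : (Matrix (Fin m ⊕ Fin m) (Fin m ⊕ Fin m) F)) *ᵥ (((a⁻¹ : (GL (Fin m ⊕ Fin m) F)) : (Matrix (Fin m ⊕ Fin m) (Fin m ⊕ Fin m) F)) *ᵥ x) = x := by
  rw [Matrix.mulVec_mulVec, ← Units.val_mul, mul_inv_cancel, Units.val_one, Matrix.one_mulVec]

theorem scalars_normal : (Cfsg.Geo.scalars (Fin m ⊕ Fin m) F).Normal := by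
  constructor
  intro z hz g
  rw [Cfsg.Geo.mem_scalars_iff] at hz ⊢
  obtain ⟨c, hc⟩ := hz
  refine ⟨c, ?_⟩
  rw [Units.val_mul, Units.val_mul, hc, Matrix.mul_smul, Matrix.mul_one, Matrix.smul_mul,
    ← Units.val_mul, mul_inv_cancel, Units.val_one]

theorem mat_ext_cols (M N : (Matrix (Fin m ⊕ Fin m) (Fin m ⊕ Fin m) F))
    (h : ∀ j, M *ᵥ Pi.single j 1 = N *ᵥ Pi.single j 1) : M = N := by
  ext i j
  have h1 := congrFun (h j) i
  rw [Matrix.mulVec_single_one, Matrix.mulVec_single_one] at h1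
  exact h1

/-- a criterion for membership in the subfield group -/
theorem mem_sfg (F₀ : Subfield F) (P A : (GL (Fin m ⊕ Fin m) F)) (c : F) (hc : c ≠ 0)
    (X : (Matrix (Fin m ⊕ Fin m) (Fin m ⊕ Fin m) F)) (hX : ∀ i j, X i j ∈ F₀)
    (hA : (A : (Matrix (Fin m ⊕ Fin m) (Fin m ⊕ Fin m) F)) * (P : (Matrix (Fin m ⊕ Fin m) (Fin m ⊕ Fin m) F))
      = c • ((P : (Matrix (Fin m ⊕ Fin m) (Fin m ⊕ Fin m) F)) * X)) :
    A ∈ Cfsg.Geo.subfieldSubgroup F₀ P := by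
  classical
  have hdA : (A : (Matrix (Fin m ⊕ Fin m) (Fin m ⊕ Fin m) F)).det
      * ((A⁻¹ : (GL (Fin m ⊕ Fin m) F)) : (Matrix (Fin m ⊕ Fin m) (Fin m ⊕ Fin m) F)).det = 1 := by
    rw [← Matrix.det_mul, ← Units.val_mul, mul_inv_cancel, Units.val_one, Matrix.det_one]
  have hdP : (P : (Matrix (Fin m ⊕ Fin m) (Fin m ⊕ Fin m) F)).det
      * ((P⁻¹ : (GL (Fin m ⊕ Fin m) F)) : (Matrix (Fin m ⊕ Fin m) (Fin m ⊕ Fin m) F)).det = 1 := by
    rw [← Matrix.det_mul, ← Units.val_mul, mul_inv_cancel, Units.val_one, Matrix.det_one]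
  have hdet : X.det ≠ 0 := by
    intro h0
    have h1 := congrArg Matrix.det hA
    rw [Matrix.det_mul, Matrix.det_smul, Matrix.det_mul, h0, mul_zero, mul_zero] at h1
    rcases mul_eq_zero.mp h1 with h2 | h2
    · rw [h2, zero_mul] at hdA
      exact zero_ne_one hdA
    · rw [h2, zero_mul] at hdP
      exact zero_ne_one hdP
  obtain ⟨X₀, hX₀⟩ : ∃ X₀ : Matrix (Fin m ⊕ Fin m) (Fin m ⊕ Fin m) F₀, ∀ i j, (X₀ i j : F) = X i j :=
    ⟨fun i j => ⟨X i j, hX i j⟩, fun i j => rfl⟩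
  have hmap : (F₀.subtype : F₀ →+* F).mapMatrix X₀ = X := by
    ext i j
    exact hX₀ i j
  have hdet₀ : X₀.det ≠ 0 := by
    intro h0
    apply hdet
    rw [← hmap, ← RingHom.map_det, h0, map_zero]
  obtain ⟨G₀, hG₀⟩ : ∃ G₀ : GL (Fin m ⊕ Fin m) F₀, (G₀ : Matrix (Fin m ⊕ Fin m) (Fin m ⊕ Fin m) F₀) = X₀ :=
    ⟨Matrix.GeneralLinearGroup.mkOfDetNeZero X₀ hdet₀, rfl⟩
  obtain ⟨Z, hZ⟩ : ∃ Z : (GL (Fin m ⊕ Fin m) F), (Z : (Matrix (Fin m ⊕ Fin m) (Fin m ⊕ Fin m) F)) = c • 1 :=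
    ⟨Matrix.GeneralLinearGroup.mkOfDetNeZero (c • (1 : (Matrix (Fin m ⊕ Fin m) (Fin m ⊕ Fin m) F))) (by
      rw [Matrix.det_smul, Matrix.det_one, mul_one]
      exact pow_ne_zero _ hc), rfl⟩
  have hG : ((Matrix.GeneralLinearGroup.map (F₀.subtype : F₀ →+* F) G₀ : (GL (Fin m ⊕ Fin m) F)) :
      (Matrix (Fin m ⊕ Fin m) (Fin m ⊕ Fin m) F)) = X := by
    rw [← hmap, ← hG₀]
    rfl
  unfold Cfsg.Geo.subfieldSubgroup
  rw [Subgroup.mem_map]
  refine ⟨Matrix.GeneralLinearGroup.map (F₀.subtype : F₀ →+* F) G₀ * Z,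
    Subgroup.mul_mem_sup (MonoidHom.mem_range.mpr ⟨G₀, rfl⟩) ?_, ?_⟩
  · rw [Cfsg.Geo.mem_scalars_iff]
    exact ⟨Units.mk0 c hc, hZ⟩
  · have e : (MulAut.conj P).toMonoidHom
        (Matrix.GeneralLinearGroup.map (F₀.subtype : F₀ →+* F) G₀ * Z)
        = P * (Matrix.GeneralLinearGroup.map (F₀.subtype : F₀ →+* F) G₀ * Z) * P⁻¹ := rfl
    rw [e, mul_inv_eq_iff_eq_mul]
    apply Units.ext
    rw [Units.val_mul, Units.val_mul, Units.val_mul, hZ, hG, hA, Matrix.mul_smul,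
      Matrix.mul_one, Matrix.mul_smul]

/-- elements of the subfield group map rational vectors to multiples of rational vectors -/
theorem sfg_rat (F₀ : Subfield F) (P A : (GL (Fin m ⊕ Fin m) F))
    (hA : A ∈ Cfsg.Geo.subfieldSubgroup F₀ P) :
    ∃ c : F, ∀ u, IsRat F₀ (P : (Matrix (Fin m ⊕ Fin m) (Fin m ⊕ Fin m) F)) u →
      ∃ u', IsRat F₀ (P : (Matrix (Fin m ⊕ Fin m) (Fin m ⊕ Fin m) F)) u' ∧
        (A : (Matrix (Fin m ⊕ Fin m) (Fin m ⊕ Fin m) F)) *ᵥ u = c • u' := by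
  classical
  unfold Cfsg.Geo.subfieldSubgroup at hA
  rw [Subgroup.mem_map] at hA
  obtain ⟨k, hk, rfl⟩ := hA
  haveI : (Cfsg.Geo.scalars (Fin m ⊕ Fin m) F).Normal := scalars_normal
  have hk' : k ∈ (((Matrix.GeneralLinearGroup.map (F₀.subtype : F₀ →+* F)).range :
      Subgroup ((GL (Fin m ⊕ Fin m) F))) : Set ((GL (Fin m ⊕ Fin m) F)))
      * ((Cfsg.Geo.scalars (Fin m ⊕ Fin m) F : Subgroup ((GL (Fin m ⊕ Fin m) F))) : Set ((GL (Fin m ⊕ Fin m) F))) := by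
    rw [← Subgroup.mul_normal]
    exact hk
  obtain ⟨x, hx, z, hz, rfl⟩ := Set.mem_mul.mp hk'
  obtain ⟨G₀, rfl⟩ := MonoidHom.mem_range.mp hx
  obtain ⟨c, hc⟩ := (Cfsg.Geo.mem_scalars_iff z).mp hz
  refine ⟨(c : F), ?_⟩
  rintro u ⟨u₀, hu₀, rfl⟩
  obtain ⟨X, hXdef⟩ : ∃ X : (Matrix (Fin m ⊕ Fin m) (Fin m ⊕ Fin m) F),
      X = ((Matrix.GeneralLinearGroup.map (F₀.subtype : F₀ →+* F) G₀ : (GL (Fin m ⊕ Fin m) F)) :
        (Matrix (Fin m ⊕ Fin m) (Fin m ⊕ Fin m) F)) := ⟨_, rfl⟩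
  have hXe : ∀ i j, X i j ∈ F₀ := by
    intro i j
    rw [hXdef]
    exact ((G₀ : Matrix (Fin m ⊕ Fin m) (Fin m ⊕ Fin m) F₀) i j).2
  refine ⟨(P : (Matrix (Fin m ⊕ Fin m) (Fin m ⊕ Fin m) F)) *ᵥ (X *ᵥ u₀), ⟨X *ᵥ u₀, ?_, rfl⟩, ?_⟩
  · intro i
    show (∑ j, X i j * u₀ j) ∈ F₀
    exact F₀.sum_mem (fun j _ => F₀.mul_mem (hXe i j) (hu₀ j))
  · have e : (MulAut.conj P).toMonoidHom
        (Matrix.GeneralLinearGroup.map (F₀.subtype : F₀ →+* F) G₀ * z)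
        = P * (Matrix.GeneralLinearGroup.map (F₀.subtype : F₀ →+* F) G₀ * z) * P⁻¹ := rfl
    rw [e, Units.val_mul, Units.val_mul, Units.val_mul, hc, ← hXdef, ← Matrix.mulVec_mulVec,
      gl_inv_mulVec', Matrix.mul_smul, Matrix.mul_one, Matrix.mul_smul, Matrix.smul_mulVec,
      ← Matrix.mulVec_mulVec]


variable {F₀ : Subfield F} {ζ : F} {PG : (GL (Fin m ⊕ Fin m) F)} {Q : (Matrix (Fin m ⊕ Fin m) (Fin m ⊕ Fin m) F)}

theorem rat_mem_sfg (F₀ : Subfield F) (PG : (GL (Fin m ⊕ Fin m) F)) (A : (Matrix.symplecticGroup (Fin m) F))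
    (h : ∀ x, IsRat F₀ (PG : (Matrix (Fin m ⊕ Fin m) (Fin m ⊕ Fin m) F)) x → IsRat F₀ (PG : (Matrix (Fin m ⊕ Fin m) (Fin m ⊕ Fin m) F)) ((A : (Matrix (Fin m ⊕ Fin m) (Fin m ⊕ Fin m) F)) *ᵥ x)) :
    ((toGHom m F A : ↥(Cfsg.spGL m F)) : (GL (Fin m ⊕ Fin m) F)) ∈ Cfsg.Geo.subfieldSubgroup F₀ PG := by
  classical
  have h1 : ∀ j, ∃ u : (Fin m ⊕ Fin m → F), (∀ i, u i ∈ F₀) ∧
      (A : (Matrix (Fin m ⊕ Fin m) (Fin m ⊕ Fin m) F)) *ᵥ ((PG : (Matrix (Fin m ⊕ Fin m) (Fin m ⊕ Fin m) F)) *ᵥ Pi.single j 1) = (PG : (Matrix (Fin m ⊕ Fin m) (Fin m ⊕ Fin m) F)) *ᵥ u :=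
    fun j => h _ (isRat_col F₀ _ j)
  choose u hu1 hu2 using h1
  apply mem_sfg F₀ PG _ 1 one_ne_zero (Matrix.of fun i j => u j i) (fun i j => hu1 j i)
  rw [one_smul]
  apply mat_ext_cols
  intro j
  rw [← Matrix.mulVec_mulVec, ← Matrix.mulVec_mulVec]
  have e : (Matrix.of fun i j => u j i) *ᵥ Pi.single j 1 = u j := by
    rw [Matrix.mulVec_single_one]
    rfl
  rw [e]
  exact hu2 j

theorem RatP.mem_of_points (R : RatP F₀ ζ (PG : (Matrix (Fin m ⊕ Fin m) (Fin m ⊕ Fin m) F)) Q) (hm : 1 ≤ m) (A : (Matrix.symplecticGroup (Fin m) F))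
    (h : ∀ x, IsRat F₀ (PG : (Matrix (Fin m ⊕ Fin m) (Fin m ⊕ Fin m) F)) x → ∃ (c : F) (x' : (Fin m ⊕ Fin m → F)), IsRat F₀ (PG : (Matrix (Fin m ⊕ Fin m) (Fin m ⊕ Fin m) F)) x' ∧
      (A : (Matrix (Fin m ⊕ Fin m) (Fin m ⊕ Fin m) F)) *ᵥ x = c • x') :
    ((toGHom m F A : ↥(Cfsg.spGL m F)) : (GL (Fin m ⊕ Fin m) F)) ∈ Cfsg.Geo.subfieldSubgroup F₀ PG := by
  classical
  have hcol0 := R.col_ne_zero
  have hinj : ∀ x : (Fin m ⊕ Fin m → F), (A : (Matrix (Fin m ⊕ Fin m) (Fin m ⊕ Fin m) F)) *ᵥ x = 0 → x = 0 := by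
    intro x hx
    have h1 := sp_inv_mulVec A x
    rw [hx, Matrix.mulVec_zero] at h1
    exact h1.symm
  have h1 : ∀ j, ∃ (c : F) (w : (Fin m ⊕ Fin m → F)), IsRat F₀ (PG : (Matrix (Fin m ⊕ Fin m) (Fin m ⊕ Fin m) F)) w ∧
      (A : (Matrix (Fin m ⊕ Fin m) (Fin m ⊕ Fin m) F)) *ᵥ ((PG : (Matrix (Fin m ⊕ Fin m) (Fin m ⊕ Fin m) F)) *ᵥ Pi.single j 1) = c • w := fun j => h _ (isRat_col F₀ _ j)
  choose c w hw hcw using h1
  have hc0 : ∀ j, c j ≠ 0 := by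
    intro j h0
    apply hcol0 j
    apply hinj
    rw [hcw j, h0, zero_smul]
  obtain ⟨j₀⟩ : Nonempty (Fin m ⊕ Fin m) := ⟨Sum.inl ⟨0, by omega⟩⟩
  have key : ∀ j, c j / c j₀ ∈ F₀ := by
    intro j
    by_cases hj : j = j₀
    · rw [hj, div_self (hc0 j₀)]
      exact F₀.one_mem
    have hind : ∀ t : F, w j ≠ t • w j₀ := by
      intro t ht
      have e1 : (A : (Matrix (Fin m ⊕ Fin m) (Fin m ⊕ Fin m) F)) *ᵥ ((PG : (Matrix (Fin m ⊕ Fin m) (Fin m ⊕ Fin m) F)) *ᵥ Pi.single j 1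
          - (c j * t / c j₀) • ((PG : (Matrix (Fin m ⊕ Fin m) (Fin m ⊕ Fin m) F)) *ᵥ Pi.single j₀ 1)) = 0 := by
        rw [Matrix.mulVec_sub, Matrix.mulVec_smul, hcw j, hcw j₀, ht, smul_smul, smul_smul,
          sub_eq_zero]
        congr 1
        have := hc0 j₀
        field_simp
      have e2 := hinj _ e1
      have e3 := congrArg (fun v => Q *ᵥ v) e2
      simp only [Matrix.mulVec_sub, Matrix.mulVec_smul, R.inv2, Matrix.mulVec_zero] at e3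
      have e4 := congrFun e3 j
      simp only [Pi.sub_apply, Pi.smul_apply, Pi.single_eq_same, Pi.single_eq_of_ne hj,
        Pi.zero_apply, smul_eq_mul, mul_zero, sub_zero] at e4
      exact one_ne_zero e4
    have hind' : ∀ t : F, w j₀ ≠ t • w j := by
      intro t ht
      by_cases ht0 : t = 0
      · apply hcol0 j₀
        apply hinj
        rw [hcw j₀, ht, ht0, zero_smul, smul_zero]
      · apply hind t⁻¹
        rw [ht, smul_smul, inv_mul_cancel₀ ht0, one_smul]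
    obtain ⟨c', w', hw', hcw'⟩ := h _ (isRat_add (isRat_col F₀ _ j) (isRat_col F₀ _ j₀))
    rw [Matrix.mulVec_add, hcw j, hcw j₀] at hcw'
    obtain ⟨z, hz, hz1, hz2⟩ := R.dual2 (w j) (w j₀) (hw j) (hw j₀) hind
    obtain ⟨z', hz', hz'1, hz'2⟩ := R.dual2 (w j₀) (w j) (hw j₀) (hw j) hind'
    have e1 := congrArg (fun v => ζ * Cfsg.sympForm m F z v) hcw'
    simp only [sf_add_right, sf_smul_right, hz1, mul_zero, add_zero] at e1
    have e2 := congrArg (fun v => ζ * Cfsg.sympForm m F z' v) hcw'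
    simp only [sf_add_right, sf_smul_right, hz'1, mul_zero, zero_add] at e2
    have f1 : c j = c' * (ζ * Cfsg.sympForm m F z w') := by linear_combination e1 - c j * hz2
    have f2 : c j₀ = c' * (ζ * Cfsg.sympForm m F z' w') := by linear_combination e2 - c j₀ * hz'2
    have hc' : c' ≠ 0 := by
      intro h0
      apply hc0 j₀
      rw [f2, h0, zero_mul]
    have hq : ζ * Cfsg.sympForm m F z' w' ≠ 0 := by
      intro h0
      apply hc0 j₀
      rw [f2, h0, mul_zero]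
    have e3 : c j / c j₀ = (ζ * Cfsg.sympForm m F z w') * (ζ * Cfsg.sympForm m F z' w')⁻¹ := by
      rw [f1, f2]
      field_simp
    rw [e3]
    exact F₀.mul_mem (R.frat z w' hz hw') (F₀.inv_mem (R.frat z' w' hz' hw'))
  have h2 : ∀ j, ∃ u : (Fin m ⊕ Fin m → F), (∀ i, u i ∈ F₀) ∧ (c j / c j₀) • w j = (PG : (Matrix (Fin m ⊕ Fin m) (Fin m ⊕ Fin m) F)) *ᵥ u :=
    fun j => isRat_smul _ (key j) (hw j)
  choose u hu1 hu2 using h2
  apply mem_sfg F₀ PG _ (c j₀) (hc0 j₀) (Matrix.of fun i j => u j i) (fun i j => hu1 j i)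
  apply mat_ext_cols
  intro j
  rw [← Matrix.mulVec_mulVec, Matrix.smul_mulVec, ← Matrix.mulVec_mulVec]
  have e : (Matrix.of fun i j => u j i) *ᵥ Pi.single j 1 = u j := by
    rw [Matrix.mulVec_single_one]
    rfl
  have e5 : c j₀ * (c j / c j₀) = c j := by
    have := hc0 j₀
    field_simp
  rw [e, ← hu2 j, smul_smul, e5]
  exact hcw j

theorem RatP.sfg_fix (R : RatP F₀ ζ (PG : (Matrix (Fin m ⊕ Fin m) (Fin m ⊕ Fin m) F)) Q) (A : (Matrix.symplecticGroup (Fin m) F))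
    (hA : ((toGHom m F A : ↥(Cfsg.spGL m F)) : (GL (Fin m ⊕ Fin m) F)) ∈ Cfsg.Geo.subfieldSubgroup F₀ PG)
    (u : (Fin m ⊕ Fin m → F)) (hu : IsRat F₀ (PG : (Matrix (Fin m ⊕ Fin m) (Fin m ⊕ Fin m) F)) u) (hu0 : u ≠ 0) (hfix : (A : (Matrix (Fin m ⊕ Fin m) (Fin m ⊕ Fin m) F)) *ᵥ u = u) :
    ∀ x, IsRat F₀ (PG : (Matrix (Fin m ⊕ Fin m) (Fin m ⊕ Fin m) F)) x → IsRat F₀ (PG : (Matrix (Fin m ⊕ Fin m) (Fin m ⊕ Fin m) F)) ((A : (Matrix (Fin m ⊕ Fin m) (Fin m ⊕ Fin m) F)) *ᵥ x) := by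
  obtain ⟨c, hc⟩ := sfg_rat F₀ PG _ hA
  obtain ⟨u', hu', hcu⟩ := hc u hu
  have hcu' : u = c • u' := hfix.symm.trans hcu
  obtain ⟨z, hz, hzu⟩ := R.dual1 u hu hu0
  have hc0 : c ≠ 0 := by
    intro h0
    apply hu0
    rw [hcu', h0, zero_smul]
  have hcF : c ∈ F₀ := by
    have e1 : c * (ζ * Cfsg.sympForm m F z u') = 1 := by
      have h3 : ζ * Cfsg.sympForm m F z (c • u') = 1 := by rw [← hcu']; exact hzu
      rw [sf_smul_right] at h3
      linear_combination h3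
    have e2 : c = (ζ * Cfsg.sympForm m F z u')⁻¹ := eq_inv_of_mul_eq_one_left e1
    rw [e2]
    exact F₀.inv_mem (R.frat z u' hz hu')
  intro x hx
  obtain ⟨x', hx', hcx⟩ := hc x hx
  have e : (A : (Matrix (Fin m ⊕ Fin m) (Fin m ⊕ Fin m) F)) *ᵥ x = c • x' := hcx
  rw [e]
  exact isRat_smul c hcF hx'

theorem RatP.exists_not_sfg (R : RatP F₀ ζ (PG : (Matrix (Fin m ⊕ Fin m) (Fin m ⊕ Fin m) F)) Q) (hm : 1 ≤ m) (ω : F) (hω : ω ∉ F₀) :
    ∃ A : (Matrix.symplecticGroup (Fin m) F), ((toGHom m F A : ↥(Cfsg.spGL m F)) : (GL (Fin m ⊕ Fin m) F)) ∉ Cfsg.Geo.subfieldSubgroup F₀ PG := by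
  classical
  obtain ⟨j₀⟩ : Nonempty (Fin m ⊕ Fin m) := ⟨Sum.inl ⟨0, by omega⟩⟩
  obtain ⟨w, hw⟩ : ∃ w : (Fin m ⊕ Fin m → F), w = (PG : (Matrix (Fin m ⊕ Fin m) (Fin m ⊕ Fin m) F)) *ᵥ Pi.single j₀ 1 := ⟨_, rfl⟩
  have hwr : IsRat F₀ (PG : (Matrix (Fin m ⊕ Fin m) (Fin m ⊕ Fin m) F)) w := by
    rw [hw]
    exact isRat_col F₀ _ j₀
  have hw0 : w ≠ 0 := by
    rw [hw]
    exact R.col_ne_zero j₀
  obtain ⟨z, hz, hzw⟩ := R.dual1 w hwr hw0
  refine ⟨tvS w (ζ * ω), fun hmem => ?_⟩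
  have hfix : (tvS w (ζ * ω) : (Matrix (Fin m ⊕ Fin m) (Fin m ⊕ Fin m) F)) *ᵥ w = w := by
    rw [tvS_mulVec, sf_self, mul_zero, zero_smul, add_zero]
  have h1 := R.sfg_fix _ hmem w hwr hw0 hfix z hz
  rw [tvS_mulVec] at h1
  have e : ζ * ω * Cfsg.sympForm m F z w = ω := by linear_combination ω * hzw
  rw [e] at h1
  have h2 : IsRat F₀ (PG : (Matrix (Fin m ⊕ Fin m) (Fin m ⊕ Fin m) F)) (ω • w) := by
    have := isRat_sub h1 hz
    rwa [add_sub_cancel_left] at this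
  have h3 := R.frat z (ω • w) hz h2
  rw [sf_smul_right] at h3
  have e2 : ζ * (ω * Cfsg.sympForm m F z w) = ω := by linear_combination ω * hzw
  rw [e2] at h3
  exact hω h3

end sfg

section step1

variable {F : Type*} [Field F] [Fintype F] {m : ℕ}

theorem hh_add (a b : (Fin m ⊕ Fin m → F)) (hab : Cfsg.sympForm m F a b = 0) (c d : F) :
    hh a b (c + d) = hh a b c * hh a b d := by
  have hba : Cfsg.sympForm m F b a = 0 := by rw [sf_swap, hab, neg_zero]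
  apply sp_ext
  intro x
  simp only [sp_coe_mul, ← Matrix.mulVec_mulVec, hh_mulVec a b hab]
  simp only [sf_add_left, sf_smul_left, sf_self, hab, hba, mul_zero, add_zero]
  module

theorem hh_zero (a b : (Fin m ⊕ Fin m → F)) (hab : Cfsg.sympForm m F a b = 0) : hh a b (0 : F) = 1 := by
  apply sp_ext
  intro x
  rw [hh_mulVec a b hab, sp_coe_one, Matrix.one_mulVec, zero_mul, zero_smul, zero_mul, zero_smul,
    add_zero, add_zero]

theorem hh_neg (a b : (Fin m ⊕ Fin m → F)) (hab : Cfsg.sympForm m F a b = 0) (c : F) : hh a b (-c) = (hh a b c)⁻¹ := by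
  apply eq_inv_of_mul_eq_one_left
  rw [← hh_add a b hab, neg_add_cancel, hh_zero a b hab]

theorem hh_add_left (a a' b : (Fin m ⊕ Fin m → F)) (hab : Cfsg.sympForm m F a b = 0) (ha'b : Cfsg.sympForm m F a' b = 0) (haa' : Cfsg.sympForm m F a a' = 0)
    (μ c : F) : hh (a + μ • a') b c = hh a' b (c * μ) * hh a b c := by
  have hba : Cfsg.sympForm m F b a = 0 := by rw [sf_swap, hab, neg_zero]
  have hba' : Cfsg.sympForm m F b a' = 0 := by rw [sf_swap, ha'b, neg_zero]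
  have ha'a : Cfsg.sympForm m F a' a = 0 := by rw [sf_swap, haa', neg_zero]
  have h0 : Cfsg.sympForm m F (a + μ • a') b = 0 := by
    rw [sf_add_left, sf_smul_left, hab, ha'b, mul_zero, add_zero]
  apply sp_ext
  intro x
  simp only [sp_coe_mul, ← Matrix.mulVec_mulVec, hh_mulVec a b hab, hh_mulVec a' b ha'b,
    hh_mulVec _ b h0]
  simp only [sf_add_left, sf_add_right, sf_smul_left, sf_smul_right, sf_self, hab, ha'b, haa',
    hba, hba', ha'a, mul_zero, add_zero, zero_add]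
  module

theorem yf (v u : (Fin m ⊕ Fin m → F)) (hvu : Cfsg.sympForm m F v u = 0) (μ c : F) (x : (Fin m ⊕ Fin m → F)) :
    ((tvS (v + μ • u) c * tvS v (-c) : (Matrix.symplecticGroup (Fin m) F)) : (Matrix (Fin m ⊕ Fin m) (Fin m ⊕ Fin m) F)) *ᵥ x
      = x + (c * μ * Cfsg.sympForm m F x v) • u + (c * μ * Cfsg.sympForm m F x u) • v + (c * μ ^ 2 * Cfsg.sympForm m F x u) • u := by
  have huv : Cfsg.sympForm m F u v = 0 := by rw [sf_swap, hvu, neg_zero]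
  simp only [sp_coe_mul, ← Matrix.mulVec_mulVec, tvS_mulVec]
  simp only [sf_add_left, sf_add_right, sf_smul_left, sf_smul_right, sf_self, hvu, huv, mul_zero,
    add_zero, zero_add]
  module

theorem long_of_short (a b : (Fin m ⊕ Fin m → F)) (hba : Cfsg.sympForm m F b a = 0) (μ c : F) :
    tvS (b + μ • a) c * tvS b (-c) = hh a b (c * μ) * tvS a (c * μ ^ 2) := by
  have hab : Cfsg.sympForm m F a b = 0 := by rw [sf_swap, hba, neg_zero]
  apply sp_ext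
  intro x
  rw [yf b a hba μ c x]
  simp only [sp_coe_mul, ← Matrix.mulVec_mulVec, hh_mulVec a b hab, tvS_mulVec]
  simp only [sf_add_left, sf_smul_left, sf_self, hab, hba, mul_zero, add_zero]
  module

variable {F₀ : Subfield F} {ζ : F} {P Q : (Matrix (Fin m ⊕ Fin m) (Fin m ⊕ Fin m) F)}

theorem hh_rat_mem (M : Subgroup (Matrix.symplecticGroup (Fin m) F))
    (hK : ∀ w, IsRat F₀ P w → ∀ s ∈ F₀, tvS w (ζ * s) ∈ M)
    (a b : (Fin m ⊕ Fin m → F)) (ha : IsRat F₀ P a) (hb : IsRat F₀ P b) (s : F) (hs : s ∈ F₀) :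
    hh a b (ζ * s) ∈ M := by
  unfold hh
  have e : -(ζ * s) = ζ * (-s) := by ring
  rw [e]
  exact M.mul_mem (M.mul_mem (hK _ (isRat_add ha hb) s hs) (hK a ha _ (F₀.neg_mem hs)))
    (hK b hb _ (F₀.neg_mem hs))

theorem RatP.tmove (R : RatP F₀ ζ P Q) (M : Subgroup (Matrix.symplecticGroup (Fin m) F))
    (hK : ∀ w, IsRat F₀ P w → ∀ s ∈ F₀, tvS w (ζ * s) ∈ M)
    (x z : (Fin m ⊕ Fin m → F)) (hx : IsRat F₀ P x) (hz : IsRat F₀ P z) (hxz : Cfsg.sympForm m F x z ≠ 0) :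
    ∃ k ∈ M, (∀ v, IsRat F₀ P v → IsRat F₀ P ((k : (Matrix (Fin m ⊕ Fin m) (Fin m ⊕ Fin m) F)) *ᵥ v)) ∧ (k : (Matrix (Fin m ⊕ Fin m) (Fin m ⊕ Fin m) F)) *ᵥ x = z ∧
      ∀ v, Cfsg.sympForm m F v (x - z) = 0 → (k : (Matrix (Fin m ⊕ Fin m) (Fin m ⊕ Fin m) F)) *ᵥ v = v := by
  have hs : (ζ * Cfsg.sympForm m F x z)⁻¹ ∈ F₀ := F₀.inv_mem (R.frat x z hx hz)
  have hxzr : IsRat F₀ P (x - z) := isRat_sub hx hz
  refine ⟨tvS (x - z) (ζ * (ζ * Cfsg.sympForm m F x z)⁻¹), hK _ hxzr _ hs,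
    fun v hv => R.tv_rat _ hxzr _ hs v hv, ?_, ?_⟩
  · rw [tvS_mulVec, sf_sub_right, sf_self, zero_sub]
    have hz0 := R.z0
    have e : ζ * (ζ * Cfsg.sympForm m F x z)⁻¹ * (-Cfsg.sympForm m F x z) = -1 := by field_simp
    rw [e]
    module
  · intro v hv
    rw [tvS_mulVec, hv, mul_zero, zero_smul, add_zero]

theorem RatP.two_hyp (R : RatP F₀ ζ P Q) (a c : (Fin m ⊕ Fin m → F)) (ha : IsRat F₀ P a) (hc : IsRat F₀ P c)
    (ha0 : a ≠ 0) (hc0 : c ≠ 0) : ∃ z, IsRat F₀ P z ∧ Cfsg.sympForm m F a z ≠ 0 ∧ Cfsg.sympForm m F z c ≠ 0 := by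
  obtain ⟨z₁, hz₁, h1⟩ := R.dual1 a ha ha0
  obtain ⟨z₂, hz₂, h2⟩ := R.dual1 c hc hc0
  have h1' : Cfsg.sympForm m F a z₁ ≠ 0 := by
    intro h0
    rw [sf_swap, h0, neg_zero, mul_zero] at h1
    exact zero_ne_one h1
  have h2' : Cfsg.sympForm m F z₂ c ≠ 0 := by
    intro h0
    rw [h0, mul_zero] at h2
    exact zero_ne_one h2
  by_cases c1 : Cfsg.sympForm m F z₁ c = 0
  · by_cases c2 : Cfsg.sympForm m F a z₂ = 0
    · refine ⟨z₁ + z₂, isRat_add hz₁ hz₂, ?_, ?_⟩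
      · rw [sf_add_right, c2, add_zero]
        exact h1'
      · rw [sf_add_left, c1, zero_add]
        exact h2'
    · exact ⟨z₂, hz₂, c2, h2'⟩
  · exact ⟨z₁, hz₁, h1', c1⟩

theorem RatP.two_hyp_perp (R : RatP F₀ ζ P Q) (c b d : (Fin m ⊕ Fin m → F)) (hc : IsRat F₀ P c) (hc0 : c ≠ 0)
    (hb : ∀ t : F, b ≠ t • c) (hd : ∀ t : F, d ≠ t • c) :
    ∃ z, IsRat F₀ P z ∧ Cfsg.sympForm m F z c = 0 ∧ Cfsg.sympForm m F z b ≠ 0 ∧ Cfsg.sympForm m F z d ≠ 0 := by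
  have h1 : ∃ x, IsRat F₀ P x ∧ Cfsg.sympForm m F x c = 0 ∧ Cfsg.sympForm m F x b ≠ 0 := by
    by_contra hcon
    push Not at hcon
    obtain ⟨t, ht⟩ := R.perp_span b c hc hc0 (fun x hx hxc => hcon x hx hxc)
    exact hb t ht
  have h2 : ∃ x, IsRat F₀ P x ∧ Cfsg.sympForm m F x c = 0 ∧ Cfsg.sympForm m F x d ≠ 0 := by
    by_contra hcon
    push Not at hcon
    obtain ⟨t, ht⟩ := R.perp_span d c hc hc0 (fun x hx hxc => hcon x hx hxc)
    exact hd t ht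
  obtain ⟨x₁, hx₁, hx₁c, hx₁b⟩ := h1
  obtain ⟨x₂, hx₂, hx₂c, hx₂d⟩ := h2
  by_cases c1 : Cfsg.sympForm m F x₁ d = 0
  · by_cases c2 : Cfsg.sympForm m F x₂ b = 0
    · refine ⟨x₁ + x₂, isRat_add hx₁ hx₂, ?_, ?_, ?_⟩
      · rw [sf_add_left, hx₁c, hx₂c, add_zero]
      · rw [sf_add_left, c2, add_zero]
        exact hx₁b
      · rw [sf_add_left, c1, zero_add]
        exact hx₂d
    · exact ⟨x₂, hx₂, hx₂c, c2, hx₂d⟩
  · exact ⟨x₁, hx₁, hx₁c, hx₁b, c1⟩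

/-- a rational orthogonal independent pair -/
def Good (F₀ : Subfield F) (P : (Matrix (Fin m ⊕ Fin m) (Fin m ⊕ Fin m) F)) (a b : (Fin m ⊕ Fin m → F)) : Prop :=
  IsRat F₀ P a ∧ IsRat F₀ P b ∧ a ≠ 0 ∧ Cfsg.sympForm m F a b = 0 ∧ ∀ t : F, b ≠ t • a

theorem RatP.pi_trans (R : RatP F₀ ζ P Q) (M : Subgroup (Matrix.symplecticGroup (Fin m) F))
    (hK : ∀ w, IsRat F₀ P w → ∀ s ∈ F₀, tvS w (ζ * s) ∈ M) (e : F)
    (a b : (Fin m ⊕ Fin m → F)) (hab : Good F₀ P a b) (h : hh a b e ∈ M) (c d : (Fin m ⊕ Fin m → F)) (hcd : Good F₀ P c d) :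
    hh c d e ∈ M := by
  obtain ⟨ha, hb, ha0, habo, habi⟩ := hab
  obtain ⟨hc, hd, hc0, hcdo, hcdi⟩ := hcd
  obtain ⟨z, hz, haz, hzc⟩ := R.two_hyp a c ha hc ha0 hc0
  obtain ⟨k₁, hk₁M, hk₁r, hk₁a, -⟩ := R.tmove M hK a z ha hz haz
  obtain ⟨k₂, hk₂M, hk₂r, hk₂z, -⟩ := R.tmove M hK z c hz hc hzc
  have hg : (k₂ * k₁) * hh a b e * (k₂ * k₁)⁻¹ ∈ M :=
    M.mul_mem (M.mul_mem (M.mul_mem hk₂M hk₁M) h) (M.inv_mem (M.mul_mem hk₂M hk₁M))
  rw [hh_conj, sp_coe_mul, ← Matrix.mulVec_mulVec, ← Matrix.mulVec_mulVec, hk₁a, hk₂z] at hg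
  obtain ⟨b₂, hb₂⟩ : ∃ b₂ : (Fin m ⊕ Fin m → F), b₂ = (k₂ : (Matrix (Fin m ⊕ Fin m) (Fin m ⊕ Fin m) F)) *ᵥ ((k₁ : (Matrix (Fin m ⊕ Fin m) (Fin m ⊕ Fin m) F)) *ᵥ b) := ⟨_, rfl⟩
  rw [← hb₂] at hg
  have hb₂r : IsRat F₀ P b₂ := by
    rw [hb₂]
    exact hk₂r _ (hk₁r _ hb)
  have e0 : c = (k₂ : (Matrix (Fin m ⊕ Fin m) (Fin m ⊕ Fin m) F)) *ᵥ ((k₁ : (Matrix (Fin m ⊕ Fin m) (Fin m ⊕ Fin m) F)) *ᵥ a) := by rw [hk₁a, hk₂z]
  have hcb₂ : Cfsg.sympForm m F c b₂ = 0 := by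
    rw [hb₂, e0, sp_preserves, sp_preserves]
    exact habo
  have hb₂i : ∀ t : F, b₂ ≠ t • c := by
    intro t ht
    apply habi t
    have e1 : (k₂ : (Matrix (Fin m ⊕ Fin m) (Fin m ⊕ Fin m) F)) *ᵥ ((k₁ : (Matrix (Fin m ⊕ Fin m) (Fin m ⊕ Fin m) F)) *ᵥ b) = (k₂ : (Matrix (Fin m ⊕ Fin m) (Fin m ⊕ Fin m) F)) *ᵥ ((k₁ : (Matrix (Fin m ⊕ Fin m) (Fin m ⊕ Fin m) F)) *ᵥ (t • a)) := by
      rw [Matrix.mulVec_smul, Matrix.mulVec_smul, hk₁a, hk₂z, ← hb₂]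
      exact ht
    have e2 := congrArg (fun v => ((k₂⁻¹ : (Matrix.symplecticGroup (Fin m) F)) : (Matrix (Fin m ⊕ Fin m) (Fin m ⊕ Fin m) F)) *ᵥ v) e1
    simp only [sp_inv_mulVec] at e2
    have e3 := congrArg (fun v => ((k₁⁻¹ : (Matrix.symplecticGroup (Fin m) F)) : (Matrix (Fin m ⊕ Fin m) (Fin m ⊕ Fin m) F)) *ᵥ v) e2
    simp only [sp_inv_mulVec] at e3
    exact e3
  obtain ⟨z', hz', hz'c, hz'b, hz'd⟩ := R.two_hyp_perp c b₂ d hc hc0 hb₂i hcdi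
  have hb₂z' : Cfsg.sympForm m F b₂ z' ≠ 0 := by
    rw [sf_swap]
    exact neg_ne_zero.mpr hz'b
  obtain ⟨k₃, hk₃M, -, hk₃b, hk₃fix⟩ := R.tmove M hK b₂ z' hb₂r hz' hb₂z'
  obtain ⟨k₄, hk₄M, -, hk₄z, hk₄fix⟩ := R.tmove M hK z' d hz' hd hz'd
  have hcz' : Cfsg.sympForm m F c z' = 0 := by rw [sf_swap, hz'c, neg_zero]
  have h3 : (k₃ : (Matrix (Fin m ⊕ Fin m) (Fin m ⊕ Fin m) F)) *ᵥ c = c := hk₃fix c (by rw [sf_sub_right, hcb₂, hcz', sub_zero])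
  have h4 : (k₄ : (Matrix (Fin m ⊕ Fin m) (Fin m ⊕ Fin m) F)) *ᵥ c = c := hk₄fix c (by rw [sf_sub_right, hcz', hcdo, sub_zero])
  have hg2 : (k₄ * k₃) * hh c b₂ e * (k₄ * k₃)⁻¹ ∈ M :=
    M.mul_mem (M.mul_mem (M.mul_mem hk₄M hk₃M) hg) (M.inv_mem (M.mul_mem hk₄M hk₃M))
  rw [hh_conj, sp_coe_mul, ← Matrix.mulVec_mulVec, ← Matrix.mulVec_mulVec, h3, h4, hk₃b,
    hk₄z] at hg2
  exact hg2

set_option maxHeartbeats 1000000 in
theorem RatP.top_of_notR (R : RatP F₀ ζ P Q) (hm : 7 ≤ m) (r : ℕ) (hr : r.Prime)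
    (hcard : Fintype.card F = Nat.card F₀ ^ r)
    (M : Subgroup (Matrix.symplecticGroup (Fin m) F)) (hK : ∀ w, IsRat F₀ P w → ∀ s ∈ F₀, tvS w (ζ * s) ∈ M)
    (u : (Fin m ⊕ Fin m → F)) (hu : IsRat F₀ P u) (hu0 : u ≠ 0) (y : (Matrix.symplecticGroup (Fin m) F)) (hy : y ∈ M) (ψ : (Fin m ⊕ Fin m → F) → F)
    (hyu : (y : (Matrix (Fin m ⊕ Fin m) (Fin m ⊕ Fin m) F)) *ᵥ u = u) (hyψ : ∀ x, Cfsg.sympForm m F x u = 0 → (y : (Matrix (Fin m ⊕ Fin m) (Fin m ⊕ Fin m) F)) *ᵥ x = x + ψ x • u)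
    (x₀ : (Fin m ⊕ Fin m → F)) (hx₀ : IsRat F₀ P x₀) (hx₀u : Cfsg.sympForm m F x₀ u = 0) (hlam0 : ψ x₀ ∉ F₀) : M = ⊤ := by
  have hz0 := R.z0
  obtain ⟨lam, hlam⟩ : ∃ lam, lam = ψ x₀ := ⟨_, rfl⟩
  rw [← hlam] at hlam0
  have hux₀ : Cfsg.sympForm m F u x₀ = 0 := by rw [sf_swap, hx₀u, neg_zero]
  have hx₀i : ∀ t : F, x₀ ≠ t • u := by
    intro t ht
    have h1 := hyψ x₀ hx₀u
    rw [← hlam] at h1
    have h2 : (y : (Matrix (Fin m ⊕ Fin m) (Fin m ⊕ Fin m) F)) *ᵥ x₀ = x₀ := by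
      conv_lhs => rw [ht, Matrix.mulVec_smul, hyu]
      exact ht.symm
    rw [h2] at h1
    have h5 : lam • u = 0 := by
      rw [← sub_eq_zero] at h1
      rw [← neg_eq_zero, ← h1]
      abel
    rcases smul_eq_zero.mp h5 with h4 | h4
    · apply hlam0
      rw [h4]
      exact F₀.zero_mem
    · exact hu0 h4
  have hY : tvS (x₀ + lam • u) ζ * tvS x₀ (-ζ) ∈ M := by
    have h1 : tvS x₀ ζ ∈ M := by
      have := hK x₀ hx₀ 1 F₀.one_mem
      rwa [mul_one] at this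
    have h2 := M.mul_mem (M.mul_mem (M.mul_mem hy h1) (M.inv_mem hy)) (M.inv_mem h1)
    rw [tvS_conj, hyψ x₀ hx₀u, ← hlam, tvS_inv] at h2
    exact h2
  obtain ⟨Y, hYdef⟩ : ∃ Y : (Matrix.symplecticGroup (Fin m) F), Y = tvS (x₀ + lam • u) ζ * tvS x₀ (-ζ) := ⟨_, rfl⟩
  rw [← hYdef] at hY
  have hYx : ∀ x : (Fin m ⊕ Fin m → F), (Y : (Matrix (Fin m ⊕ Fin m) (Fin m ⊕ Fin m) F)) *ᵥ x = x + (ζ * lam * Cfsg.sympForm m F x x₀) • u + (ζ * lam * Cfsg.sympForm m F x u) • x₀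
      + (ζ * lam ^ 2 * Cfsg.sympForm m F x u) • u := by
    intro x
    rw [hYdef]
    exact yf x₀ u hx₀u lam ζ x
  obtain ⟨w, hw, hwu, hwx₀⟩ := R.dual2 x₀ u hx₀ hu hx₀i
  obtain ⟨zu, hzu, hzuu⟩ := R.dual1 u hu hu0
  obtain ⟨b, hb, hb0, hbL⟩ := R.perpL [u, x₀, w, zu] (by
    intro a ha
    simp only [List.mem_cons, List.not_mem_nil, or_false] at ha
    rcases ha with rfl | rfl | rfl | rfl
    · exact hu
    · exact hx₀
    · exact hw
    · exact hzu) (by simp only [List.length_cons, List.length_nil]; omega)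
  have hbu : Cfsg.sympForm m F b u = 0 := hbL u (by simp)
  have hbx₀ : Cfsg.sympForm m F b x₀ = 0 := hbL x₀ (by simp)
  have hbw : Cfsg.sympForm m F b w = 0 := hbL w (by simp)
  have hbzu : Cfsg.sympForm m F b zu = 0 := hbL zu (by simp)
  have hub : Cfsg.sympForm m F u b = 0 := by rw [sf_swap, hbu, neg_zero]
  have hwb : Cfsg.sympForm m F w b = 0 := by rw [sf_swap, hbw, neg_zero]
  have hbi : ∀ t : F, b ≠ t • u := by
    intro t ht
    have h1 : Cfsg.sympForm m F zu b = 0 := by rw [sf_swap, hbzu, neg_zero]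
    rw [ht, sf_smul_right] at h1
    have h2 : t = 0 := by linear_combination ζ * h1 - t * hzuu
    apply hb0
    rw [ht, h2, zero_smul]
  have hgood : Good F₀ P u b := ⟨hu, hb, hu0, hub, hbi⟩
  have hshort : hh u b (ζ * lam) ∈ M := by
    have h1 : hh w b ζ ∈ M := by
      have := hh_rat_mem M hK w b hw hb 1 F₀.one_mem
      rwa [mul_one] at this
    have h2 := M.mul_mem (M.mul_mem (M.mul_mem hY h1) (M.inv_mem hY)) (M.inv_mem h1)
    have e1 : (Y : (Matrix (Fin m ⊕ Fin m) (Fin m ⊕ Fin m) F)) *ᵥ w = w + lam • u := by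
      have e : ζ * lam * Cfsg.sympForm m F w x₀ = lam := by linear_combination lam * hwx₀
      rw [hYx, e]
      simp only [hwu, mul_zero, zero_smul, add_zero]
    have e2 : (Y : (Matrix (Fin m ⊕ Fin m) (Fin m ⊕ Fin m) F)) *ᵥ b = b := by
      rw [hYx]
      simp only [hbu, hbx₀, mul_zero, zero_smul, add_zero]
    rw [hh_conj, e1, e2, hh_add_left w u b hwb hub hwu lam ζ, mul_inv_cancel_right] at h2
    exact h2
  obtain ⟨S, hS⟩ : ∃ S : Set F, S = {s | ∀ a b, Good F₀ P a b → hh a b (ζ * s) ∈ M} :=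
    ⟨_, rfl⟩
  have hSF₀ : ∀ s ∈ F₀, s ∈ S := by
    intro s hs
    rw [hS]
    intro a b hab
    exact hh_rat_mem M hK a b hab.1 hab.2.1 s hs
  have hSlam : lam ∈ S := by
    rw [hS]
    intro a' b' hab'
    exact R.pi_trans M hK _ u b hgood hshort a' b' hab'
  have hSadd : ∀ s t, s ∈ S → t ∈ S → s + t ∈ S := by
    intro s t hs ht
    rw [hS] at hs ht ⊢
    intro a b hab
    rw [mul_add, hh_add a b hab.2.2.2.1]
    exact M.mul_mem (hs a b hab) (ht a b hab)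
  have hSneg : ∀ s, s ∈ S → -s ∈ S := by
    intro s hs
    rw [hS] at hs ⊢
    intro a b hab
    rw [mul_neg, hh_neg a b hab.2.2.2.1]
    exact M.inv_mem (hs a b hab)
  have hSmul : ∀ s t, s ∈ S → t ∈ S → s * t ∈ S := by
    intro s t hs ht
    rw [hS] at hs ht ⊢
    intro a a' haa'
    obtain ⟨ha, ha', ha0, haa'o, haa'i⟩ := haa'
    have ha'0 : a' ≠ 0 := by
      intro h0
      apply haa'i 0
      rw [h0, zero_smul]
    have hai : ∀ t' : F, a ≠ t' • a' := by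
      intro t' ht'
      by_cases h0 : t' = 0
      · apply ha0
        rw [ht', h0, zero_smul]
      · apply haa'i t'⁻¹
        rw [ht', smul_smul, inv_mul_cancel₀ h0, one_smul]
    obtain ⟨za, hza, hzaa', hzaa⟩ := R.dual2 a a' ha ha' hai
    obtain ⟨za', hza', hza'a, hza'a'⟩ := R.dual2 a' a ha' ha haa'i
    obtain ⟨b, hb, hb0, hbL⟩ := R.perpL [a, a', za, za'] (by
      intro v hv
      simp only [List.mem_cons, List.not_mem_nil, or_false] at hv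
      rcases hv with rfl | rfl | rfl | rfl
      · exact ha
      · exact ha'
      · exact hza
      · exact hza') (by simp only [List.length_cons, List.length_nil]; omega)
    have hba : Cfsg.sympForm m F b a = 0 := hbL a (by simp)
    have hba' : Cfsg.sympForm m F b a' = 0 := hbL a' (by simp)
    have hbza : Cfsg.sympForm m F b za = 0 := hbL za (by simp)
    have hbza' : Cfsg.sympForm m F b za' = 0 := hbL za' (by simp)
    have hab : Cfsg.sympForm m F a b = 0 := by rw [sf_swap, hba, neg_zero]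
    have ha'b : Cfsg.sympForm m F a' b = 0 := by rw [sf_swap, hba', neg_zero]
    have hzab : Cfsg.sympForm m F za b = 0 := by rw [sf_swap, hbza, neg_zero]
    have hza'b : Cfsg.sympForm m F za' b = 0 := by rw [sf_swap, hbza', neg_zero]
    obtain ⟨y₁, hy₁, hy₁b⟩ := R.dual1 b hb hb0
    obtain ⟨b', hb'def⟩ : ∃ b' : (Fin m ⊕ Fin m → F), b' = y₁ - (ζ * Cfsg.sympForm m F y₁ a) • za - (ζ * Cfsg.sympForm m F y₁ a') • za' :=
      ⟨_, rfl⟩
    have hb' : IsRat F₀ P b' := by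
      rw [hb'def]
      exact isRat_sub (isRat_sub hy₁ (isRat_smul _ (R.frat y₁ a hy₁ ha) hza))
        (isRat_smul _ (R.frat y₁ a' hy₁ ha') hza')
    have hb'a : Cfsg.sympForm m F b' a = 0 := by
      rw [hb'def, sf_sub_left, sf_sub_left, sf_smul_left, sf_smul_left, hza'a, mul_zero, sub_zero]
      linear_combination (-(Cfsg.sympForm m F y₁ a)) * hzaa
    have hb'a' : Cfsg.sympForm m F b' a' = 0 := by
      rw [hb'def, sf_sub_left, sf_sub_left, sf_smul_left, sf_smul_left, hzaa', mul_zero, sub_zero]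
      linear_combination (-(Cfsg.sympForm m F y₁ a')) * hza'a'
    have hb'b : ζ * Cfsg.sympForm m F b' b = 1 := by
      rw [hb'def, sf_sub_left, sf_sub_left, sf_smul_left, sf_smul_left]
      simp only [hzab, hza'b, mul_zero, sub_zero]
      exact hy₁b
    have hab' : Cfsg.sympForm m F a b' = 0 := by rw [sf_swap, hb'a, neg_zero]
    have ha'b' : Cfsg.sympForm m F a' b' = 0 := by rw [sf_swap, hb'a', neg_zero]
    have hgab : Good F₀ P a b := by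
      refine ⟨ha, hb, ha0, hab, ?_⟩
      intro t' ht'
      have h1 := hzab
      rw [ht', sf_smul_right] at h1
      have h2 : t' = 0 := by linear_combination ζ * h1 - t' * hzaa
      apply hb0
      rw [ht', h2, zero_smul]
    have hga'b' : Good F₀ P a' b' := by
      refine ⟨ha', hb', ha'0, ha'b', ?_⟩
      intro t' ht'
      rw [ht', sf_smul_left, ha'b, mul_zero, mul_zero] at hb'b
      exact zero_ne_one hb'b
    have key := rel2 a b a' b' hab ha'b' haa'o hab' hba' (ζ * s) (ζ * t)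
    have e : -(ζ * s) * (ζ * t) * Cfsg.sympForm m F b b' = ζ * (s * t) := by
      rw [sf_swap b b']
      linear_combination (ζ * s * t) * hb'b
    rw [e] at key
    have e2 : hh a a' (ζ * (s * t)) = (hh a b (ζ * s) * hh a' b' (ζ * t))
        * (hh a' b' (ζ * t) * hh a b (ζ * s))⁻¹ := by
      rw [key, mul_assoc (hh a a' (ζ * (s * t))), mul_inv_cancel_right]
    rw [e2]
    exact M.mul_mem (M.mul_mem (hs a b hgab) (ht a' b' hga'b'))
      (M.inv_mem (M.mul_mem (ht a' b' hga'b') (hs a b hgab)))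
  have hS1 : (1 : F) ∈ S := hSF₀ 1 F₀.one_mem
  have hS0 : (0 : F) ∈ S := hSF₀ 0 F₀.zero_mem
  have hSpow : ∀ s ∈ S, ∀ k : ℕ, s ^ k ∈ S := by
    intro s hs k
    induction k with
    | zero =>
      rw [pow_zero]
      exact hS1
    | succ k ih =>
      rw [pow_succ]
      exact hSmul _ _ ih hs
  have hSinv : ∀ s, s ∈ S → s⁻¹ ∈ S := by
    intro s hs
    by_cases h0 : s = 0
    · rw [h0, _root_.inv_zero]
      exact hS0
    · have h1 := FiniteField.pow_card_sub_one_eq_one s h0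
      have h2 : s⁻¹ = s ^ (Fintype.card F - 2) := by
        have h3 : 2 ≤ Fintype.card F := Fintype.one_lt_card
        have h4 : s * s ^ (Fintype.card F - 2) = 1 := by
          rw [← pow_succ', show Fintype.card F - 2 + 1 = Fintype.card F - 1 by omega]
          exact h1
        exact inv_eq_of_mul_eq_one_right h4
      rw [h2]
      exact hSpow s hs _
  obtain ⟨L, hL⟩ : ∃ L : Subfield F, ∀ s, s ∈ L ↔ s ∈ S :=
    ⟨{ carrier := S
       mul_mem' := fun {a b} ha hb => hSmul a b ha hb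
       one_mem' := hS1
       add_mem' := fun {a b} ha hb => hSadd a b ha hb
       zero_mem' := hS0
       neg_mem' := fun {a} ha => hSneg a ha
       inv_mem' := fun a ha => hSinv a ha }, fun s => Iff.rfl⟩
  have hall : ∀ s : F, s ∈ S := by
    intro s
    rw [← hL]
    exact sub_max F₀ r hr hcard L (fun s hs => (hL s).mpr (hSF₀ s hs)) lam
      ((hL lam).mpr hSlam) hlam0 s
  have hPi : ∀ s : F, ∀ a b, Good F₀ P a b → hh a b (ζ * s) ∈ M := by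
    intro s
    have := hall s
    rw [hS] at this
    exact this
  have hdir : ∀ a, IsRat F₀ P a → a ∈ dirs M := by
    intro a ha
    by_cases ha0 : a = 0
    · intro c
      rw [ha0, tvS_zero_vec]
      exact M.one_mem
    obtain ⟨za, hza, hzaa⟩ := R.dual1 a ha ha0
    obtain ⟨b, hb, hb0, hbL⟩ := R.perpL [a, za] (by
      intro v hv
      simp only [List.mem_cons, List.not_mem_nil, or_false] at hv
      rcases hv with rfl | rfl
      · exact ha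
      · exact hza) (by simp only [List.length_cons, List.length_nil]; omega)
    have hba : Cfsg.sympForm m F b a = 0 := hbL a (by simp)
    have hbza : Cfsg.sympForm m F b za = 0 := hbL za (by simp)
    have hab : Cfsg.sympForm m F a b = 0 := by rw [sf_swap, hba, neg_zero]
    have hbi : ∀ t : F, b ≠ t • a := by
      intro t ht
      have h1 : Cfsg.sympForm m F za b = 0 := by rw [sf_swap, hbza, neg_zero]
      rw [ht, sf_smul_right] at h1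
      have h2 : t = 0 := by linear_combination ζ * h1 - t * hzaa
      apply hb0
      rw [ht, h2, zero_smul]
    obtain ⟨w, hw, hwa, hwb⟩ := R.dual2 b a hb ha hbi
    have haw : Cfsg.sympForm m F a w = 0 := by rw [sf_swap, hwa, neg_zero]
    have hgaw : Good F₀ P a w := by
      refine ⟨ha, hw, ha0, haw, ?_⟩
      intro t ht
      rw [ht, sf_smul_left, hab, mul_zero, mul_zero] at hwb
      exact zero_ne_one hwb
    have hgab : Good F₀ P a b := ⟨ha, hb, ha0, hab, hbi⟩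
    have hb1 : tvS b ζ ∈ M := by
      have := hK b hb 1 F₀.one_mem
      rwa [mul_one] at this
    have hb2 : tvS b (-ζ) ∈ M := by
      have := hK b hb (-1) (F₀.neg_mem F₀.one_mem)
      rwa [mul_neg, mul_one] at this
    have hsq : ∀ μ : F, tvS a (ζ * μ ^ 2) ∈ M := by
      intro μ
      have hg := hPi (-μ) a w hgaw
      have h1 := M.mul_mem (M.mul_mem hg hb1) (M.inv_mem hg)
      have e1 : (hh a w (ζ * -μ) : (Matrix (Fin m ⊕ Fin m) (Fin m ⊕ Fin m) F)) *ᵥ b = b + μ • a := by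
        have e : ζ * -μ * Cfsg.sympForm m F b w = μ := by
          rw [sf_swap b w]
          linear_combination μ * hwb
        rw [hh_mulVec a w haw, hba, mul_zero, zero_smul, add_zero, e]
      rw [tvS_conj, e1] at h1
      have h2 := M.mul_mem h1 hb2
      rw [long_of_short a b hba μ ζ] at h2
      have h3 := M.mul_mem (M.inv_mem (hPi μ a b hgab)) h2
      rw [inv_mul_cancel_left] at h3
      exact h3
    intro c
    obtain ⟨x, y, hxy⟩ := two_squares (c / ζ)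
    have e : c = ζ * x ^ 2 + ζ * y ^ 2 := by
      have : ζ * (x ^ 2 + y ^ 2) = c := by
        rw [hxy]
        field_simp
      linear_combination -this
    rw [e, ← tvS_mul]
    exact M.mul_mem (hsq x) (hsq y)
  have hscal : ∀ y, y ∈ dirs M → ∀ t : F, t • y ∈ dirs M := by
    intro y hy t c
    rw [tvS_smul]
    exact hy _
  have hstep : ∀ v', v' ∈ dirs M → ∀ w, IsRat F₀ P w → ∀ μ : F, v' + μ • w ∈ dirs M := by
    intro v' hv' w hw μ
    by_cases hw0 : w = 0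
    · rw [hw0, smul_zero, add_zero]
      exact hv'
    by_cases h1 : Cfsg.sympForm m F v' w = 0
    · by_cases h2 : ∃ t : F, v' = t • w
      · obtain ⟨t, ht⟩ := h2
        have e : v' + μ • w = (t + μ) • w := by
          rw [ht]
          module
        rw [e]
        exact hscal w (hdir w hw) _
      · have h3 : ∃ x, IsRat F₀ P x ∧ Cfsg.sympForm m F x w = 0 ∧ Cfsg.sympForm m F x v' ≠ 0 := by
          by_contra hcon
          push Not at hcon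
          exact h2 (R.perp_span v' w hw hw0 (fun x hx hxw => hcon x hx hxw))
        obtain ⟨x, hx, hxw, hxv'⟩ := h3
        have hwx : Cfsg.sympForm m F w x = 0 := by rw [sf_swap, hxw, neg_zero]
        have hv'x : Cfsg.sympForm m F v' x ≠ 0 := by
          rw [sf_swap]
          exact neg_ne_zero.mpr hxv'
        have hg : Good F₀ P w x := by
          refine ⟨hw, hx, hw0, hwx, ?_⟩
          intro t ht
          apply hxv'
          rw [ht, sf_smul_left, sf_swap, h1, neg_zero, mul_zero]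
        have h4 := dirs_conj M _ (hPi (μ / (ζ * Cfsg.sympForm m F v' x)) w x hg) v' hv'
        rw [hh_mulVec w x hwx, h1, mul_zero, zero_smul, add_zero] at h4
        have e : ζ * (μ / (ζ * Cfsg.sympForm m F v' x)) * Cfsg.sympForm m F v' x = μ := by field_simp
        rw [e] at h4
        exact h4
    · have h4 := dirs_move M w v' (hdir w hw) hv' (μ / Cfsg.sympForm m F v' w)
      have e : μ / Cfsg.sympForm m F v' w * Cfsg.sympForm m F v' w = μ := by field_simp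
      rw [e] at h4
      exact h4
  apply top_of_dirs
  intro v
  classical
  have key : ∀ s : Finset (Fin m ⊕ Fin m),
      (∑ j ∈ s, (Q *ᵥ v) j • (P *ᵥ Pi.single j 1)) ∈ dirs M := by
    intro s
    induction s using Finset.induction_on with
    | empty =>
      rw [Finset.sum_empty]
      intro c
      rw [tvS_zero_vec]
      exact M.one_mem
    | insert j s hj ih =>
      rw [Finset.sum_insert hj, add_comm]
      exact hstep _ ih _ (isRat_col F₀ P j) _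
  rw [R.expand v]
  exact key Finset.univ

end step1

section step2

variable {F : Type*} [Field F] [Fintype F] {m : ℕ}

/-- the rationality property of the elements of `M` fixing a rational vector -/
def PropR (F₀ : Subfield F) (P : (Matrix (Fin m ⊕ Fin m) (Fin m ⊕ Fin m) F)) (M : Subgroup (Matrix.symplecticGroup (Fin m) F)) : Prop :=
  ∀ u : (Fin m ⊕ Fin m → F), IsRat F₀ P u → u ≠ 0 → ∀ y ∈ M, ∀ ψ : (Fin m ⊕ Fin m → F) → F,
    (y : (Matrix (Fin m ⊕ Fin m) (Fin m ⊕ Fin m) F)) *ᵥ u = u → (∀ x, Cfsg.sympForm m F x u = 0 → (y : (Matrix (Fin m ⊕ Fin m) (Fin m ⊕ Fin m) F)) *ᵥ x = x + ψ x • u) →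
    ∀ x, IsRat F₀ P x → Cfsg.sympForm m F x u = 0 → ψ x ∈ F₀

variable {F₀ : Subfield F} {ζ : F} {P Q : (Matrix (Fin m ⊕ Fin m) (Fin m ⊕ Fin m) F)}

theorem RatP.crit_mod (R : RatP F₀ ζ P Q) (u : (Fin m ⊕ Fin m → F)) (hu : IsRat F₀ P u) (hu0 : u ≠ 0) (y : (Fin m ⊕ Fin m → F))
    (h : ∀ x, IsRat F₀ P x → Cfsg.sympForm m F x u = 0 → ζ * Cfsg.sympForm m F x y ∈ F₀) :
    ∃ (v : (Fin m ⊕ Fin m → F)) (μ : F), IsRat F₀ P v ∧ y = v + μ • u := by
  obtain ⟨w, hw, hwu⟩ := R.dual1 u hu hu0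
  refine ⟨y - (ζ * Cfsg.sympForm m F w y) • u, ζ * Cfsg.sympForm m F w y, ?_, by module⟩
  apply R.crit
  intro x hx
  have hx' : IsRat F₀ P (x - (ζ * Cfsg.sympForm m F x u) • w) :=
    isRat_sub hx (isRat_smul _ (R.frat x u hx hu) hw)
  have h1 := h _ hx' (by
    rw [sf_sub_left, sf_smul_left]
    linear_combination (-(Cfsg.sympForm m F x u)) * hwu)
  have e : ζ * Cfsg.sympForm m F (y - (ζ * Cfsg.sympForm m F w y) • u) x = -(ζ * Cfsg.sympForm m F (x - (ζ * Cfsg.sympForm m F x u) • w) y) := by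
    rw [sf_sub_left, sf_smul_left, sf_sub_left, sf_smul_left, sf_swap y x, sf_swap u x]
    ring
  rw [e]
  exact F₀.neg_mem h1

theorem RatP.cen (R : RatP F₀ ζ P Q) (M : Subgroup (Matrix.symplecticGroup (Fin m) F))
    (hK : ∀ w, IsRat F₀ P w → ∀ s ∈ F₀, tvS w (ζ * s) ∈ M) (hR : PropR F₀ P M)
    (a : (Fin m ⊕ Fin m → F)) (c : F) (hc : c ≠ 0) (hT : tvS a c ∈ M) (u : (Fin m ⊕ Fin m → F)) (hu : IsRat F₀ P u) (hu0 : u ≠ 0)
    (hau : Cfsg.sympForm m F a u = 0) : ∃ (t : F) (v : (Fin m ⊕ Fin m → F)), IsRat F₀ P v ∧ a = t • v := by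
  have hz0 := R.z0
  by_cases hai : ∃ t : F, a = t • u
  · obtain ⟨t, ht⟩ := hai
    exact ⟨t, u, hu, ht⟩
  have hua : Cfsg.sympForm m F u a = 0 := by rw [sf_swap, hau, neg_zero]
  have star : ∀ b x : (Fin m ⊕ Fin m → F), IsRat F₀ P b → Cfsg.sympForm m F b u = 0 → IsRat F₀ P x → Cfsg.sympForm m F x u = 0 →
      ζ * c * Cfsg.sympForm m F b a * Cfsg.sympForm m F x a ∈ F₀ := by
    intro b x hb hbu hx hxu
    have hub : Cfsg.sympForm m F u b = 0 := by rw [sf_swap, hbu, neg_zero]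
    have h1 : hh u b ζ ∈ M := by
      have := hh_rat_mem M hK u b hu hb 1 F₀.one_mem
      rwa [mul_one] at this
    have h2 := M.mul_mem (M.mul_mem hT h1) (M.inv_mem hT)
    rw [hh_conj, tvS_mulVec, tvS_mulVec, hua, mul_zero, zero_smul, add_zero] at h2
    obtain ⟨b', hb'⟩ : ∃ b' : (Fin m ⊕ Fin m → F), b' = b + (c * Cfsg.sympForm m F b a) • a := ⟨_, rfl⟩
    rw [← hb'] at h2
    have hub' : Cfsg.sympForm m F u b' = 0 := by
      rw [hb', sf_add_right, sf_smul_right, hub, hua, mul_zero, add_zero]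
    have h3 := hR u hu hu0 _ h2 (fun x => ζ * Cfsg.sympForm m F x b') (by
      rw [hh_mulVec u b' hub', sf_self, hub']
      simp only [mul_zero, zero_smul, add_zero]) (by
      intro x hx
      rw [hh_mulVec u b' hub', hx]
      simp only [mul_zero, zero_smul, add_zero]) x hx hxu
    have e : ζ * c * Cfsg.sympForm m F b a * Cfsg.sympForm m F x a = ζ * Cfsg.sympForm m F x b' - ζ * Cfsg.sympForm m F x b := by
      rw [hb', sf_add_right, sf_smul_right]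
      ring
    rw [e]
    exact F₀.sub_mem h3 (R.frat x b hx hb)
  have h1 : ∃ b₀, IsRat F₀ P b₀ ∧ Cfsg.sympForm m F b₀ u = 0 ∧ Cfsg.sympForm m F b₀ a ≠ 0 := by
    by_contra hcon
    push Not at hcon
    exact hai (R.perp_span a u hu hu0 (fun x hx hxu => hcon x hx hxu))
  obtain ⟨b₀, hb₀, hb₀u, hb₀a⟩ := h1
  obtain ⟨κ, hκ⟩ : ∃ κ, κ = ζ * c * Cfsg.sympForm m F b₀ a * Cfsg.sympForm m F b₀ a := ⟨_, rfl⟩
  have hκF : κ ∈ F₀ := by
    rw [hκ]
    exact star b₀ b₀ hb₀ hb₀u hb₀ hb₀u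
  have hκ0 : κ ≠ 0 := by
    rw [hκ]
    exact mul_ne_zero (mul_ne_zero (mul_ne_zero hz0 hc) hb₀a) hb₀a
  obtain ⟨d, hd⟩ : ∃ d, d = ζ * Cfsg.sympForm m F b₀ a := ⟨_, rfl⟩
  have hd0 : d ≠ 0 := by
    rw [hd]
    exact mul_ne_zero hz0 hb₀a
  obtain ⟨a', ha'⟩ : ∃ a' : (Fin m ⊕ Fin m → F), a' = d⁻¹ • a := ⟨_, rfl⟩
  have haa' : a = d • a' := by
    rw [ha', smul_smul, mul_inv_cancel₀ hd0, one_smul]
  have h2 : ∀ x, IsRat F₀ P x → Cfsg.sympForm m F x u = 0 → ζ * Cfsg.sympForm m F x a' ∈ F₀ := by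
    intro x hx hxu
    have e : ζ * Cfsg.sympForm m F x a' = (ζ * c * Cfsg.sympForm m F b₀ a * Cfsg.sympForm m F x a) * κ⁻¹ := by
      rw [ha', sf_smul_right, hκ, hd]
      field_simp
    rw [e]
    exact F₀.mul_mem (star b₀ x hb₀ hb₀u hx hxu) (F₀.inv_mem hκF)
  obtain ⟨v, μ, hv, hvμ⟩ := R.crit_mod u hu hu0 a' h2
  have ha'u : Cfsg.sympForm m F a' u = 0 := by rw [ha', sf_smul_left, hau, mul_zero]
  have hvu : Cfsg.sympForm m F v u = 0 := by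
    have e : v = a' - μ • u := by
      rw [hvμ]
      module
    rw [e, sf_sub_left, sf_smul_left, ha'u, sf_self, mul_zero, sub_zero]
  have hvi : ∀ t : F, v ≠ t • u := by
    intro t ht
    apply hai
    refine ⟨d * (t + μ), ?_⟩
    rw [haa', hvμ, ht]
    module
  have hT' : tvS (v + μ • u) (ζ * κ) ∈ M := by
    have e : tvS a c = tvS (v + μ • u) (ζ * κ) := by
      conv_lhs => rw [haa', tvS_smul, hvμ]
      congr 1
      rw [hκ, hd]
      ring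
    rw [← e]
    exact hT
  have hTv : tvS v (-(ζ * κ)) ∈ M := by
    have := hK v hv (-κ) (F₀.neg_mem hκF)
    rwa [mul_neg] at this
  have hY' := M.mul_mem hT' hTv
  have h3 := hR u hu hu0 _ hY' (fun x => ζ * κ * μ * Cfsg.sympForm m F x v) (by
    rw [yf v u hvu μ (ζ * κ) u, sf_self, sf_swap u v, hvu]
    simp only [neg_zero, mul_zero, zero_smul, add_zero]) (by
    intro x hx
    rw [yf v u hvu μ (ζ * κ) x, hx]
    simp only [mul_zero, zero_smul, add_zero])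
  obtain ⟨x₁, hx₁, hx₁u, hx₁v⟩ := R.dual2 v u hv hu hvi
  have h4 : ζ * κ * μ * Cfsg.sympForm m F x₁ v ∈ F₀ := h3 x₁ hx₁ hx₁u
  have hμ : μ ∈ F₀ := by
    have e : μ = (ζ * κ * μ * Cfsg.sympForm m F x₁ v) * κ⁻¹ := by
      have e' : ζ * κ * μ * Cfsg.sympForm m F x₁ v = κ * μ := by linear_combination (κ * μ) * hx₁v
      rw [e']
      field_simp
    rw [e]
    exact F₀.mul_mem h4 (F₀.inv_mem hκF)
  refine ⟨d, a', ?_, haa'⟩
  rw [hvμ]
  exact isRat_add hv (isRat_smul μ hμ hu)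

variable {PG : (GL (Fin m ⊕ Fin m) F)}

theorem RatP.pt (R : RatP F₀ ζ (PG : (Matrix (Fin m ⊕ Fin m) (Fin m ⊕ Fin m) F)) Q) (hm : 7 ≤ m) (M : Subgroup (Matrix.symplecticGroup (Fin m) F))
    (hK : ∀ w, IsRat F₀ (PG : (Matrix (Fin m ⊕ Fin m) (Fin m ⊕ Fin m) F)) w → ∀ s ∈ F₀, tvS w (ζ * s) ∈ M)
    (hR : PropR F₀ (PG : (Matrix (Fin m ⊕ Fin m) (Fin m ⊕ Fin m) F)) M)
    (x : (Matrix.symplecticGroup (Fin m) F)) (hx : x ∈ M) (u₁ : (Fin m ⊕ Fin m → F)) (hu₁ : IsRat F₀ (PG : (Matrix (Fin m ⊕ Fin m) (Fin m ⊕ Fin m) F)) u₁) (hu₁0 : u₁ ≠ 0)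
    (h : ∃ (t : F) (v : (Fin m ⊕ Fin m → F)), IsRat F₀ (PG : (Matrix (Fin m ⊕ Fin m) (Fin m ⊕ Fin m) F)) v ∧ (x : (Matrix (Fin m ⊕ Fin m) (Fin m ⊕ Fin m) F)) *ᵥ u₁ = t • v) :
    ((toGHom m F x : ↥(Cfsg.spGL m F)) : (GL (Fin m ⊕ Fin m) F)) ∈ Cfsg.Geo.subfieldSubgroup F₀ PG := by
  have hz0 := R.z0
  have hinj : ∀ v : (Fin m ⊕ Fin m → F), (x : (Matrix (Fin m ⊕ Fin m) (Fin m ⊕ Fin m) F)) *ᵥ v = 0 → v = 0 := by
    intro v hv
    have h1 := sp_inv_mulVec x v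
    rw [hv, Matrix.mulVec_zero] at h1
    exact h1.symm
  have spade : ∀ u : (Fin m ⊕ Fin m → F), IsRat F₀ (PG : (Matrix (Fin m ⊕ Fin m) (Fin m ⊕ Fin m) F)) u → u ≠ 0 →
      (∃ (t : F) (v : (Fin m ⊕ Fin m → F)), IsRat F₀ (PG : (Matrix (Fin m ⊕ Fin m) (Fin m ⊕ Fin m) F)) v ∧ (x : (Matrix (Fin m ⊕ Fin m) (Fin m ⊕ Fin m) F)) *ᵥ u = t • v) →
      ∀ w : (Fin m ⊕ Fin m → F), IsRat F₀ (PG : (Matrix (Fin m ⊕ Fin m) (Fin m ⊕ Fin m) F)) w → Cfsg.sympForm m F w u = 0 →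
        ∃ (c : F) (w' : (Fin m ⊕ Fin m → F)), IsRat F₀ (PG : (Matrix (Fin m ⊕ Fin m) (Fin m ⊕ Fin m) F)) w' ∧ (x : (Matrix (Fin m ⊕ Fin m) (Fin m ⊕ Fin m) F)) *ᵥ w = c • w' := by
    intro u hu hu0 ⟨t, v, hv, htv⟩ w hw hwu
    have hT : tvS ((x : (Matrix (Fin m ⊕ Fin m) (Fin m ⊕ Fin m) F)) *ᵥ w) ζ ∈ M := by
      have h1 : tvS w ζ ∈ M := by
        have := hK w hw 1 F₀.one_mem
        rwa [mul_one] at this
      have h2 := M.mul_mem (M.mul_mem hx h1) (M.inv_mem hx)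
      rwa [tvS_conj] at h2
    have ht0 : t ≠ 0 := by
      intro h0
      apply hu0
      apply hinj
      rw [htv, h0, zero_smul]
    have hv0 : v ≠ 0 := by
      intro h0
      apply hu0
      apply hinj
      rw [htv, h0, smul_zero]
    have hperp : Cfsg.sympForm m F ((x : (Matrix (Fin m ⊕ Fin m) (Fin m ⊕ Fin m) F)) *ᵥ w) v = 0 := by
      have h1 : Cfsg.sympForm m F ((x : (Matrix (Fin m ⊕ Fin m) (Fin m ⊕ Fin m) F)) *ᵥ w) ((x : (Matrix (Fin m ⊕ Fin m) (Fin m ⊕ Fin m) F)) *ᵥ u) = 0 := by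
        rw [sp_preserves]
        exact hwu
      rw [htv, sf_smul_right] at h1
      rcases mul_eq_zero.mp h1 with h2 | h2
      · exact absurd h2 ht0
      · exact h2
    exact R.cen M hK hR _ ζ hz0 hT v hv hv0 hperp
  apply R.mem_of_points (by omega)
  intro w hw
  obtain ⟨u₂, hu₂, hu₂0, hu₂L⟩ := R.perpL [u₁, w] (by
    intro v hv
    simp only [List.mem_cons, List.not_mem_nil, or_false] at hv
    rcases hv with rfl | rfl
    · exact hu₁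
    · exact hw) (by simp only [List.length_cons, List.length_nil]; omega)
  have h1 := spade u₁ hu₁ hu₁0 h u₂ hu₂ (hu₂L u₁ (by simp))
  have hwu₂ : Cfsg.sympForm m F w u₂ = 0 := by rw [sf_swap, hu₂L w (by simp), neg_zero]
  exact spade u₂ hu₂ hu₂0 h1 w hw hwu₂

/-- the elements acting trivially modulo `W` -/
def fixW (W : Submodule F (Fin m ⊕ Fin m → F)) : Subgroup (Matrix.symplecticGroup (Fin m) F) where
  carrier := {x | ∀ v : (Fin m ⊕ Fin m → F), (x : (Matrix (Fin m ⊕ Fin m) (Fin m ⊕ Fin m) F)) *ᵥ v - v ∈ W ∧ ((x⁻¹ : (Matrix.symplecticGroup (Fin m) F)) : (Matrix (Fin m ⊕ Fin m) (Fin m ⊕ Fin m) F)) *ᵥ v - v ∈ W}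
  mul_mem' := by
    intro x y hx hy v
    have hxW : ∀ w ∈ W, (x : (Matrix (Fin m ⊕ Fin m) (Fin m ⊕ Fin m) F)) *ᵥ w ∈ W := by
      intro w hw
      have := W.add_mem (hx w).1 hw
      rwa [sub_add_cancel] at this
    have hyW : ∀ w ∈ W, ((y⁻¹ : (Matrix.symplecticGroup (Fin m) F)) : (Matrix (Fin m ⊕ Fin m) (Fin m ⊕ Fin m) F)) *ᵥ w ∈ W := by
      intro w hw
      have := W.add_mem (hy w).2 hw
      rwa [sub_add_cancel] at this
    constructor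
    · have e : ((x * y : (Matrix.symplecticGroup (Fin m) F)) : (Matrix (Fin m ⊕ Fin m) (Fin m ⊕ Fin m) F)) *ᵥ v - v
          = (x : (Matrix (Fin m ⊕ Fin m) (Fin m ⊕ Fin m) F)) *ᵥ ((y : (Matrix (Fin m ⊕ Fin m) (Fin m ⊕ Fin m) F)) *ᵥ v - v) + ((x : (Matrix (Fin m ⊕ Fin m) (Fin m ⊕ Fin m) F)) *ᵥ v - v) := by
        rw [sp_coe_mul, ← Matrix.mulVec_mulVec, Matrix.mulVec_sub]
        abel
      rw [e]
      exact W.add_mem (hxW _ (hy v).1) (hx v).1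
    · have e : (((x * y)⁻¹ : (Matrix.symplecticGroup (Fin m) F)) : (Matrix (Fin m ⊕ Fin m) (Fin m ⊕ Fin m) F)) *ᵥ v - v
          = ((y⁻¹ : (Matrix.symplecticGroup (Fin m) F)) : (Matrix (Fin m ⊕ Fin m) (Fin m ⊕ Fin m) F)) *ᵥ (((x⁻¹ : (Matrix.symplecticGroup (Fin m) F)) : (Matrix (Fin m ⊕ Fin m) (Fin m ⊕ Fin m) F)) *ᵥ v - v) + (((y⁻¹ : (Matrix.symplecticGroup (Fin m) F)) : (Matrix (Fin m ⊕ Fin m) (Fin m ⊕ Fin m) F)) *ᵥ v - v) := by
        rw [_root_.mul_inv_rev, sp_coe_mul, ← Matrix.mulVec_mulVec, Matrix.mulVec_sub]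
        abel
      rw [e]
      exact W.add_mem (hyW _ (hx v).2) (hy v).2
  one_mem' := by
    intro v
    rw [_root_.inv_one, sp_coe_one, Matrix.one_mulVec, sub_self]
    exact ⟨W.zero_mem, W.zero_mem⟩
  inv_mem' := by
    intro x hx v
    rw [_root_.inv_inv]
    exact ⟨(hx v).2, (hx v).1⟩

end step2

end Cfsg.Agent.H6SpSub
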