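import Mathlib
import Cfsg.Agent.Helper6.UnitMax
import Cfsg.Agent.Helper6.SpSub
import Cfsg.Agent.S5643
import Cfsg.Agent.S5659
import Cfsg.Agent.S5660
import Cfsg.Agent.Helper16.FrobK

set_option autoImplicit false

namespace Cfsg.Agent.H6SuSub

open Matrix Cfsg.Agent.Helper3 Cfsg.Agent.Helper16 Cfsg.Agent.Helper6 Cfsg.Agent.S5643 Cfsg.Agent.S5660

section field

variable {F : Type*} [Field F] [Fintype F] {q : ℕ}

theorem field_facts (hF : Fintype.card F = q ^ 2) (Φ : Frob F q) (F₀ : Subfield F) (r : ℕ)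
    (hr : r.Prime) (hro : Odd r) (hcard : Fintype.card F = Nat.card F₀ ^ r) :
    ∃ ε : F, ε ≠ 0 ∧ ε ∈ F₀ ∧ ε + Φ.φ ε = 0 ∧ (∀ c ∈ F₀, Φ.φ c ∈ F₀) ∧
      (∀ c ∈ F₀, Φ.φ c = c → ∃ t ∈ F₀, t + Φ.φ t = c) ∧
      (∀ c ∈ F₀, c ≠ 0 → Φ.φ c = c → ∃ μ ∈ F₀, μ * Φ.φ μ = c) ∧
      ∃ c₁ : F, c₁ + Φ.φ c₁ = 0 ∧ c₁ ∉ F₀ := by
  classical
  haveI : Fintype F₀ := Fintype.ofFinite _
  obtain ⟨t, ht⟩ := hro
  have hQ : Nat.card F₀ = Fintype.card F₀ := Nat.card_eq_fintype_card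
  obtain ⟨Qn, hQn⟩ : ∃ Qn : ℕ, Qn = Fintype.card F₀ := ⟨_, rfl⟩
  have h1 : Qn ^ (2 * t + 1) = q ^ 2 := by rw [← hF, hcard, hQ, ht, hQn]
  have hQpos : 0 < Qn := by rw [hQn]; exact Fintype.card_pos
  have h2 : Qn ^ t ∣ q := by
    have h : (Qn ^ t) ^ 2 ∣ q ^ 2 := by
      rw [← h1, ← pow_mul, mul_comm t 2, pow_succ]
      exact Dvd.intro _ rfl
    exact (Nat.pow_dvd_pow_iff (by norm_num)).mp h
  obtain ⟨q₀, hq₀⟩ := h2
  have h3 : q₀ ^ 2 = Qn := by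
    have h : Qn ^ (2 * t) * Qn = Qn ^ (2 * t) * q₀ ^ 2 := by
      calc Qn ^ (2 * t) * Qn = Qn ^ (2 * t + 1) := (pow_succ _ _).symm
        _ = q ^ 2 := h1
        _ = (Qn ^ t * q₀) ^ 2 := by rw [hq₀]
        _ = Qn ^ (2 * t) * q₀ ^ 2 := by rw [mul_pow, ← pow_mul, mul_comm t 2]
    exact (Nat.eq_of_mul_eq_mul_left (pow_pos hQpos _) h).symm
  have hF₀ : Fintype.card F₀ = q₀ ^ 2 := by rw [← hQn, h3]
  have hq : q = q₀ ^ (2 * t) * q₀ := by rw [hq₀, ← h3, ← pow_mul]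
  have hx1 : ∀ x : F₀, x ^ (q₀ ^ 2) = x := by
    intro x
    rw [← hF₀]
    exact FiniteField.pow_card x
  have hx2 : ∀ (k : ℕ) (x : F₀), x ^ (q₀ ^ (2 * k)) = x := by
    intro k
    induction k with
    | zero =>
      intro x
      rw [mul_zero, pow_zero, pow_one]
    | succ k ih =>
      intro x
      rw [show 2 * (k + 1) = 2 * k + 2 by ring, pow_add, pow_mul, ih, hx1]
  obtain ⟨Φ₀⟩ := exists_Frob hF₀
  have hco : ∀ x : F₀, ((Φ₀.φ x : F₀) : F) = Φ.φ (x : F) := by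
    intro x
    have e1 : ((x : F)) ^ (q₀ ^ (2 * t)) = (x : F) := by
      have h := congrArg (fun y : F₀ => (y : F)) (hx2 t x)
      simpa using h
    rw [Φ₀.hφ, Φ.hφ, hq, pow_mul, e1]
    simp
  have hstab : ∀ c ∈ F₀, Φ.φ c ∈ F₀ := by
    intro c hc
    rw [Φ.hφ]
    exact F₀.pow_mem hc q
  obtain ⟨d, hd0, hd⟩ := exists_skew hF₀ Φ₀
  obtain ⟨b₀, hb₀⟩ := exists_tr_one hF₀ Φ₀
  obtain ⟨a₀, ha₀⟩ := exists_phi_ne hF₀ Φ₀
  have hd' : (d : F) + Φ.φ (d : F) = 0 := by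
    have h := congrArg (fun y : F₀ => (y : F)) hd
    simp only [Subfield.coe_add, ZeroMemClass.coe_zero, hco] at h
    exact h
  have hb₀' : (b₀ : F) + Φ.φ (b₀ : F) = 1 := by
    have h := congrArg (fun y : F₀ => (y : F)) hb₀
    simp only [Subfield.coe_add, OneMemClass.coe_one, hco] at h
    exact h
  have ha₀' : Φ.φ (a₀ : F) ≠ (a₀ : F) := by
    intro h
    apply ha₀
    apply Subtype.ext
    rw [hco]
    exact h
  have hω : ∃ ω : F, ω ∉ F₀ := by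
    by_contra hcon
    push Not at hcon
    have h1' : Nat.card F₀ = Fintype.card F := by
      rw [← Nat.card_eq_fintype_card]
      exact Nat.card_congr (Equiv.subtypeUnivEquiv hcon)
    rw [h1'] at hcard
    have h2' : 1 < Fintype.card F := Fintype.one_lt_card
    have h3' : Fintype.card F ^ 1 < Fintype.card F ^ r := Nat.pow_lt_pow_right h2' hr.one_lt
    rw [pow_one, ← hcard] at h3'
    exact lt_irrefl _ h3'
  obtain ⟨ω, hω⟩ := hω
  refine ⟨(d : F), ?_, d.2, hd', hstab, ?_, ?_, ?_⟩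
  · intro h
    apply hd0
    apply Subtype.ext
    rw [h]
    rfl
  · intro c hc hcf
    refine ⟨c * (b₀ : F), F₀.mul_mem hc b₀.2, ?_⟩
    rw [map_mul, hcf]
    linear_combination c * hb₀'
  · intro c hc hc0 hcf
    obtain ⟨μ, hμ⟩ := exists_unorm hF₀ Φ₀ (⟨c, hc⟩ : F₀) (by
      intro h
      apply hc0
      exact congrArg Subtype.val h) (by
      apply Subtype.ext
      rw [hco]
      exact hcf)
    refine ⟨(μ : F), μ.2, ?_⟩
    have h := congrArg (fun y : F₀ => (y : F)) hμ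
    simp only [Subfield.coe_mul, hco] at h
    exact h
  · by_contra hcon
    push Not at hcon
    have hc1 : ω - Φ.φ ω ∈ F₀ := hcon _ (by rw [map_sub, Φ.hφ2]; ring)
    have hc2 : (a₀ : F) * ω - Φ.φ ((a₀ : F) * ω) ∈ F₀ := hcon _ (by rw [map_sub, Φ.hφ2]; ring)
    have hc3 : ((a₀ : F) - Φ.φ (a₀ : F)) * ω ∈ F₀ := by
      have e : ((a₀ : F) - Φ.φ (a₀ : F)) * ω
          = ((a₀ : F) * ω - Φ.φ ((a₀ : F) * ω)) - Φ.φ (a₀ : F) * (ω - Φ.φ ω) := by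
        rw [map_mul]
        ring
      rw [e]
      exact F₀.sub_mem hc2 (F₀.mul_mem (hstab _ a₀.2) hc1)
    have hne : (a₀ : F) - Φ.φ (a₀ : F) ≠ 0 := fun h => ha₀' (sub_eq_zero.mp h).symm
    have hmem : (a₀ : F) - Φ.φ (a₀ : F) ∈ F₀ := F₀.sub_mem a₀.2 (hstab _ a₀.2)
    apply hω
    have e : ω = ((a₀ : F) - Φ.φ (a₀ : F))⁻¹ * (((a₀ : F) - Φ.φ (a₀ : F)) * ω) := by
      field_simp
    rw [e]
    exact F₀.mul_mem (F₀.inv_mem hmem) hc3

end field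

section rat

variable {F : Type*} [Field F] [Fintype F] {n q : ℕ}

theorem mulVec_expand (P : (Matrix (Fin n) (Fin n) F)) (u : (Fin n → F)) :
    P *ᵥ u = ∑ j, u j • (P *ᵥ Pi.single j 1) := by
  classical
  conv_lhs => rw [pi_eq_sum_univ' u]
  rw [Matrix.mulVec_sum]
  apply Finset.sum_congr rfl
  intro j _
  rw [Matrix.mulVec_smul]

theorem h_sum_left {κ : Type*} (z : (Fin n → F)) (s : Finset κ) (c : κ → F) (w : κ → (Fin n → F)) :
    Cfsg.hermForm n F q (∑ j ∈ s, c j • w j) z = ∑ j ∈ s, c j * Cfsg.hermForm n F q (w j) z := by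
  have h := map_sum (hL n q z) (fun j => c j • w j) s
  simp only [map_smul, smul_eq_mul, hL_apply] at h
  exact h

/-- the data of a rational structure compatible with the hermitian form -/
structure RatU (Φ : Frob F q) (F₀ : Subfield F) (ε : F) (P Q : (Matrix (Fin n) (Fin n) F)) : Prop where
  e0 : ε ≠ 0
  eF : ε ∈ F₀
  es : ε + Φ.φ ε = 0
  stab : ∀ c ∈ F₀, Φ.φ c ∈ F₀
  tr : ∀ c ∈ F₀, Φ.φ c = c → ∃ t ∈ F₀, t + Φ.φ t = c
  nm : ∀ c ∈ F₀, c ≠ 0 → Φ.φ c = c → ∃ μ ∈ F₀, μ * Φ.φ μ = c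
  inv1 : ∀ v : (Fin n → F), P *ᵥ (Q *ᵥ v) = v
  inv2 : ∀ v : (Fin n → F), Q *ᵥ (P *ᵥ v) = v
  frat : ∀ x y : (Fin n → F), IsRat F₀ P x → IsRat F₀ P y → Cfsg.hermForm n F q x y ∈ F₀

variable {Φ : Frob F q} {F₀ : Subfield F} {ε : F} {P Q : (Matrix (Fin n) (Fin n) F)}

theorem RatU.stab' (R : RatU Φ F₀ ε P Q) (c : F) (hc : Φ.φ c ∈ F₀) : c ∈ F₀ := by
  have h := R.stab _ hc
  rwa [Φ.hφ2] at h

theorem RatU.expand (R : RatU Φ F₀ ε P Q) (v : (Fin n → F)) :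
    v = ∑ j, (Q *ᵥ v) j • (P *ᵥ Pi.single j 1) := by
  conv_lhs => rw [← R.inv1 v]
  exact mulVec_expand P (Q *ᵥ v)

theorem RatU.col_ne_zero (R : RatU Φ F₀ ε P Q) (j : Fin n) :
    P *ᵥ Pi.single j 1 ≠ 0 := by
  classical
  intro h0
  have h1 := R.inv2 (Pi.single j 1)
  rw [h0, Matrix.mulVec_zero] at h1
  have h2 := congrFun h1 j
  rw [Pi.single_eq_same, Pi.zero_apply] at h2
  exact zero_ne_one h2

theorem RatU.span0 (R : RatU Φ F₀ ε P Q) (z : (Fin n → F))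
    (h : ∀ x, IsRat F₀ P x → Cfsg.hermForm n F q x z = 0) : z = 0 := by
  classical
  apply um_nondeg Φ
  intro v
  rw [R.expand v, h_sum_left]
  apply Finset.sum_eq_zero
  intro j _
  rw [h _ (isRat_col F₀ P j), mul_zero]

theorem RatU.rat (R : RatU Φ F₀ ε P Q) (x : (Fin n → F)) :
    ∃ x', IsRat F₀ P x' ∧ ∀ v, IsRat F₀ P v → Cfsg.hermForm n F q x v ∈ F₀ → Cfsg.hermForm n F q x' v = Cfsg.hermForm n F q x v := by
  classical
  obtain ⟨π, hπ1, hπ2, hπ3⟩ := Cfsg.Agent.H6SpSub.exists_proj F₀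
  refine ⟨P *ᵥ (fun j => π ((Q *ᵥ x) j)), ⟨_, fun j => hπ1 _, rfl⟩, ?_⟩
  intro v hv hmem
  have hg : ∀ j, Cfsg.hermForm n F q (P *ᵥ Pi.single j 1) v ∈ F₀ :=
    fun j => R.frat _ _ (isRat_col F₀ P j) hv
  have e1 : ∀ u : (Fin n → F), Cfsg.hermForm n F q (P *ᵥ u) v = ∑ j, u j * Cfsg.hermForm n F q (P *ᵥ Pi.single j 1) v := by
    intro u
    rw [mulVec_expand P u, h_sum_left]
  have e2 := e1 (fun j => π ((Q *ᵥ x) j))
  have e3 := e1 (Q *ᵥ x)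
  rw [R.inv1] at e3
  have e4 : Cfsg.hermForm n F q (P *ᵥ fun j => π ((Q *ᵥ x) j)) v = π (Cfsg.hermForm n F q x v) := by
    rw [e2, e3, map_sum]
    apply Finset.sum_congr rfl
    intro j _
    rw [mul_comm ((Q *ᵥ x) j), hπ2 _ (hg j), mul_comm]
  rw [hπ3 _ hmem] at e4
  exact e4

theorem RatU.crit (R : RatU Φ F₀ ε P Q) (y : (Fin n → F))
    (h : ∀ w, IsRat F₀ P w → Cfsg.hermForm n F q y w ∈ F₀) : IsRat F₀ P y := by
  obtain ⟨x', hx', hx'2⟩ := R.rat y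
  have e : y - x' = 0 := by
    apply R.span0
    intro w hw
    apply um_symm Φ
    rw [uherm_sub_left, hx'2 w hw (h w hw), sub_self]
  rw [sub_eq_zero.mp e]
  exact hx'

theorem RatU.dual1 (R : RatU Φ F₀ ε P Q) (u : (Fin n → F)) (hu : IsRat F₀ P u) (hu0 : u ≠ 0) :
    ∃ z, IsRat F₀ P z ∧ Cfsg.hermForm n F q z u = 1 := by
  have h1 : ∃ x, IsRat F₀ P x ∧ Cfsg.hermForm n F q x u ≠ 0 := by
    by_contra hcon
    push Not at hcon
    exact hu0 (R.span0 u hcon)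
  obtain ⟨x, hx, hxu⟩ := h1
  refine ⟨(Cfsg.hermForm n F q x u)⁻¹ • x, isRat_smul _ (F₀.inv_mem (R.frat x u hx hu)) hx, ?_⟩
  rw [uherm_smul_left, inv_mul_cancel₀ hxu]

theorem RatU.perp_span (R : RatU Φ F₀ ε P Q) (a u : (Fin n → F)) (hu : IsRat F₀ P u) (hu0 : u ≠ 0)
    (h : ∀ x, IsRat F₀ P x → Cfsg.hermForm n F q x u = 0 → Cfsg.hermForm n F q x a = 0) : ∃ c : F, a = c • u := by
  obtain ⟨w, hw, hwu⟩ := R.dual1 u hu hu0
  refine ⟨Cfsg.hermForm n F q a w, ?_⟩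
  have e : a - (Cfsg.hermForm n F q a w) • u = 0 := by
    apply R.span0
    intro x hx
    have hx' : IsRat F₀ P (x - (Cfsg.hermForm n F q x u) • w) :=
      isRat_sub hx (isRat_smul _ (R.frat x u hx hu) hw)
    have h1 := h _ hx' (by
      rw [uherm_sub_left, uherm_smul_left, hwu, mul_one, sub_self])
    rw [uherm_sub_left, uherm_smul_left] at h1
    rw [uherm_sub_right Φ, uherm_smul_right Φ, uherm_conj Φ]
    linear_combination h1
  exact sub_eq_zero.mp e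

theorem RatU.dual2 (R : RatU Φ F₀ ε P Q) (u v : (Fin n → F)) (hu : IsRat F₀ P u) (hv : IsRat F₀ P v)
    (h : ∀ c : F, u ≠ c • v) :
    ∃ z, IsRat F₀ P z ∧ Cfsg.hermForm n F q z v = 0 ∧ Cfsg.hermForm n F q z u = 1 := by
  have h1 : ∃ x, IsRat F₀ P x ∧ Cfsg.hermForm n F q x v = 0 ∧ Cfsg.hermForm n F q x u ≠ 0 := by
    by_cases hv0 : v = 0
    · have hu0 : u ≠ 0 := by
        intro h0
        apply h 0
        rw [h0, zero_smul]
      obtain ⟨z, hz, hzu⟩ := R.dual1 u hu hu0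
      refine ⟨z, hz, ?_, ?_⟩
      · rw [hv0, uherm_zero_right Φ]
      · rw [hzu]
        exact one_ne_zero
    · by_contra hcon
      push Not at hcon
      obtain ⟨c, hc⟩ := R.perp_span u v hv hv0 (fun x hx hxv => hcon x hx hxv)
      exact h c hc
  obtain ⟨x, hx, hxv, hxu⟩ := h1
  refine ⟨(Cfsg.hermForm n F q x u)⁻¹ • x, isRat_smul _ (F₀.inv_mem (R.frat x u hx hu)) hx, ?_, ?_⟩
  · rw [uherm_smul_left, hxv, mul_zero]
  · rw [uherm_smul_left, inv_mul_cancel₀ hxu]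

theorem RatU.perpL (R : RatU Φ F₀ ε P Q) (l : List (Fin n → F)) (hl : ∀ a ∈ l, IsRat F₀ P a)
    (hlen : l.length < n) :
    ∃ z, IsRat F₀ P z ∧ z ≠ 0 ∧ ∀ a ∈ l, Cfsg.hermForm n F q z a = 0 := by
  obtain ⟨t, ht0, ht⟩ := Cfsg.Agent.S5659.perpL (q := q) l hlen
  have h1 : ∃ x, IsRat F₀ P x ∧ Cfsg.hermForm n F q x t ≠ 0 := by
    by_contra hcon
    push Not at hcon
    exact ht0 (R.span0 t hcon)
  obtain ⟨v₀, hv₀, hv₀t⟩ := h1
  have hne : Cfsg.hermForm n F q t v₀ ≠ 0 := um_ne_symm Φ _ _ hv₀t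
  obtain ⟨t₁, ht₁⟩ : ∃ t₁, t₁ = (Cfsg.hermForm n F q t v₀)⁻¹ • t := ⟨_, rfl⟩
  obtain ⟨x', hx', hx'2⟩ := R.rat t₁
  have e1 : Cfsg.hermForm n F q t₁ v₀ = 1 := by
    rw [ht₁, uherm_smul_left, inv_mul_cancel₀ hne]
  refine ⟨x', hx', ?_, ?_⟩
  · intro h0
    have h2 := hx'2 v₀ hv₀ (by rw [e1]; exact F₀.one_mem)
    rw [h0, uherm_zero_left, e1] at h2
    exact zero_ne_one h2
  · intro a ha
    have e2 : Cfsg.hermForm n F q t₁ a = 0 := by
      rw [ht₁, uherm_smul_left, ht a ha, mul_zero]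
    rw [hx'2 a (hl a ha) (by rw [e2]; exact F₀.zero_mem), e2]

theorem RatU.self_fix (R : RatU Φ F₀ ε P Q) (x : (Fin n → F)) : Φ.φ (Cfsg.hermForm n F q x x) = Cfsg.hermForm n F q x x := uherm_conj Φ x x

theorem RatU.mkiso (R : RatU Φ F₀ ε P Q) (z x₀ : (Fin n → F)) (hz : IsRat F₀ P z) (hx₀ : IsRat F₀ P x₀)
    (hx₀i : Cfsg.hermForm n F q x₀ x₀ = 0) (h1 : Cfsg.hermForm n F q z x₀ = 1) :
    ∃ t ∈ F₀, Cfsg.hermForm n F q (z + t • x₀) (z + t • x₀) = 0 := by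
  obtain ⟨t, ht, htt⟩ := R.tr (-(Cfsg.hermForm n F q z z)) (F₀.neg_mem (R.frat z z hz hz)) (by
    rw [map_neg, uherm_conj Φ])
  refine ⟨t, ht, ?_⟩
  have h2 : Cfsg.hermForm n F q x₀ z = 1 := by rw [← uherm_conj Φ z x₀, h1, map_one]
  simp only [uherm_add_left, uherm_add_right Φ, uherm_smul_left, uherm_smul_right Φ, hx₀i, h1,
    h2]
  linear_combination htt

theorem RatU.perpLI (R : RatU Φ F₀ ε P Q) (l : List (Fin n → F)) (hl : ∀ a ∈ l, IsRat F₀ P a)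
    (hlen : l.length + 1 < n) :
    ∃ z, IsRat F₀ P z ∧ z ≠ 0 ∧ Cfsg.hermForm n F q z z = 0 ∧ ∀ a ∈ l, Cfsg.hermForm n F q z a = 0 := by
  obtain ⟨x, hx, hx0, hxl⟩ := R.perpL l hl (by omega)
  by_cases hxx : Cfsg.hermForm n F q x x = 0
  · exact ⟨x, hx, hx0, hxx, hxl⟩
  obtain ⟨y, hy, hy0, hyl⟩ := R.perpL (x :: l) (by
    intro a ha
    rcases List.mem_cons.mp ha with rfl | ha'
    · exact hx
    · exact hl a ha') (by rw [List.length_cons]; omega)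
  by_cases hyy : Cfsg.hermForm n F q y y = 0
  · exact ⟨y, hy, hy0, hyy, fun a ha => hyl a (List.mem_cons_of_mem _ ha)⟩
  have hyx : Cfsg.hermForm n F q y x = 0 := hyl x List.mem_cons_self
  have hxy : Cfsg.hermForm n F q x y = 0 := um_symm Φ _ _ hyx
  obtain ⟨α, hα⟩ : ∃ α, α = Cfsg.hermForm n F q x x := ⟨_, rfl⟩
  obtain ⟨β, hβ⟩ : ∃ β, β = Cfsg.hermForm n F q y y := ⟨_, rfl⟩
  have hαF : α ∈ F₀ := by rw [hα]; exact R.frat x x hx hx
  have hβF : β ∈ F₀ := by rw [hβ]; exact R.frat y y hy hy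
  have hα0 : α ≠ 0 := by rw [hα]; exact hxx
  have hβ0 : β ≠ 0 := by rw [hβ]; exact hyy
  have hαf : Φ.φ α = α := by rw [hα]; exact uherm_conj Φ x x
  have hβf : Φ.φ β = β := by rw [hβ]; exact uherm_conj Φ y y
  obtain ⟨μ, hμ, hμμ⟩ := R.nm (-(α / β)) (F₀.neg_mem (F₀.div_mem hαF hβF))
    (neg_ne_zero.mpr (div_ne_zero hα0 hβ0)) (by rw [map_neg, map_div₀, hαf, hβf])
  refine ⟨x + μ • y, isRat_add hx (isRat_smul μ hμ hy), ?_, ?_, ?_⟩
  · intro h0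
    have h2 : Cfsg.hermForm n F q (x + μ • y) x = 0 := by rw [h0, uherm_zero_left]
    rw [uherm_add_left, uherm_smul_left, hyx, mul_zero, add_zero] at h2
    exact hxx h2
  · simp only [uherm_add_left, uherm_add_right Φ, uherm_smul_left, uherm_smul_right Φ, hxy, hyx,
      ← hα, ← hβ, mul_zero, add_zero, zero_add]
    have e : α + Φ.φ μ * (μ * β) = α + (μ * Φ.φ μ) * β := by ring
    rw [e, hμμ]
    field_simp
    ring
  · intro a ha
    rw [uherm_add_left, uherm_smul_left, hxl a ha, hyl a (List.mem_cons_of_mem _ ha), mul_zero,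
      add_zero]

/-- a rational hyperbolic pair orthogonal to a non-zero rational vector -/
theorem RatU.hyp1 (R : RatU Φ F₀ ε P Q) (hn : 13 ≤ n) (u : (Fin n → F)) (hu : IsRat F₀ P u) (hu0 : u ≠ 0) :
    ∃ e f, IsRat F₀ P e ∧ IsRat F₀ P f ∧ Cfsg.hermForm n F q e e = 0 ∧ Cfsg.hermForm n F q f f = 0 ∧ Cfsg.hermForm n F q f e = 1 ∧ Cfsg.hermForm n F q e u = 0 ∧ Cfsg.hermForm n F q f u = 0 := by
  obtain ⟨zu, hzu, hzuu⟩ := R.dual1 u hu hu0
  obtain ⟨e, he, he0, hee, heL⟩ := R.perpLI [u, zu] (by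
    intro a ha
    simp only [List.mem_cons, List.not_mem_nil, or_false] at ha
    rcases ha with rfl | rfl
    · exact hu
    · exact hzu) (by simp only [List.length_cons, List.length_nil]; omega)
  have heu : Cfsg.hermForm n F q e u = 0 := heL u (by simp)
  have hezu : Cfsg.hermForm n F q e zu = 0 := heL zu (by simp)
  have hzue : Cfsg.hermForm n F q zu e = 0 := um_symm Φ _ _ hezu
  obtain ⟨y, hy, hye⟩ := R.dual1 e he he0
  obtain ⟨f₀, hf₀⟩ : ∃ f₀ : (Fin n → F), f₀ = y - (Cfsg.hermForm n F q y u) • zu := ⟨_, rfl⟩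
  have hf₀r : IsRat F₀ P f₀ := by
    rw [hf₀]
    exact isRat_sub hy (isRat_smul _ (R.frat y u hy hu) hzu)
  have hf₀u : Cfsg.hermForm n F q f₀ u = 0 := by
    rw [hf₀, uherm_sub_left, uherm_smul_left, hzuu, mul_one, sub_self]
  have hf₀e : Cfsg.hermForm n F q f₀ e = 1 := by
    rw [hf₀, uherm_sub_left, uherm_smul_left, hzue, mul_zero, sub_zero, hye]
  obtain ⟨t, ht, htt⟩ := R.mkiso f₀ e hf₀r he hee hf₀e
  refine ⟨e, f₀ + t • e, he, isRat_add hf₀r (isRat_smul t ht he), hee, htt, ?_, heu, ?_⟩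
  · rw [uherm_add_left, uherm_smul_left, hee, mul_zero, add_zero, hf₀e]
  · rw [uherm_add_left, uherm_smul_left, heu, mul_zero, add_zero, hf₀u]

/-- a rational hyperbolic pair orthogonal to two independent rational vectors -/
theorem RatU.hyp2 (R : RatU Φ F₀ ε P Q) (hn : 13 ≤ n) (u x : (Fin n → F)) (hu : IsRat F₀ P u) (hx : IsRat F₀ P x)
    (h1 : ∀ c : F, u ≠ c • x) (h2 : ∀ c : F, x ≠ c • u) :
    ∃ e f, IsRat F₀ P e ∧ IsRat F₀ P f ∧ Cfsg.hermForm n F q e e = 0 ∧ Cfsg.hermForm n F q f f = 0 ∧ Cfsg.hermForm n F q f e = 1 ∧ Cfsg.hermForm n F q e u = 0 ∧ Cfsg.hermForm n F q f u = 0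
      ∧ Cfsg.hermForm n F q e x = 0 ∧ Cfsg.hermForm n F q f x = 0 := by
  obtain ⟨zu, hzu, hzux, hzuu⟩ := R.dual2 u x hu hx h1
  obtain ⟨zx, hzx, hzxu, hzxx⟩ := R.dual2 x u hx hu h2
  obtain ⟨e, he, he0, hee, heL⟩ := R.perpLI [u, x, zu, zx] (by
    intro a ha
    simp only [List.mem_cons, List.not_mem_nil, or_false] at ha
    rcases ha with rfl | rfl | rfl | rfl
    · exact hu
    · exact hx
    · exact hzu
    · exact hzx) (by simp only [List.length_cons, List.length_nil]; omega)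
  have heu : Cfsg.hermForm n F q e u = 0 := heL u (by simp)
  have hex : Cfsg.hermForm n F q e x = 0 := heL x (by simp)
  have hezu : Cfsg.hermForm n F q e zu = 0 := heL zu (by simp)
  have hezx : Cfsg.hermForm n F q e zx = 0 := heL zx (by simp)
  have hzue : Cfsg.hermForm n F q zu e = 0 := um_symm Φ _ _ hezu
  have hzxe : Cfsg.hermForm n F q zx e = 0 := um_symm Φ _ _ hezx
  obtain ⟨y, hy, hye⟩ := R.dual1 e he he0
  obtain ⟨f₀, hf₀⟩ : ∃ f₀ : (Fin n → F), f₀ = y - (Cfsg.hermForm n F q y u) • zu - (Cfsg.hermForm n F q y x) • zx := ⟨_, rfl⟩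
  have hf₀r : IsRat F₀ P f₀ := by
    rw [hf₀]
    exact isRat_sub (isRat_sub hy (isRat_smul _ (R.frat y u hy hu) hzu))
      (isRat_smul _ (R.frat y x hy hx) hzx)
  have hf₀u : Cfsg.hermForm n F q f₀ u = 0 := by
    rw [hf₀, uherm_sub_left, uherm_sub_left, uherm_smul_left, uherm_smul_left, hzuu, hzxu]
    ring
  have hf₀x : Cfsg.hermForm n F q f₀ x = 0 := by
    rw [hf₀, uherm_sub_left, uherm_sub_left, uherm_smul_left, uherm_smul_left, hzux, hzxx]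
    ring
  have hf₀e : Cfsg.hermForm n F q f₀ e = 1 := by
    rw [hf₀, uherm_sub_left, uherm_sub_left, uherm_smul_left, uherm_smul_left, hzue, hzxe, hye]
    ring
  obtain ⟨t, ht, htt⟩ := R.mkiso f₀ e hf₀r he hee hf₀e
  refine ⟨e, f₀ + t • e, he, isRat_add hf₀r (isRat_smul t ht he), hee, htt, ?_, heu, ?_, hex, ?_⟩
  · rw [uherm_add_left, uherm_smul_left, hee, mul_zero, add_zero, hf₀e]
  · rw [uherm_add_left, uherm_smul_left, heu, mul_zero, add_zero, hf₀u]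
  · rw [uherm_add_left, uherm_smul_left, hex, mul_zero, add_zero, hf₀x]

/-- every rational vector is isotropic modulo a rational hyperbolic pair -/
theorem RatU.iso_dec (R : RatU Φ F₀ ε P Q) (e f x : (Fin n → F)) (he : IsRat F₀ P e) (hf : IsRat F₀ P f) (hx : IsRat F₀ P x)
    (hee : Cfsg.hermForm n F q e e = 0) (hff : Cfsg.hermForm n F q f f = 0) (hfe : Cfsg.hermForm n F q f e = 1) :
    ∃ α ∈ F₀, ∃ β ∈ F₀, Cfsg.hermForm n F q (x + α • e + β • f) (x + α • e + β • f) = 0 := by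
  have hef : Cfsg.hermForm n F q e f = 1 := by rw [← uherm_conj Φ f e, hfe, map_one]
  obtain ⟨A, hA⟩ : ∃ A, A = Cfsg.hermForm n F q x e := ⟨_, rfl⟩
  obtain ⟨B, hB⟩ : ∃ B, B = Cfsg.hermForm n F q x f := ⟨_, rfl⟩
  obtain ⟨N, hN⟩ : ∃ N, N = Cfsg.hermForm n F q x x := ⟨_, rfl⟩
  have hAF : A ∈ F₀ := by rw [hA]; exact R.frat x e hx he
  have hBF : B ∈ F₀ := by rw [hB]; exact R.frat x f hx hf
  have hNF : N ∈ F₀ := by rw [hN]; exact R.frat x x hx hx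
  have hNf : Φ.φ N = N := by rw [hN]; exact uherm_conj Φ x x
  have hex : Cfsg.hermForm n F q e x = Φ.φ A := by rw [hA, uherm_conj Φ]
  have hfx : Cfsg.hermForm n F q f x = Φ.φ B := by rw [hB, uherm_conj Φ]
  obtain ⟨β, hβ⟩ : ∃ β, β = 1 - A := ⟨_, rfl⟩
  have hβF : β ∈ F₀ := by rw [hβ]; exact F₀.sub_mem F₀.one_mem hAF
  have hφβ : Φ.φ β = 1 - Φ.φ A := by rw [hβ, map_sub, map_one]
  obtain ⟨α, hα, hαα⟩ := R.tr (-(N + β * Φ.φ B + Φ.φ β * B))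
    (F₀.neg_mem (F₀.add_mem (F₀.add_mem hNF (F₀.mul_mem hβF (R.stab _ hBF)))
      (F₀.mul_mem (R.stab _ hβF) hBF))) (by
    simp only [map_neg, map_add, map_mul, Φ.hφ2, hNf]
    ring)
  refine ⟨α, hα, β, hβF, ?_⟩
  simp only [uherm_add_left, uherm_add_right Φ, uherm_smul_left, uherm_smul_right Φ, hee, hff,
    hfe, hef, hex, hfx, ← hA, ← hB, ← hN, hφβ]
  rw [hφβ] at hαα
  rw [hβ] at hαα ⊢
  linear_combination hαα

end rat
end Cfsg.Agent.H6SuSub
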