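import Mathlib
import Cfsg.Agent.Helper6.SuSubA

set_option autoImplicit false

namespace Cfsg.Agent.H6SuSub

open Matrix Cfsg.Agent.Helper3 Cfsg.Agent.Helper16 Cfsg.Agent.Helper6 Cfsg.Agent.S5643 Cfsg.Agent.S5660

section alg

variable {F : Type*} [Field F] [Fintype F] {n q : ℕ}

theorem isSg_conj (Φ : Frob F q) (A g : ↥(Cfsg.SU n F q)) (a b : (Fin n → F)) (c : F) (h : IsSg Φ g a b c) :
    IsSg Φ (A * g * A⁻¹) (sact A a) (sact A b) c := by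
  intro u
  rw [sact_mul, sact_mul, h (sact A⁻¹ u), sact_sub, sact_add, sact_smul, sact_smul,
    sact_inv_right]
  have e : ∀ v : (Fin n → F), Cfsg.hermForm n F q (sact A⁻¹ u) v = Cfsg.hermForm n F q u (sact A v) := by
    intro v
    rw [← sact_herm A (sact A⁻¹ u) v, sact_inv_right]
  rw [e, e]

theorem isSg_unique (Φ : Frob F q) (g g' : ↥(Cfsg.SU n F q)) (a b : (Fin n → F)) (c : F) (h : IsSg Φ g a b c)
    (h' : IsSg Φ g' a b c) : g = g' :=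
  su_ext g g' (fun u => by rw [h u, h' u])

theorem isSg_scale (Φ : Frob F q) (g : ↥(Cfsg.SU n F q)) (a b : (Fin n → F)) (c m₁ m₂ : F)
    (h : IsSg Φ g (m₁ • a) (m₂ • b) c) : IsSg Φ g a b (c * Φ.φ m₁ * m₂) := by
  intro x
  rw [h x, uherm_smul_right Φ, uherm_smul_right Φ, map_mul, map_mul, Φ.hφ2]
  module

theorem isSg_scale' (Φ : Frob F q) (g : ↥(Cfsg.SU n F q)) (a b : (Fin n → F)) (c m₁ m₂ : F)
    (h : IsSg Φ g a b (c * Φ.φ m₁ * m₂)) : IsSg Φ g (m₁ • a) (m₂ • b) c := by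
  intro x
  rw [h x, uherm_smul_right Φ, uherm_smul_right Φ, map_mul, map_mul, Φ.hφ2]
  module

theorem isUt_scale (Φ : Frob F q) (g : ↥(Cfsg.SU n F q)) (y : (Fin n → F)) (c l : F) (h : IsUt g (l • y) c) :
    IsUt g y (c * (l * Φ.φ l)) := by
  intro x
  rw [h x, uherm_smul_right Φ]
  module

theorem yfu (Φ : Frob F q) (g₁ g₂ : ↥(Cfsg.SU n F q)) (v u : (Fin n → F)) (μ c : F) (hvv : Cfsg.hermForm n F q v v = 0)
    (hvu : Cfsg.hermForm n F q v u = 0) (huu : Cfsg.hermForm n F q u u = 0) (h1 : IsUt g₁ (v + μ • u) c) (h2 : IsUt g₂ v (-c))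
    (x : (Fin n → F)) : sact (g₁ * g₂) x = x + (c * μ * Cfsg.hermForm n F q x v) • u + (c * Φ.φ μ * Cfsg.hermForm n F q x u) • v
      + (c * μ * Φ.φ μ * Cfsg.hermForm n F q x u) • u := by
  have huv := um_symm Φ _ _ hvu
  rw [sact_mul, h2 x, h1]
  simp only [uherm_add_left, uherm_add_right Φ, uherm_smul_left, uherm_smul_right Φ, hvv, hvu,
    huv, huu]
  module

theorem sg_add (Φ : Frob F q) (g₁ g₂ : ↥(Cfsg.SU n F q)) (a b : (Fin n → F)) (c d : F) (haa : Cfsg.hermForm n F q a a = 0)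
    (hbb : Cfsg.hermForm n F q b b = 0) (hab : Cfsg.hermForm n F q a b = 0) (h1 : IsSg Φ g₁ a b c) (h2 : IsSg Φ g₂ a b d) :
    IsSg Φ (g₁ * g₂) a b (c + d) := by
  have hba := um_symm Φ _ _ hab
  intro x
  rw [sact_mul, h2 x, h1]
  simp only [uherm_add_left, uherm_sub_left, uherm_smul_left, haa, hbb, hab, hba, map_add]
  module

theorem sg_inv (Φ : Frob F q) (g : ↥(Cfsg.SU n F q)) (a b : (Fin n → F)) (c : F) (haa : Cfsg.hermForm n F q a a = 0)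
    (hbb : Cfsg.hermForm n F q b b = 0) (hab : Cfsg.hermForm n F q a b = 0) (h : IsSg Φ g a b c) : IsSg Φ g⁻¹ a b (-c) := by
  have hba := um_symm Φ _ _ hab
  intro u
  have h1 : sact g (u + (-c * Cfsg.hermForm n F q u a) • b - (Φ.φ (-c) * Cfsg.hermForm n F q u b) • a) = u := by
    rw [h]
    simp only [uherm_add_left, uherm_sub_left, uherm_smul_left, haa, hbb, hab, hba, map_neg]
    module
  have h2 := congrArg (sact g⁻¹) h1
  rw [sact_inv_left] at h2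
  exact h2.symm

theorem sg_add_left (Φ : Frob F q) (g₁ g₂ : ↥(Cfsg.SU n F q)) (a a' b : (Fin n → F)) (c μ : F) (hbb : Cfsg.hermForm n F q b b = 0)
    (hab : Cfsg.hermForm n F q a b = 0) (ha'b : Cfsg.hermForm n F q a' b = 0) (haa' : Cfsg.hermForm n F q a a' = 0)
    (h1 : IsSg Φ g₁ a' b (c * Φ.φ μ)) (h2 : IsSg Φ g₂ a b c) :
    IsSg Φ (g₁ * g₂) (a + μ • a') b c := by
  have hba := um_symm Φ _ _ hab
  have hba' := um_symm Φ _ _ ha'b
  intro x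
  rw [sact_mul, h2 x, h1]
  simp only [uherm_add_left, uherm_add_right Φ, uherm_sub_left, uherm_smul_left,
    uherm_smul_right Φ, hbb, hab, ha'b, haa', hba, hba', map_mul, Φ.hφ2]
  module

theorem sg_rel2 (Φ : Frob F q) (gA gB gC : ↥(Cfsg.SU n F q)) (a b a' b' : (Fin n → F)) (c d : F)
    (ha : Cfsg.hermForm n F q a a = 0) (hb : Cfsg.hermForm n F q b b = 0) (ha' : Cfsg.hermForm n F q a' a' = 0) (hb' : Cfsg.hermForm n F q b' b' = 0)
    (hab : Cfsg.hermForm n F q a b = 0) (ha'b' : Cfsg.hermForm n F q a' b' = 0)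
    (haa' : Cfsg.hermForm n F q a a' = 0) (hab' : Cfsg.hermForm n F q a b' = 0) (hba' : Cfsg.hermForm n F q b a' = 0)
    (hA : IsSg Φ gA a b c) (hB : IsSg Φ gB a' b' d)
    (hC : IsSg Φ gC a a' (c * Φ.φ d * Cfsg.hermForm n F q b b')) : gA * gB = gC * (gB * gA) := by
  have hba := um_symm Φ a b hab
  have hb'a' := um_symm Φ a' b' ha'b'
  have ha'a := um_symm Φ a a' haa'
  have hb'a := um_symm Φ a b' hab'
  have ha'b := um_symm Φ b a' hba'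
  have hgA' : ∀ x, sact gA x = x + (c * Cfsg.hermForm n F q x a) • b - (Φ.φ c * Cfsg.hermForm n F q x b) • a := hA
  have hgB' : ∀ x, sact gB x = x + (d * Cfsg.hermForm n F q x a') • b' - (Φ.φ d * Cfsg.hermForm n F q x b') • a' := hB
  have hgC' : ∀ x, sact gC x = x + (c * Φ.φ d * Cfsg.hermForm n F q b b' * Cfsg.hermForm n F q x a) • a'
      - (Φ.φ (c * Φ.φ d * Cfsg.hermForm n F q b b') * Cfsg.hermForm n F q x a') • a := hC
  apply su_ext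
  intro x
  simp only [sact_mul, hgA', hgB', hgC', uherm_add_left, uherm_sub_left, uherm_smul_left, ha,
    hb, ha', hb', hab, ha'b', haa', hab', hba', hba, hb'a', ha'a, hb'a, ha'b, map_mul,
    Φ.hφ2, uherm_conj Φ]
  module

variable {Φ : Frob F q} {F₀ : Subfield F} {ε : F} {P Q : (Matrix (Fin n) (Fin n) F)}

theorem RatU.ut_rat (R : RatU Φ F₀ ε P Q) (w : (Fin n → F)) (hw : IsRat F₀ P w) (c : F) (hc : c ∈ F₀)
    (g : ↥(Cfsg.SU n F q)) (hg : IsUt g w c) : ∀ x, IsRat F₀ P x → IsRat F₀ P (sact g x) := by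
  intro x hx
  rw [hg x]
  exact isRat_add hx (isRat_smul _ (F₀.mul_mem hc (R.frat x w hx hw)) hw)

theorem RatU.sg_rat (R : RatU Φ F₀ ε P Q) (a b : (Fin n → F)) (ha : IsRat F₀ P a) (hb : IsRat F₀ P b) (c : F)
    (hc : c ∈ F₀) (g : ↥(Cfsg.SU n F q)) (hg : IsSg Φ g a b c) : ∀ x, IsRat F₀ P x → IsRat F₀ P (sact g x) := by
  intro x hx
  rw [hg x]
  exact isRat_sub (isRat_add hx (isRat_smul _ (F₀.mul_mem hc (R.frat x a hx ha)) hb))
    (isRat_smul _ (F₀.mul_mem (R.stab c hc) (R.frat x b hx hb)) ha)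

theorem RatU.partner (R : RatU Φ F₀ ε P Q) (w : (Fin n → F)) (hw : IsRat F₀ P w) (hw0 : w ≠ 0)
    (hww : Cfsg.hermForm n F q w w = 0) : ∃ f, IsRat F₀ P f ∧ Cfsg.hermForm n F q f f = 0 ∧ Cfsg.hermForm n F q f w = 1 := by
  obtain ⟨z, hz, hzw⟩ := R.dual1 w hw hw0
  obtain ⟨t, ht, htt⟩ := R.mkiso z w hz hw hww hzw
  refine ⟨z + t • w, isRat_add hz (isRat_smul t ht hw), htt, ?_⟩
  rw [uherm_add_left, uherm_smul_left, hww, mul_zero, add_zero, hzw]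

theorem RatU.two_mix (R : RatU Φ F₀ ε P Q) (f₁ f₃ a c : (Fin n → F)) (hf₁ : IsRat F₀ P f₁) (hf₃ : IsRat F₀ P f₃)
    (hf₁f : Cfsg.hermForm n F q f₁ f₁ = 0) (hf₃f : Cfsg.hermForm n F q f₃ f₃ = 0) (hf₁a : Cfsg.hermForm n F q f₁ a = 1) (hf₃c : Cfsg.hermForm n F q f₃ c = 1) :
    ∃ α ∈ F₀, ∃ β ∈ F₀, Cfsg.hermForm n F q (α • f₁ + β • f₃) (α • f₁ + β • f₃) = 0
      ∧ Cfsg.hermForm n F q (α • f₁ + β • f₃) a ≠ 0 ∧ Cfsg.hermForm n F q (α • f₁ + β • f₃) c ≠ 0 := by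
  by_cases c1 : Cfsg.hermForm n F q f₁ c = 0
  · by_cases c2 : Cfsg.hermForm n F q f₃ a = 0
    · obtain ⟨s, hs, hs0, hiso⟩ : ∃ s ∈ F₀, s ≠ 0 ∧ Cfsg.hermForm n F q (f₁ + s • f₃) (f₁ + s • f₃) = 0 := by
        by_cases c3 : Cfsg.hermForm n F q f₁ f₃ = 0
        · refine ⟨1, F₀.one_mem, one_ne_zero, ?_⟩
          have c4 := um_symm Φ _ _ c3
          simp only [uherm_add_left, uherm_add_right Φ, uherm_smul_left, uherm_smul_right Φ,
            hf₁f, hf₃f, c3, c4, mul_zero, add_zero]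
        · obtain ⟨κ, hκ⟩ : ∃ κ, κ = Cfsg.hermForm n F q f₁ f₃ := ⟨_, rfl⟩
          have hκF : κ ∈ F₀ := by rw [hκ]; exact R.frat _ _ hf₁ hf₃
          have hκ0 : κ ≠ 0 := by rw [hκ]; exact c3
          have h31 : Cfsg.hermForm n F q f₃ f₁ = Φ.φ κ := by rw [hκ, uherm_conj Φ]
          have hφκ0 : Φ.φ κ ≠ 0 := (map_ne_zero Φ.φ).mpr hκ0
          obtain ⟨s, hsdef⟩ : ∃ s, s = Φ.φ (ε / κ) := ⟨_, rfl⟩
          have hφs : Φ.φ s = ε / κ := by rw [hsdef, Φ.hφ2]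
          have hs' : s = -ε / Φ.φ κ := by
            rw [hsdef, map_div₀]
            congr 1
            linear_combination R.es
          refine ⟨s, ?_, ?_, ?_⟩
          · rw [hsdef]
            exact R.stab _ (F₀.div_mem R.eF hκF)
          · rw [hs']
            exact div_ne_zero (neg_ne_zero.mpr R.e0) hφκ0
          · simp only [uherm_add_left, uherm_add_right Φ, uherm_smul_left, uherm_smul_right Φ,
              hf₁f, hf₃f, h31, ← hκ, hφs]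
            rw [hs']
            field_simp
            ring
      refine ⟨1, F₀.one_mem, s, hs, ?_, ?_, ?_⟩
      · rw [one_smul]
        exact hiso
      · rw [one_smul, uherm_add_left, uherm_smul_left, c2, mul_zero, add_zero, hf₁a]
        exact one_ne_zero
      · rw [one_smul, uherm_add_left, uherm_smul_left, c1, zero_add, hf₃c, mul_one]
        exact hs0
    · refine ⟨0, F₀.zero_mem, 1, F₀.one_mem, ?_, ?_, ?_⟩
      · rw [zero_smul, zero_add, one_smul]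
        exact hf₃f
      · rw [zero_smul, zero_add, one_smul]
        exact c2
      · rw [zero_smul, zero_add, one_smul, hf₃c]
        exact one_ne_zero
  · refine ⟨1, F₀.one_mem, 0, F₀.zero_mem, ?_, ?_, ?_⟩
    · rw [zero_smul, add_zero, one_smul]
      exact hf₁f
    · rw [zero_smul, add_zero, one_smul, hf₁a]
      exact one_ne_zero
    · rw [zero_smul, add_zero, one_smul]
      exact c1

theorem RatU.two_hyp_iso (R : RatU Φ F₀ ε P Q) (a c : (Fin n → F)) (ha : IsRat F₀ P a) (hc : IsRat F₀ P c)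
    (ha0 : a ≠ 0) (hc0 : c ≠ 0) (haa : Cfsg.hermForm n F q a a = 0) (hcc : Cfsg.hermForm n F q c c = 0) :
    ∃ z, IsRat F₀ P z ∧ Cfsg.hermForm n F q z z = 0 ∧ Cfsg.hermForm n F q z a ≠ 0 ∧ Cfsg.hermForm n F q z c ≠ 0 := by
  obtain ⟨f₁, hf₁, hf₁f, hf₁a⟩ := R.partner a ha ha0 haa
  obtain ⟨f₃, hf₃, hf₃f, hf₃c⟩ := R.partner c hc hc0 hcc
  obtain ⟨α, hα, β, hβ, h1, h2, h3⟩ := R.two_mix f₁ f₃ a c hf₁ hf₃ hf₁f hf₃f hf₁a hf₃c
  exact ⟨_, isRat_add (isRat_smul α hα hf₁) (isRat_smul β hβ hf₃), h1, h2, h3⟩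

theorem RatU.partner_perp (R : RatU Φ F₀ ε P Q) (c b : (Fin n → F)) (hc : IsRat F₀ P c) (hb : IsRat F₀ P b)
    (hbb : Cfsg.hermForm n F q b b = 0) (hbc : Cfsg.hermForm n F q b c = 0) (hbi : ∀ t : F, b ≠ t • c) :
    ∃ f, IsRat F₀ P f ∧ Cfsg.hermForm n F q f f = 0 ∧ Cfsg.hermForm n F q f b = 1 ∧ Cfsg.hermForm n F q f c = 0 := by
  obtain ⟨z, hz, hzc, hzb⟩ := R.dual2 b c hb hc hbi
  obtain ⟨t, ht, htt⟩ := R.mkiso z b hz hb hbb hzb
  refine ⟨z + t • b, isRat_add hz (isRat_smul t ht hb), htt, ?_, ?_⟩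
  · rw [uherm_add_left, uherm_smul_left, hbb, mul_zero, add_zero, hzb]
  · rw [uherm_add_left, uherm_smul_left, hbc, mul_zero, add_zero, hzc]

theorem RatU.two_hyp_perp_iso (R : RatU Φ F₀ ε P Q) (c b d : (Fin n → F)) (hc : IsRat F₀ P c) (hb : IsRat F₀ P b)
    (hd : IsRat F₀ P d) (hbb : Cfsg.hermForm n F q b b = 0) (hdd : Cfsg.hermForm n F q d d = 0) (hbc : Cfsg.hermForm n F q b c = 0) (hdc : Cfsg.hermForm n F q d c = 0)
    (hbi : ∀ t : F, b ≠ t • c) (hdi : ∀ t : F, d ≠ t • c) :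
    ∃ z, IsRat F₀ P z ∧ Cfsg.hermForm n F q z z = 0 ∧ Cfsg.hermForm n F q z c = 0 ∧ Cfsg.hermForm n F q z b ≠ 0 ∧ Cfsg.hermForm n F q z d ≠ 0 := by
  obtain ⟨f₁, hf₁, hf₁f, hf₁b, hf₁c⟩ := R.partner_perp c b hc hb hbb hbc hbi
  obtain ⟨f₃, hf₃, hf₃f, hf₃d, hf₃c⟩ := R.partner_perp c d hc hd hdd hdc hdi
  obtain ⟨α, hα, β, hβ, h1, h2, h3⟩ := R.two_mix f₁ f₃ b d hf₁ hf₃ hf₁f hf₃f hf₁b hf₃d
  refine ⟨_, isRat_add (isRat_smul α hα hf₁) (isRat_smul β hβ hf₃), h1, ?_, h2, h3⟩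
  rw [uherm_add_left, uherm_smul_left, uherm_smul_left, hf₁c, hf₃c, mul_zero, mul_zero, add_zero]

end alg

section sfg

variable {F : Type*} [Field F] [Fintype F] {n q : ℕ}
variable {Φ : Frob F q} {F₀ : Subfield F} {ε : F} {PG : GL (Fin n) F} {Q : (Matrix (Fin n) (Fin n) F)}

theorem rat_mem_sfg_u (F₀ : Subfield F) (PG : GL (Fin n) F) (A : ↥(Cfsg.SU n F q))
    (h : ∀ x, IsRat F₀ (PG : Matrix (Fin n) (Fin n) F) x → IsRat F₀ (PG : Matrix (Fin n) (Fin n) F) (sact A x)) :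
    Matrix.SpecialLinearGroup.toGL (A : Matrix.SpecialLinearGroup (Fin n) F) ∈ Cfsg.Geo.subfieldSubgroup F₀ PG := by
  classical
  have h1 : ∀ j, ∃ u : (Fin n → F), (∀ i, u i ∈ F₀) ∧
      sact A ((PG : Matrix (Fin n) (Fin n) F) *ᵥ Pi.single j 1) = (PG : Matrix (Fin n) (Fin n) F) *ᵥ u :=
    fun j => h _ (isRat_col F₀ _ j)
  choose u hu1 hu2 using h1
  apply mem_sfg F₀ PG _ 1 one_ne_zero (Matrix.of fun i j => u j i) (fun i j => hu1 j i)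
  rw [one_smul]
  apply mat_ext_cols
  intro j
  rw [← Matrix.mulVec_mulVec, ← Matrix.mulVec_mulVec]
  have e : (Matrix.of fun i j => u j i) *ᵥ Pi.single j 1 = u j := by
    rw [Matrix.mulVec_single_one]
    rfl
  rw [e]
  exact hu2 j

theorem RatU.sfg_fix (R : RatU Φ F₀ ε (PG : Matrix (Fin n) (Fin n) F) Q) (A : ↥(Cfsg.SU n F q))
    (hA : Matrix.SpecialLinearGroup.toGL (A : Matrix.SpecialLinearGroup (Fin n) F) ∈ Cfsg.Geo.subfieldSubgroup F₀ PG)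
    (u : (Fin n → F)) (hu : IsRat F₀ (PG : Matrix (Fin n) (Fin n) F) u) (hu0 : u ≠ 0) (hfix : sact A u = u) :
    ∀ x, IsRat F₀ (PG : Matrix (Fin n) (Fin n) F) x → IsRat F₀ (PG : Matrix (Fin n) (Fin n) F) (sact A x) := by
  obtain ⟨c, hc⟩ := sfg_rat F₀ PG _ hA
  obtain ⟨u', hu', hcu⟩ := hc u hu
  have hcu' : u = c • u' := hfix.symm.trans hcu
  obtain ⟨z, hz, hzu⟩ := R.dual1 u hu hu0
  have hcF : c ∈ F₀ := by
    apply R.stab'
    have h3 : Cfsg.hermForm n F q z (c • u') = 1 := by rw [← hcu']; exact hzu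
    rw [uherm_smul_right Φ] at h3
    have e2 : Φ.φ c = (Cfsg.hermForm n F q z u')⁻¹ := eq_inv_of_mul_eq_one_left h3
    rw [e2]
    exact F₀.inv_mem (R.frat z u' hz hu')
  intro x hx
  obtain ⟨x', hx', hcx⟩ := hc x hx
  have e : sact A x = c • x' := hcx
  rw [e]
  exact isRat_smul c hcF hx'

theorem RatU.exists_not_sfg (R : RatU Φ F₀ ε (PG : Matrix (Fin n) (Fin n) F) Q) (hn : 13 ≤ n) (c₁ : F)
    (hc₁s : c₁ + Φ.φ c₁ = 0) (hc₁ : c₁ ∉ F₀) :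
    ∃ A : ↥(Cfsg.SU n F q), Matrix.SpecialLinearGroup.toGL (A : Matrix.SpecialLinearGroup (Fin n) F) ∉ Cfsg.Geo.subfieldSubgroup F₀ PG := by
  obtain ⟨u, hu, hu0, huu, -⟩ := R.perpLI [] (fun a ha => absurd ha List.not_mem_nil)
    (by simp only [List.length_nil]; omega)
  obtain ⟨z, hz, hzu⟩ := R.dual1 u hu hu0
  obtain ⟨t, ht⟩ := exists_ut Φ u c₁ huu hc₁s
  refine ⟨t, fun hmem => ?_⟩
  have hfix : sact t u = u := by
    rw [ht u, huu, mul_zero, zero_smul, add_zero]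
  have h1 := R.sfg_fix t hmem u hu hu0 hfix z hz
  rw [ht z, hzu, mul_one] at h1
  have h2 : IsRat F₀ (PG : Matrix (Fin n) (Fin n) F) (c₁ • u) := by
    have := isRat_sub h1 hz
    rwa [add_sub_cancel_left] at this
  have h3 := R.frat (c₁ • u) z h2 hz
  rw [uherm_smul_left, ← uherm_conj Φ z u, hzu, map_one, mul_one] at h3
  exact hc₁ h3

theorem RatU.mem_of_points (R : RatU Φ F₀ ε (PG : Matrix (Fin n) (Fin n) F) Q) (hn : 13 ≤ n) (A : ↥(Cfsg.SU n F q))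
    (h : ∀ x, IsRat F₀ (PG : Matrix (Fin n) (Fin n) F) x → Cfsg.hermForm n F q x x = 0 → ∃ (c : F) (x' : (Fin n → F)), IsRat F₀ (PG : Matrix (Fin n) (Fin n) F) x' ∧ sact A x = c • x') :
    Matrix.SpecialLinearGroup.toGL (A : Matrix.SpecialLinearGroup (Fin n) F) ∈ Cfsg.Geo.subfieldSubgroup F₀ PG := by
  classical
  obtain ⟨e₀, he₀, he₀0, he₀e, -⟩ := R.perpLI [] (fun a ha => absurd ha List.not_mem_nil)
    (by simp only [List.length_nil]; omega)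
  obtain ⟨c₀, e₀', he₀', hce₀⟩ := h e₀ he₀ he₀e
  have hc₀ : c₀ ≠ 0 := by
    intro h0
    apply sact_ne_zero A e₀ he₀0
    rw [hce₀, h0, zero_smul]
  have claim1 : ∀ w₁ w₂ w₁' w₂' : (Fin n → F), ∀ c₁ c₂ : F, IsRat F₀ (PG : Matrix (Fin n) (Fin n) F) w₁ → IsRat F₀ (PG : Matrix (Fin n) (Fin n) F) w₂ → IsRat F₀ (PG : Matrix (Fin n) (Fin n) F) w₁' → IsRat F₀ (PG : Matrix (Fin n) (Fin n) F) w₂' →
      Cfsg.hermForm n F q w₁ w₂ ≠ 0 → sact A w₁ = c₁ • w₁' → sact A w₂ = c₂ • w₂' → c₁ * Φ.φ c₂ ∈ F₀ := by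
    intro w₁ w₂ w₁' w₂' c₁ c₂ hw₁ hw₂ hw₁' hw₂' hne h1 h2
    have e1 : Cfsg.hermForm n F q w₁ w₂ = c₁ * Φ.φ c₂ * Cfsg.hermForm n F q w₁' w₂' := by
      rw [← sact_herm A w₁ w₂, h1, h2, uherm_smul_left, uherm_smul_right Φ]
      ring
    have hne' : Cfsg.hermForm n F q w₁' w₂' ≠ 0 := by
      intro h0
      apply hne
      rw [e1, h0, mul_zero]
    have e2 : c₁ * Φ.φ c₂ = Cfsg.hermForm n F q w₁ w₂ * (Cfsg.hermForm n F q w₁' w₂')⁻¹ := by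
      rw [e1]
      field_simp
    rw [e2]
    exact F₀.mul_mem (R.frat _ _ hw₁ hw₂) (F₀.inv_mem (R.frat _ _ hw₁' hw₂'))
  have claim2 : ∀ w, IsRat F₀ (PG : Matrix (Fin n) (Fin n) F) w → Cfsg.hermForm n F q w w = 0 → IsRat F₀ (PG : Matrix (Fin n) (Fin n) F) (c₀⁻¹ • sact A w) := by
    intro w hw hww
    by_cases hw0 : w = 0
    · rw [hw0, sact_zero, smul_zero]
      exact isRat_zero F₀ _
    obtain ⟨w₂, hw₂, hw₂w₂, hw₂e, hw₂w⟩ := R.two_hyp_iso e₀ w he₀ hw he₀0 hw0 he₀e hww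
    obtain ⟨c, w', hw', hcw⟩ := h w hw hww
    obtain ⟨c₂, w₂', hw₂', hcw₂⟩ := h w₂ hw₂ hw₂w₂
    have h1 := claim1 w w₂ w' w₂' c c₂ hw hw₂ hw' hw₂' (um_ne_symm Φ _ _ hw₂w) hcw hcw₂
    have h2 := claim1 e₀ w₂ e₀' w₂' c₀ c₂ he₀ hw₂ he₀' hw₂' (um_ne_symm Φ _ _ hw₂e) hce₀ hcw₂
    have hc₂ : c₂ ≠ 0 := by
      intro h0
      have hw₂0 : w₂ ≠ 0 := by
        intro h00
        apply hw₂e
        rw [h00, uherm_zero_left]
      apply sact_ne_zero A w₂ hw₂0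
      rw [hcw₂, h0, zero_smul]
    have hφc₂ : Φ.φ c₂ ≠ 0 := (map_ne_zero Φ.φ).mpr hc₂
    have e3 : c₀⁻¹ * c = (c * Φ.φ c₂) * (c₀ * Φ.φ c₂)⁻¹ := by
      field_simp
    rw [hcw, smul_smul, e3]
    exact isRat_smul _ (F₀.mul_mem h1 (F₀.inv_mem h2)) hw'
  have claim3 : ∀ x, IsRat F₀ (PG : Matrix (Fin n) (Fin n) F) x → IsRat F₀ (PG : Matrix (Fin n) (Fin n) F) (c₀⁻¹ • sact A x) := by
    intro x hx
    obtain ⟨f, hf, hff, hfe⟩ := R.partner e₀ he₀ he₀0 he₀e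
    obtain ⟨α, hα, β, hβ, hiso⟩ := R.iso_dec e₀ f x he₀ hf hx he₀e hff hfe
    have hb := claim2 _ (isRat_add (isRat_add hx (isRat_smul α hα he₀)) (isRat_smul β hβ hf))
      hiso
    have he := claim2 e₀ he₀ he₀e
    have hf' := claim2 f hf hff
    have e : c₀⁻¹ • sact A x = c₀⁻¹ • sact A (x + α • e₀ + β • f)
        - α • (c₀⁻¹ • sact A e₀) - β • (c₀⁻¹ • sact A f) := by
      rw [sact_add, sact_add, sact_smul, sact_smul]
      module
    rw [e]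
    exact isRat_sub (isRat_sub hb (isRat_smul α hα he)) (isRat_smul β hβ hf')
  have h2 : ∀ j, ∃ u : (Fin n → F), (∀ i, u i ∈ F₀) ∧
      c₀⁻¹ • sact A ((PG : Matrix (Fin n) (Fin n) F) *ᵥ Pi.single j 1) = (PG : Matrix (Fin n) (Fin n) F) *ᵥ u :=
    fun j => claim3 _ (isRat_col F₀ _ j)
  choose u hu1 hu2 using h2
  apply mem_sfg F₀ PG _ c₀ hc₀ (Matrix.of fun i j => u j i) (fun i j => hu1 j i)
  apply mat_ext_cols
  intro j
  rw [← Matrix.mulVec_mulVec, Matrix.smul_mulVec, ← Matrix.mulVec_mulVec]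
  have e : (Matrix.of fun i j => u j i) *ᵥ Pi.single j 1 = u j := by
    rw [Matrix.mulVec_single_one]
    rfl
  rw [e, ← hu2 j, smul_smul, mul_inv_cancel₀ hc₀, one_smul]
  rfl

end sfg
end Cfsg.Agent.H6SuSub
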