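import Mathlib
import Cfsg.Agent.Helper6.SuSubB

set_option autoImplicit false

namespace Cfsg.Agent.H6SuSub

open Matrix Cfsg.Agent.Helper3 Cfsg.Agent.Helper16 Cfsg.Agent.Helper6 Cfsg.Agent.S5643 Cfsg.Agent.S5660

section step1

variable {F : Type*} [Field F] [Fintype F] {n q : ℕ}

/-- a rational totally isotropic independent pair -/
def Good (q : ℕ) (F₀ : Subfield F) (P : (Matrix (Fin n) (Fin n) F)) (a b : (Fin n → F)) : Prop :=
  IsRat F₀ P a ∧ IsRat F₀ P b ∧ Cfsg.hermForm n F q a a = 0 ∧ Cfsg.hermForm n F q b b = 0 ∧ Cfsg.hermForm n F q a b = 0 ∧ a ≠ 0 ∧ ∀ t : F, b ≠ t • a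

theorem q_move (hF : Fintype.card F = q ^ 2) (Φ : Frob F q) (F₀ : Subfield F)
    (hstab : ∀ c ∈ F₀, Φ.φ c ∈ F₀) (M : Subgroup ↥(Cfsg.SU n F q)) (e : F)
    (a b a' b' : (Fin n → F)) (haa : Cfsg.hermForm n F q a a = 0) (hbb : Cfsg.hermForm n F q b b = 0) (hab : Cfsg.hermForm n F q a b = 0)
    (hQ : ∀ ν ∈ F₀, ∀ g : ↥(Cfsg.SU n F q), IsSg Φ g a b (ν * e) → g ∈ M)
    (k : ↥(Cfsg.SU n F q)) (hk : k ∈ M) (m₁ m₂ : F) (hm₁ : m₁ ∈ F₀) (hm₂ : m₂ ∈ F₀) (hm₁0 : m₁ ≠ 0)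
    (hm₂0 : m₂ ≠ 0) (h1 : sact k a = m₁ • a') (h2 : sact k b = m₂ • b') :
    ∀ ν ∈ F₀, ∀ g : ↥(Cfsg.SU n F q), IsSg Φ g a' b' (ν * e) → g ∈ M := by
  intro ν hν g hg
  have hφm₁0 : Φ.φ m₁ ≠ 0 := (map_ne_zero Φ.φ).mpr hm₁0
  obtain ⟨ν', hν'⟩ : ∃ ν', ν' = ν / (Φ.φ m₁ * m₂) := ⟨_, rfl⟩
  have hν'F : ν' ∈ F₀ := by
    rw [hν']
    exact F₀.div_mem hν (F₀.mul_mem (hstab _ hm₁) hm₂)
  obtain ⟨g₀, hg₀⟩ := exists_sg hF Φ a b haa hbb hab (ν' * e)
  have h3 := isSg_conj Φ k g₀ a b (ν' * e) hg₀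
  rw [h1, h2] at h3
  have h4 := isSg_scale Φ _ a' b' _ m₁ m₂ h3
  have e1 : ν' * e * Φ.φ m₁ * m₂ = ν * e := by
    rw [hν']
    field_simp
  rw [e1] at h4
  rw [isSg_unique Φ g _ a' b' _ hg h4]
  exact M.mul_mem (M.mul_mem hk (hQ ν' hν'F g₀ hg₀)) (M.inv_mem hk)

variable {Φ : Frob F q} {F₀ : Subfield F} {ε : F} {P Q : (Matrix (Fin n) (Fin n) F)}

theorem RatU.tmove (R : RatU Φ F₀ ε P Q) (M : Subgroup ↥(Cfsg.SU n F q))
    (hKr : ∀ g : ↥(Cfsg.SU n F q), (∀ x, IsRat F₀ P x → IsRat F₀ P (sact g x)) → g ∈ M)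
    (x z : (Fin n → F)) (hx : IsRat F₀ P x) (hz : IsRat F₀ P z) (hxx : Cfsg.hermForm n F q x x = 0) (hzz : Cfsg.hermForm n F q z z = 0) (hzx : Cfsg.hermForm n F q z x ≠ 0) :
    ∃ k ∈ M, ∃ μ ∈ F₀, μ ≠ 0 ∧ sact k x = μ • z ∧ (∀ v, IsRat F₀ P v → IsRat F₀ P (sact k v)) ∧
      ∀ v, Cfsg.hermForm n F q v x = 0 → Cfsg.hermForm n F q v z = 0 → sact k v = v := by
  have he0 := R.e0
  obtain ⟨κ, hκ⟩ : ∃ κ, κ = Cfsg.hermForm n F q z x := ⟨_, rfl⟩
  have hκF : κ ∈ F₀ := by rw [hκ]; exact R.frat z x hz hx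
  have hκ0 : κ ≠ 0 := by rw [hκ]; exact hzx
  have hxz : Cfsg.hermForm n F q x z = Φ.φ κ := by rw [hκ, uherm_conj Φ]
  have hφκ0 : Φ.φ κ ≠ 0 := (map_ne_zero Φ.φ).mpr hκ0
  obtain ⟨μ, hμ⟩ : ∃ μ, μ = -ε / κ := ⟨_, rfl⟩
  have hμF : μ ∈ F₀ := by rw [hμ]; exact F₀.div_mem (F₀.neg_mem R.eF) hκF
  have hμ0 : μ ≠ 0 := by rw [hμ]; exact div_ne_zero (neg_ne_zero.mpr R.e0) hκ0
  have hφε : Φ.φ ε = -ε := by linear_combination R.es
  have hφμ : Φ.φ μ = ε / Φ.φ κ := by rw [hμ, map_div₀, map_neg, hφε, neg_neg]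
  obtain ⟨v₀, hv₀⟩ : ∃ v₀ : (Fin n → F), v₀ = x - μ • z := ⟨_, rfl⟩
  have hv₀r : IsRat F₀ P v₀ := by rw [hv₀]; exact isRat_sub hx (isRat_smul μ hμF hz)
  have hv₀i : Cfsg.hermForm n F q v₀ v₀ = 0 := by
    rw [hv₀]
    simp only [uherm_sub_left, uherm_sub_right Φ, uherm_smul_left, uherm_smul_right Φ, hxx, hzz,
      hxz, ← hκ, hφμ]
    rw [hμ]
    field_simp
    ring
  have hεinv : ε⁻¹ + Φ.φ ε⁻¹ = 0 := by
    rw [map_inv₀, hφε]
    field_simp
    ring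
  obtain ⟨k, hk⟩ := exists_ut Φ v₀ ε⁻¹ hv₀i hεinv
  have hkr := R.ut_rat v₀ hv₀r ε⁻¹ (F₀.inv_mem R.eF) k hk
  refine ⟨k, hKr k hkr, μ, hμF, hμ0, ?_, hkr, ?_⟩
  · rw [hk x]
    have e : Cfsg.hermForm n F q x v₀ = -ε := by
      rw [hv₀, uherm_sub_right Φ, uherm_smul_right Φ, hxx, hxz, hφμ]
      field_simp
      ring
    have e2 : ε⁻¹ * -ε = -1 := by field_simp
    rw [e, e2, hv₀]
    module
  · intro v hvx hvz
    rw [hk v, hv₀, uherm_sub_right Φ, uherm_smul_right Φ, hvx, hvz, mul_zero, sub_zero, mul_zero,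
      zero_smul, add_zero]

theorem RatU.pi_trans (R : RatU Φ F₀ ε P Q) (hF : Fintype.card F = q ^ 2) (M : Subgroup ↥(Cfsg.SU n F q))
    (hKr : ∀ g : ↥(Cfsg.SU n F q), (∀ x, IsRat F₀ P x → IsRat F₀ P (sact g x)) → g ∈ M) (e : F)
    (a b : (Fin n → F)) (hab : Good q F₀ P a b)
    (hQ : ∀ ν ∈ F₀, ∀ g : ↥(Cfsg.SU n F q), IsSg Φ g a b (ν * e) → g ∈ M)
    (c d : (Fin n → F)) (hcd : Good q F₀ P c d) :
    ∀ ν ∈ F₀, ∀ g : ↥(Cfsg.SU n F q), IsSg Φ g c d (ν * e) → g ∈ M := by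
  obtain ⟨ha, hb, haa, hbb, habo, ha0, habi⟩ := hab
  obtain ⟨hc, hd, hcc, hdd, hcdo, hc0, hcdi⟩ := hcd
  obtain ⟨z, hz, hzz, hza, hzc⟩ := R.two_hyp_iso a c ha hc ha0 hc0 haa hcc
  obtain ⟨k₁, hk₁M, μ₁, hμ₁, hμ₁0, hk₁a, hk₁r, -⟩ := R.tmove M hKr a z ha hz haa hzz hza
  obtain ⟨k₂, hk₂M, μ₂, hμ₂, hμ₂0, hk₂z, hk₂r, -⟩ :=
    R.tmove M hKr z c hz hc hzz hcc (um_ne_symm Φ _ _ hzc)
  obtain ⟨b₂, hb₂⟩ : ∃ b₂ : (Fin n → F), b₂ = sact (k₂ * k₁) b := ⟨_, rfl⟩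
  have hka : sact (k₂ * k₁) a = (μ₁ * μ₂) • c := by
    rw [sact_mul, hk₁a, sact_smul, hk₂z, smul_smul]
  have hb₂r : IsRat F₀ P b₂ := by
    rw [hb₂, sact_mul]
    exact hk₂r _ (hk₁r _ hb)
  have hb₂b₂ : Cfsg.hermForm n F q b₂ b₂ = 0 := by rw [hb₂, sact_herm]; exact hbb
  have hμμ0 : μ₁ * μ₂ ≠ 0 := mul_ne_zero hμ₁0 hμ₂0
  have hcb₂ : Cfsg.hermForm n F q c b₂ = 0 := by
    have h1 : Cfsg.hermForm n F q (sact (k₂ * k₁) a) (sact (k₂ * k₁) b) = 0 := by rw [sact_herm]; exact habo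
    rw [hka, ← hb₂, uherm_smul_left] at h1
    rcases mul_eq_zero.mp h1 with h2 | h2
    · exact absurd h2 hμμ0
    · exact h2
  have hb₂c : Cfsg.hermForm n F q b₂ c = 0 := um_symm Φ _ _ hcb₂
  have hb₂i : ∀ t : F, b₂ ≠ t • c := by
    intro t ht
    apply habi (t * (μ₁ * μ₂)⁻¹)
    have e1 : sact (k₂ * k₁) b = sact (k₂ * k₁) ((t * (μ₁ * μ₂)⁻¹) • a) := by
      rw [sact_smul, hka, ← hb₂, ht, smul_smul]
      congr 1
      field_simp
    have e2 := congrArg (sact (k₂ * k₁)⁻¹) e1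
    rwa [sact_inv_left, sact_inv_left] at e2
  have hQ2 : ∀ ν ∈ F₀, ∀ g : ↥(Cfsg.SU n F q), IsSg Φ g c b₂ (ν * e) → g ∈ M :=
    q_move hF Φ F₀ R.stab M e a b c b₂ haa hbb habo hQ (k₂ * k₁) (M.mul_mem hk₂M hk₁M)
      (μ₁ * μ₂) 1 (F₀.mul_mem hμ₁ hμ₂) F₀.one_mem hμμ0 one_ne_zero hka
      (by rw [one_smul, hb₂])
  obtain ⟨z', hz', hz'z', hz'c, hz'b, hz'd⟩ := R.two_hyp_perp_iso c b₂ d hc hb₂r hd hb₂b₂ hdd
    hb₂c (um_symm Φ _ _ hcdo) hb₂i hcdi
  obtain ⟨k₃, hk₃M, μ₃, hμ₃, hμ₃0, hk₃b, -, hk₃fix⟩ :=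
    R.tmove M hKr b₂ z' hb₂r hz' hb₂b₂ hz'z' hz'b
  obtain ⟨k₄, hk₄M, μ₄, hμ₄, hμ₄0, hk₄z, -, hk₄fix⟩ :=
    R.tmove M hKr z' d hz' hd hz'z' hdd (um_ne_symm Φ _ _ hz'd)
  have hcz' : Cfsg.hermForm n F q c z' = 0 := um_symm Φ _ _ hz'c
  have h3 : sact k₃ c = c := hk₃fix c hcb₂ hcz'
  have h4 : sact k₄ c = c := hk₄fix c hcz' hcdo
  exact q_move hF Φ F₀ R.stab M e c b₂ c d hcc hb₂b₂ hcb₂ hQ2 (k₄ * k₃) (M.mul_mem hk₄M hk₃M)
    1 (μ₃ * μ₄) F₀.one_mem (F₀.mul_mem hμ₃ hμ₄) one_ne_zero (mul_ne_zero hμ₃0 hμ₄0)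
    (by rw [sact_mul, h3, h4, one_smul]) (by rw [sact_mul, hk₃b, sact_smul, hk₄z, smul_smul])

set_option maxHeartbeats 1000000 in
theorem RatU.top_of_notR (R : RatU Φ F₀ ε P Q) (hF : Fintype.card F = q ^ 2) (hn : 13 ≤ n)
    (r : ℕ) (hr : r.Prime) (hcard : Fintype.card F = Nat.card F₀ ^ r)
    (M : Subgroup ↥(Cfsg.SU n F q)) (hKr : ∀ g : ↥(Cfsg.SU n F q), (∀ x, IsRat F₀ P x → IsRat F₀ P (sact g x)) → g ∈ M)
    (u : (Fin n → F)) (hu : IsRat F₀ P u) (hu0 : u ≠ 0) (huu : Cfsg.hermForm n F q u u = 0) (y : ↥(Cfsg.SU n F q)) (hy : y ∈ M) (ψ : (Fin n → F) → F)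
    (hyu : sact y u = u) (hyψ : ∀ x, Cfsg.hermForm n F q x u = 0 → sact y x = x + ψ x • u)
    (x₀ : (Fin n → F)) (hx₀ : IsRat F₀ P x₀) (hx₀x₀ : Cfsg.hermForm n F q x₀ x₀ = 0) (hx₀u : Cfsg.hermForm n F q x₀ u = 0) (hlam0 : ψ x₀ ∉ F₀) :
    M = ⊤ := by
  have he0 := R.e0
  have hφε : Φ.φ ε = -ε := by linear_combination R.es
  obtain ⟨lam, hlam⟩ : ∃ lam, lam = ψ x₀ := ⟨_, rfl⟩
  rw [← hlam] at hlam0
  have hux₀ : Cfsg.hermForm n F q u x₀ = 0 := um_symm Φ _ _ hx₀u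
  have hx₀i : ∀ t : F, x₀ ≠ t • u := by
    intro t ht
    have h1 := hyψ x₀ hx₀u
    rw [← hlam] at h1
    have h2 : sact y x₀ = x₀ := by
      conv_lhs => rw [ht, sact_smul, hyu]
      exact ht.symm
    rw [h2] at h1
    have h5 : lam • u = 0 := by
      rw [← sub_eq_zero] at h1
      rw [← neg_eq_zero, ← h1]
      abel
    rcases smul_eq_zero.mp h5 with h4 | h4
    · apply hlam0
      rw [h4]
      exact F₀.zero_mem
    · exact hu0 h4
  obtain ⟨t₀, ht₀⟩ := exists_ut Φ x₀ ε hx₀x₀ R.es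
  have ht₀M : t₀ ∈ M := hKr t₀ (R.ut_rat x₀ hx₀ ε R.eF t₀ ht₀)
  have ht₀' : IsUt (y * t₀ * y⁻¹) (x₀ + lam • u) ε := by
    have h1 := isUt_conj y t₀ x₀ ε ht₀
    rwa [hyψ x₀ hx₀u, ← hlam] at h1
  have ht₀i : IsUt t₀⁻¹ x₀ (-ε) := isUt_inv t₀ x₀ ε hx₀x₀ ht₀
  obtain ⟨Y, hYdef⟩ : ∃ Y : ↥(Cfsg.SU n F q), Y = (y * t₀ * y⁻¹) * t₀⁻¹ := ⟨_, rfl⟩
  have hY : Y ∈ M := by
    rw [hYdef]
    exact M.mul_mem (M.mul_mem (M.mul_mem hy ht₀M) (M.inv_mem hy)) (M.inv_mem ht₀M)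
  have hYx : ∀ x : (Fin n → F), sact Y x = x + (ε * lam * Cfsg.hermForm n F q x x₀) • u + (ε * Φ.φ lam * Cfsg.hermForm n F q x u) • x₀
      + (ε * lam * Φ.φ lam * Cfsg.hermForm n F q x u) • u := by
    intro x
    rw [hYdef]
    exact yfu Φ _ _ x₀ u lam ε hx₀x₀ hx₀u huu ht₀' ht₀i x
  obtain ⟨w, hw, hww, hwx₀, hwu⟩ := R.partner_perp u x₀ hu hx₀ hx₀x₀ hx₀u hx₀i
  obtain ⟨zu, hzu, hzuu⟩ := R.dual1 u hu hu0
  obtain ⟨b, hb, hb0, hbb, hbL⟩ := R.perpLI [u, x₀, w, zu] (by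
    intro a ha
    simp only [List.mem_cons, List.not_mem_nil, or_false] at ha
    rcases ha with rfl | rfl | rfl | rfl
    · exact hu
    · exact hx₀
    · exact hw
    · exact hzu) (by simp only [List.length_cons, List.length_nil]; omega)
  have hbu : Cfsg.hermForm n F q b u = 0 := hbL u (by simp)
  have hbx₀ : Cfsg.hermForm n F q b x₀ = 0 := hbL x₀ (by simp)
  have hbw : Cfsg.hermForm n F q b w = 0 := hbL w (by simp)
  have hbzu : Cfsg.hermForm n F q b zu = 0 := hbL zu (by simp)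
  have hub : Cfsg.hermForm n F q u b = 0 := um_symm Φ _ _ hbu
  have hwb : Cfsg.hermForm n F q w b = 0 := um_symm Φ _ _ hbw
  have hbi : ∀ t : F, b ≠ t • u := by
    intro t ht
    have h1 : Cfsg.hermForm n F q zu b = 0 := um_symm Φ _ _ hbzu
    rw [ht, uherm_smul_right Φ, hzuu, mul_one] at h1
    have h2 : t = 0 := (map_eq_zero Φ.φ).mp h1
    apply hb0
    rw [ht, h2, zero_smul]
  have hgood : Good q F₀ P u b := ⟨hu, hb, huu, hbb, hub, hu0, hbi⟩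
  obtain ⟨e₀, he₀⟩ : ∃ e₀, e₀ = Φ.φ (ε * lam) := ⟨_, rfl⟩
  have he₀n : e₀ ∉ F₀ := by
    intro h
    have h1 : ε * lam ∈ F₀ := R.stab' _ (by rw [← he₀]; exact h)
    apply hlam0
    have e : lam = ε⁻¹ * (ε * lam) := by field_simp
    rw [e]
    exact F₀.mul_mem (F₀.inv_mem R.eF) h1
  have hshort : ∀ ν ∈ F₀, ∀ g : ↥(Cfsg.SU n F q), IsSg Φ g u b (ν * e₀) → g ∈ M := by
    intro ν hν g hg
    obtain ⟨g₁, hg₁⟩ := exists_sg hF Φ w b hww hbb hwb ν
    have hg₁M : g₁ ∈ M := hKr g₁ (R.sg_rat w b hw hb ν hν g₁ hg₁)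
    have h2 := isSg_conj Φ Y g₁ w b ν hg₁
    have e1 : sact Y w = w + (ε * lam) • u := by
      rw [hYx, hwx₀, hwu]
      simp only [mul_one, mul_zero, zero_smul, add_zero]
    have e2 : sact Y b = b := by
      rw [hYx, hbu, hbx₀]
      simp only [mul_zero, zero_smul, add_zero]
    rw [e1, e2] at h2
    have h3 : IsSg Φ (g * g₁) (w + (ε * lam) • u) b ν :=
      sg_add_left Φ g g₁ w u b ν (ε * lam) hbb hwb hub hwu (by rw [← he₀]; exact hg) hg₁
    have e3 : g * g₁ = Y * g₁ * Y⁻¹ := isSg_unique Φ _ _ _ _ _ h3 h2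
    have e4 : g = (Y * g₁ * Y⁻¹) * g₁⁻¹ := by rw [← e3, mul_inv_cancel_right]
    rw [e4]
    exact M.mul_mem (M.mul_mem (M.mul_mem hY hg₁M) (M.inv_mem hY)) (M.inv_mem hg₁M)
  obtain ⟨S, hS⟩ : ∃ S : Set F, S = {s | ∀ a b, Good q F₀ P a b →
      ∀ g : ↥(Cfsg.SU n F q), IsSg Φ g a b s → g ∈ M} := ⟨_, rfl⟩
  have hSF₀ : ∀ s ∈ F₀, s ∈ S := by
    intro s hs
    rw [hS]
    intro a b hab g hg
    exact hKr g (R.sg_rat a b hab.1 hab.2.1 s hs g hg)
  have hSe : e₀ ∈ S := by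
    rw [hS]
    intro a' b' hab' g hg
    exact R.pi_trans hF M hKr e₀ u b hgood hshort a' b' hab' 1 F₀.one_mem g
      (by rw [one_mul]; exact hg)
  have hSadd : ∀ s t, s ∈ S → t ∈ S → s + t ∈ S := by
    intro s t hs ht
    rw [hS] at hs ht ⊢
    intro a b hab g hg
    obtain ⟨g₁, hg₁⟩ := exists_sg hF Φ a b hab.2.2.1 hab.2.2.2.1 hab.2.2.2.2.1 s
    obtain ⟨g₂, hg₂⟩ := exists_sg hF Φ a b hab.2.2.1 hab.2.2.2.1 hab.2.2.2.2.1 t
    rw [isSg_unique Φ g _ a b _ hg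
      (sg_add Φ g₁ g₂ a b s t hab.2.2.1 hab.2.2.2.1 hab.2.2.2.2.1 hg₁ hg₂)]
    exact M.mul_mem (hs a b hab g₁ hg₁) (ht a b hab g₂ hg₂)
  have hSneg : ∀ s, s ∈ S → -s ∈ S := by
    intro s hs
    rw [hS] at hs ⊢
    intro a b hab g hg
    obtain ⟨g₁, hg₁⟩ := exists_sg hF Φ a b hab.2.2.1 hab.2.2.2.1 hab.2.2.2.2.1 s
    rw [isSg_unique Φ g _ a b _ hg
      (sg_inv Φ g₁ a b s hab.2.2.1 hab.2.2.2.1 hab.2.2.2.2.1 hg₁)]
    exact M.inv_mem (hs a b hab g₁ hg₁)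
  have hSmulφ : ∀ s t, s ∈ S → t ∈ S → s * Φ.φ t ∈ S := by
    intro s t hs ht
    rw [hS] at hs ht ⊢
    intro a a' haa' gC hgC
    obtain ⟨ha, ha', haa, ha'a', haa'o, ha0, haa'i⟩ := haa'
    have ha'0 : a' ≠ 0 := by
      intro h0
      apply haa'i 0
      rw [h0, zero_smul]
    have hai : ∀ t' : F, a ≠ t' • a' := by
      intro t' ht'
      by_cases h0 : t' = 0
      · apply ha0
        rw [ht', h0, zero_smul]
      · apply haa'i t'⁻¹
        rw [ht', smul_smul, inv_mul_cancel₀ h0, one_smul]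
    obtain ⟨e, f, he, hf, hee, hff, hfe, hea, hfa, hea', hfa'⟩ :=
      R.hyp2 hn a a' ha ha' hai haa'i
    have haf : Cfsg.hermForm n F q a f = 0 := um_symm Φ _ _ hfa
    have hae : Cfsg.hermForm n F q a e = 0 := um_symm Φ _ _ hea
    have ha'e : Cfsg.hermForm n F q a' e = 0 := um_symm Φ _ _ hea'
    have hgaf : Good q F₀ P a f := by
      refine ⟨ha, hf, haa, hff, haf, ha0, ?_⟩
      intro t' ht'
      rw [ht', uherm_smul_left, hae, mul_zero] at hfe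
      exact zero_ne_one hfe
    have hga'e : Good q F₀ P a' e := by
      refine ⟨ha', he, ha'a', hee, ha'e, ha'0, ?_⟩
      intro t' ht'
      rw [ht', uherm_smul_right Φ, hfa', mul_zero] at hfe
      exact zero_ne_one hfe
    obtain ⟨gA, hgA⟩ := exists_sg hF Φ a f haa hff haf s
    obtain ⟨gB, hgB⟩ := exists_sg hF Φ a' e ha'a' hee ha'e t
    have key := sg_rel2 Φ gA gB gC a f a' e s t haa hff ha'a' hee haf ha'e haa'o hae hfa'
      hgA hgB (by rw [hfe, mul_one]; exact hgC)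
    have e2 : gC = (gA * gB) * (gB * gA)⁻¹ := by rw [key, mul_inv_cancel_right]
    rw [e2]
    exact M.mul_mem (M.mul_mem (hs a f hgaf gA hgA) (ht a' e hga'e gB hgB))
      (M.inv_mem (M.mul_mem (ht a' e hga'e gB hgB) (hs a f hgaf gA hgA)))
  have hS1 : (1 : F) ∈ S := hSF₀ 1 F₀.one_mem
  have hS0 : (0 : F) ∈ S := hSF₀ 0 F₀.zero_mem
  have hSφ : ∀ s, s ∈ S → Φ.φ s ∈ S := by
    intro s hs
    have := hSmulφ 1 s hS1 hs
    rwa [one_mul] at this
  have hSmul : ∀ s t, s ∈ S → t ∈ S → s * t ∈ S := by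
    intro s t hs ht
    have := hSmulφ s (Φ.φ t) hs (hSφ t ht)
    rwa [Φ.hφ2] at this
  have hSpow : ∀ s ∈ S, ∀ k : ℕ, s ^ k ∈ S := by
    intro s hs k
    induction k with
    | zero =>
      rw [pow_zero]
      exact hS1
    | succ k ih =>
      rw [pow_succ]
      exact hSmul _ _ ih hs
  have hSinv : ∀ s, s ∈ S → s⁻¹ ∈ S := by
    intro s hs
    by_cases h0 : s = 0
    · rw [h0, _root_.inv_zero]
      exact hS0
    · have h1 := FiniteField.pow_card_sub_one_eq_one s h0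
      have h2 : s⁻¹ = s ^ (Fintype.card F - 2) := by
        have h3 : 2 ≤ Fintype.card F := Fintype.one_lt_card
        have h4 : s * s ^ (Fintype.card F - 2) = 1 := by
          rw [← pow_succ', show Fintype.card F - 2 + 1 = Fintype.card F - 1 by omega]
          exact h1
        exact inv_eq_of_mul_eq_one_right h4
      rw [h2]
      exact hSpow s hs _
  obtain ⟨L, hL⟩ : ∃ L : Subfield F, ∀ s, s ∈ L ↔ s ∈ S :=
    ⟨{ carrier := S
       mul_mem' := fun {a b} ha hb => hSmul a b ha hb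
       one_mem' := hS1
       add_mem' := fun {a b} ha hb => hSadd a b ha hb
       zero_mem' := hS0
       neg_mem' := fun {a} ha => hSneg a ha
       inv_mem' := fun a ha => hSinv a ha }, fun s => Iff.rfl⟩
  have hall : ∀ s : F, s ∈ S := by
    intro s
    rw [← hL]
    exact Cfsg.Agent.H6SpSub.sub_max F₀ r hr hcard L (fun s hs => (hL s).mpr (hSF₀ s hs)) e₀
      ((hL e₀).mpr hSe) he₀n s
  have hPi : ∀ s : F, ∀ a b, Good q F₀ P a b → ∀ g : ↥(Cfsg.SU n F q), IsSg Φ g a b s → g ∈ M := by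
    intro s
    have := hall s
    rw [hS] at this
    exact this
  have hdir : ∀ a, IsRat F₀ P a → Cfsg.hermForm n F q a a = 0 → a ∈ udirs Φ M := by
    intro a ha haa
    refine ⟨haa, ?_⟩
    intro c hc gT hgT
    by_cases ha0 : a = 0
    · have h1 : gT = 1 := by
        apply su_ext
        intro x
        rw [hgT x, ha0, smul_zero, add_zero, sact_one]
      rw [h1]
      exact M.one_mem
    by_cases hc0 : c = 0
    · have h1 : gT = 1 := by
        apply su_ext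
        intro x
        rw [hgT x, hc0, zero_mul, zero_smul, add_zero, sact_one]
      rw [h1]
      exact M.one_mem
    obtain ⟨za, hza, hzaa⟩ := R.dual1 a ha ha0
    obtain ⟨b, hb, hb0, hbb, hbL⟩ := R.perpLI [a, za] (by
      intro v hv
      simp only [List.mem_cons, List.not_mem_nil, or_false] at hv
      rcases hv with rfl | rfl
      · exact ha
      · exact hza) (by simp only [List.length_cons, List.length_nil]; omega)
    have hba : Cfsg.hermForm n F q b a = 0 := hbL a (by simp)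
    have hbza : Cfsg.hermForm n F q b za = 0 := hbL za (by simp)
    have hab : Cfsg.hermForm n F q a b = 0 := um_symm Φ _ _ hba
    have hbi : ∀ t : F, b ≠ t • a := by
      intro t ht
      have h1 : Cfsg.hermForm n F q za b = 0 := um_symm Φ _ _ hbza
      rw [ht, uherm_smul_right Φ, hzaa, mul_one] at h1
      have h2 : t = 0 := (map_eq_zero Φ.φ).mp h1
      apply hb0
      rw [ht, h2, zero_smul]
    obtain ⟨w, hw, hww, hwb, hwa⟩ := R.partner_perp a b ha hb hbb hba hbi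
    have haw : Cfsg.hermForm n F q a w = 0 := um_symm Φ _ _ hwa
    have hbw : Cfsg.hermForm n F q b w = 1 := by rw [← uherm_conj Φ w b, hwb, map_one]
    have hgaw : Good q F₀ P a w := by
      refine ⟨ha, hw, haa, hww, haw, ha0, ?_⟩
      intro t ht
      rw [ht, uherm_smul_left, hab, mul_zero] at hwb
      exact zero_ne_one hwb
    have hgab : Good q F₀ P a b := ⟨ha, hb, haa, hbb, hab, ha0, hbi⟩
    have hφc : Φ.φ c = -c := by linear_combination hc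
    have hcfix : Φ.φ (c / ε) = c / ε := by
      rw [map_div₀, hφε, hφc]
      field_simp
    obtain ⟨μ, hμ⟩ := exists_unorm hF Φ (c / ε) (div_ne_zero hc0 he0) hcfix
    obtain ⟨tb, htb⟩ := exists_ut Φ b ε hbb R.es
    have htbM : tb ∈ M := hKr tb (R.ut_rat b hb ε R.eF tb htb)
    obtain ⟨gs, hgs⟩ := exists_sg hF Φ a w haa hww haw (-Φ.φ μ)
    have hgsM : gs ∈ M := hPi _ a w hgaw gs hgs
    have e1 : sact gs b = b + μ • a := by
      rw [hgs b, hba, hbw, map_neg, Φ.hφ2]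
      module
    have h1 : IsUt (gs * tb * gs⁻¹) (b + μ • a) ε := by
      have h := isUt_conj gs tb b ε htb
      rwa [e1] at h
    have h2 : IsUt tb⁻¹ b (-ε) := isUt_inv tb b ε hbb htb
    obtain ⟨g₂, hg₂⟩ := exists_sg hF Φ a b haa hbb hab (ε * Φ.φ μ)
    have hg₂M : g₂ ∈ M := hPi _ a b hgab g₂ hg₂
    have hc' : c = ε * (μ * Φ.φ μ) := by
      rw [hμ]
      field_simp
    have key : (gs * tb * gs⁻¹) * tb⁻¹ = g₂ * gT := by
      apply su_ext
      intro x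
      rw [yfu Φ _ _ b a μ ε hbb hba haa h1 h2 x, sact_mul, hgT x, hg₂]
      simp only [uherm_add_left, uherm_smul_left, haa, hab, map_mul, hφε, Φ.hφ2]
      rw [hc']
      module
    have e3 : gT = g₂⁻¹ * ((gs * tb * gs⁻¹) * tb⁻¹) := by rw [key, inv_mul_cancel_left]
    rw [e3]
    exact M.mul_mem (M.inv_mem hg₂M)
      (M.mul_mem (M.mul_mem (M.mul_mem hgsM htbM) (M.inv_mem hgsM)) (M.inv_mem htbM))
  have hfin : ∀ u' : (Fin n → F), IsRat F₀ P u' → u' ≠ 0 → Cfsg.hermForm n F q u' u' = 0 → ∀ v : (Fin n → F), Cfsg.hermForm n F q v v = 0 → Cfsg.hermForm n F q v u' ≠ 0 →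
      v ∈ udirs Φ M := by
    intro u' hu' hu'0 hu'u' v hvv hvu'
    obtain ⟨us, hus, husus, husu⟩ := R.partner u' hu' hu'0 hu'u'
    obtain ⟨e, f, he, hf, hee, hff, hfe, heu, hfu⟩ := R.hyp1 hn u' hu' hu'0
    have W2 : ∀ (w : (Fin n → F)) (τ : F), us + w + τ • u' ∈ udirs Φ M → Cfsg.hermForm n F q w u' = 0 →
        ∀ x : (Fin n → F), IsRat F₀ P x → Cfsg.hermForm n F q x x = 0 → Cfsg.hermForm n F q x u' = 0 → ∀ c : F,
        ∃ τ' : F, us + (w + c • x) + τ' • u' ∈ udirs Φ M := by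
      intro w τ hmem hwu x hx hxx hxu c
      by_cases hxi : ∃ t : F, x = t • u'
      · obtain ⟨t, ht⟩ := hxi
        refine ⟨τ - c * t, ?_⟩
        have e1 : us + (w + c • x) + (τ - c * t) • u' = us + w + τ • u' := by
          rw [ht]
          module
        rw [e1]
        exact hmem
      · push Not at hxi
        have hux : Cfsg.hermForm n F q u' x = 0 := um_symm Φ _ _ hxu
        have hg : Good q F₀ P u' x := ⟨hu', hx, hu'u', hxx, hux, hu'0, hxi⟩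
        obtain ⟨g, hg'⟩ := exists_sg hF Φ u' x hu'u' hxx hux c
        have hgM : g ∈ M := hPi c u' x hg g hg'
        have h1 := udirs_conj Φ M g hgM _ hmem
        obtain ⟨H, hH⟩ : ∃ H, H = Cfsg.hermForm n F q (us + w + τ • u') x := ⟨_, rfl⟩
        refine ⟨τ - Φ.φ c * H, ?_⟩
        have e1 : sact g (us + w + τ • u') = us + (w + c • x) + (τ - Φ.φ c * H) • u' := by
          have e2 : Cfsg.hermForm n F q (us + w + τ • u') u' = 1 := by
            rw [uherm_add_left, uherm_add_left, uherm_smul_left, husu, hwu, hu'u', mul_zero,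
              add_zero, add_zero]
          rw [hg' (us + w + τ • u'), e2, ← hH]
          module
        rw [← e1]
        exact h1
    have W3 : ∀ (w : (Fin n → F)) (τ : F), us + w + τ • u' ∈ udirs Φ M → Cfsg.hermForm n F q w u' = 0 →
        ∀ x : (Fin n → F), IsRat F₀ P x → Cfsg.hermForm n F q x u' = 0 → ∀ c : F,
        ∃ τ' : F, us + (w + c • x) + τ' • u' ∈ udirs Φ M := by
      intro w τ hmem hwu x hx hxu c
      obtain ⟨α, hα, β, hβ, hiso⟩ := R.iso_dec e f x he hf hx hee hff hfe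
      obtain ⟨b, hbdef⟩ : ∃ b : (Fin n → F), b = x + α • e + β • f := ⟨_, rfl⟩
      rw [← hbdef] at hiso
      have hbr : IsRat F₀ P b := by
        rw [hbdef]
        exact isRat_add (isRat_add hx (isRat_smul α hα he)) (isRat_smul β hβ hf)
      have hbu : Cfsg.hermForm n F q b u' = 0 := by
        rw [hbdef, uherm_add_left, uherm_add_left, uherm_smul_left, uherm_smul_left, hxu, heu,
          hfu, mul_zero, mul_zero, add_zero, add_zero]
      obtain ⟨τ₁, h1⟩ := W2 w τ hmem hwu b hbr hiso hbu c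
      have hw1 : Cfsg.hermForm n F q (w + c • b) u' = 0 := by
        rw [uherm_add_left, uherm_smul_left, hwu, hbu, mul_zero, add_zero]
      obtain ⟨τ₂, h2⟩ := W2 (w + c • b) τ₁ h1 hw1 e he hee heu (-(c * α))
      have hw2 : Cfsg.hermForm n F q (w + c • b + (-(c * α)) • e) u' = 0 := by
        rw [uherm_add_left, uherm_smul_left, hw1, heu, mul_zero, add_zero]
      obtain ⟨τ₃, h3⟩ := W2 _ τ₂ h2 hw2 f hf hff hfu (-(c * β))
      refine ⟨τ₃, ?_⟩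
      have e1 : w + c • x = w + c • b + (-(c * α)) • e + (-(c * β)) • f := by
        rw [hbdef]
        module
      rw [e1]
      exact h3
    have W4 : ∀ w : (Fin n → F), Cfsg.hermForm n F q w u' = 0 → ∃ τ : F, us + w + τ • u' ∈ udirs Φ M := by
      intro w hwu
      classical
      obtain ⟨col, hcol⟩ : ∃ col : Fin n → (Fin n → F), ∀ j, col j = P *ᵥ Pi.single j 1
          - (Cfsg.hermForm n F q (P *ᵥ Pi.single j 1) u') • us := ⟨_, fun j => rfl⟩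
      have hcolr : ∀ j, IsRat F₀ P (col j) := by
        intro j
        rw [hcol]
        exact isRat_sub (isRat_col F₀ P j)
          (isRat_smul _ (R.frat _ _ (isRat_col F₀ P j) hu') hus)
      have hcolu : ∀ j, Cfsg.hermForm n F q (col j) u' = 0 := by
        intro j
        rw [hcol, uherm_sub_left, uherm_smul_left, husu, mul_one, sub_self]
      have key : ∀ s : Finset (Fin n), Cfsg.hermForm n F q (∑ j ∈ s, (Q *ᵥ w) j • col j) u' = 0 ∧
          ∃ τ : F, us + (∑ j ∈ s, (Q *ᵥ w) j • col j) + τ • u' ∈ udirs Φ M := by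
        intro s
        induction s using Finset.induction_on with
        | empty =>
          rw [Finset.sum_empty]
          refine ⟨uherm_zero_left _, 0, ?_⟩
          rw [add_zero, zero_smul, add_zero]
          exact hdir us hus husus
        | insert j s hj ih =>
          obtain ⟨ih1, τ, ih2⟩ := ih
          rw [Finset.sum_insert hj, add_comm]
          refine ⟨?_, W3 _ τ ih2 ih1 (col j) (hcolr j) (hcolu j) _⟩
          rw [uherm_add_left, uherm_smul_left, ih1, hcolu j, mul_zero, add_zero]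
      have e1 : w = ∑ j, (Q *ᵥ w) j • col j := by
        have h1 : ∑ j, (Q *ᵥ w) j • col j = (∑ j, (Q *ᵥ w) j • (P *ᵥ Pi.single j 1))
            - (∑ j, ((Q *ᵥ w) j * Cfsg.hermForm n F q (P *ᵥ Pi.single j 1) u')) • us := by
          rw [Finset.sum_smul, ← Finset.sum_sub_distrib]
          apply Finset.sum_congr rfl
          intro j _
          rw [hcol, smul_sub, smul_smul]
        have h2 : ∑ j, ((Q *ᵥ w) j * Cfsg.hermForm n F q (P *ᵥ Pi.single j 1) u') = Cfsg.hermForm n F q w u' := by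
          conv_rhs => rw [R.expand w]
          rw [h_sum_left]
        rw [h1, h2, hwu, zero_smul, sub_zero]
        exact R.expand w
      rw [e1]
      exact (key Finset.univ).2
    obtain ⟨κ, hκ⟩ : ∃ κ, κ = Cfsg.hermForm n F q v u' := ⟨_, rfl⟩
    have hκ0 : κ ≠ 0 := by rw [hκ]; exact hvu'
    obtain ⟨v₁, hv₁⟩ : ∃ v₁ : (Fin n → F), v₁ = κ⁻¹ • v := ⟨_, rfl⟩
    have hv₁u : Cfsg.hermForm n F q v₁ u' = 1 := by rw [hv₁, uherm_smul_left, ← hκ, inv_mul_cancel₀ hκ0]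
    have hv₁v₁ : Cfsg.hermForm n F q v₁ v₁ = 0 := by
      rw [hv₁, uherm_smul_left, uherm_smul_right Φ, hvv, mul_zero, mul_zero]
    have hwu : Cfsg.hermForm n F q (v₁ - us) u' = 0 := by rw [uherm_sub_left, hv₁u, husu, sub_self]
    obtain ⟨τ, hτ⟩ := W4 (v₁ - us) hwu
    have e1 : us + (v₁ - us) + τ • u' = v₁ + τ • u' := by abel
    rw [e1] at hτ
    have huv₁ : Cfsg.hermForm n F q u' v₁ = 1 := by rw [← uherm_conj Φ v₁ u', hv₁u, map_one]
    have hτs : τ + Φ.φ τ = 0 := by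
      have h1 := hτ.1
      simp only [uherm_add_left, uherm_add_right Φ, uherm_smul_left, uherm_smul_right Φ, hv₁v₁,
        hv₁u, huv₁, hu'u'] at h1
      linear_combination h1
    have hτs' : -τ + Φ.φ (-τ) = 0 := by
      rw [map_neg]
      linear_combination -hτs
    obtain ⟨tu, htu⟩ := exists_ut Φ u' (-τ) hu'u' hτs'
    have htuM : tu ∈ M := (hdir u' hu' hu'u').2 (-τ) hτs' tu htu
    have h2 := udirs_conj Φ M tu htuM _ hτ
    have e2 : sact tu (v₁ + τ • u') = v₁ := by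
      rw [htu, uherm_add_left, uherm_smul_left, hv₁u, hu'u']
      module
    rw [e2] at h2
    have h3 := udirs_smul Φ M v₁ h2 κ
    have e3 : κ • v₁ = v := by rw [hv₁, smul_smul, mul_inv_cancel₀ hκ0, one_smul]
    rw [e3] at h3
    exact h3
  apply top_of_udirs hF Φ (by omega) M
  intro v hvv
  by_cases hv0 : v = 0
  · refine ⟨hvv, ?_⟩
    intro c hc g hg
    have h1 : g = 1 := by
      apply su_ext
      intro x
      rw [hg x, hv0, smul_zero, add_zero, sact_one]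
    rw [h1]
    exact M.one_mem
  have h1 : ∃ u' : (Fin n → F), IsRat F₀ P u' ∧ Cfsg.hermForm n F q u' u' = 0 ∧ Cfsg.hermForm n F q v u' ≠ 0 := by
    by_contra hcon
    push Not at hcon
    apply hv0
    apply R.span0
    intro x hx
    apply um_symm Φ
    obtain ⟨e, he, he0, hee, -⟩ := R.perpLI [] (fun a ha => absurd ha List.not_mem_nil)
      (by simp only [List.length_nil]; omega)
    obtain ⟨f, hf, hff, hfe⟩ := R.partner e he he0 hee
    obtain ⟨α, hα, β, hβ, hiso⟩ := R.iso_dec e f x he hf hx hee hff hfe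
    have h2 := hcon _ (isRat_add (isRat_add hx (isRat_smul α hα he)) (isRat_smul β hβ hf)) hiso
    rw [uherm_add_right Φ, uherm_add_right Φ, uherm_smul_right Φ, uherm_smul_right Φ,
      hcon e he hee, hcon f hf hff, mul_zero, mul_zero, add_zero, add_zero] at h2
    exact h2
  obtain ⟨u', hu', hu'u', hvu'⟩ := h1
  have hu'0 : u' ≠ 0 := by
    intro h0
    apply hvu'
    rw [h0, uherm_zero_right Φ]
  exact hfin u' hu' hu'0 hu'u' v hvv hvu'

end step1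
end Cfsg.Agent.H6SuSub
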