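import Mathlib
import Cfsg.Agent.Helper6.SuSubC

set_option autoImplicit false

namespace Cfsg.Agent.H6SuSub

open Matrix Cfsg.Agent.Helper3 Cfsg.Agent.Helper16 Cfsg.Agent.Helper6 Cfsg.Agent.S5643 Cfsg.Agent.S5660

section step2

variable {F : Type*} [Field F] [Fintype F] {n q : ℕ}

/-- the rationality property of the elements of `M` fixing a rational isotropic vector -/
def PropRU (F₀ : Subfield F) (P : (Matrix (Fin n) (Fin n) F)) (M : Subgroup ↥(Cfsg.SU n F q)) : Prop :=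
  ∀ u : (Fin n → F), IsRat F₀ P u → u ≠ 0 → Cfsg.hermForm n F q u u = 0 → ∀ y ∈ M, ∀ ψ : (Fin n → F) → F,
    sact y u = u → (∀ x, Cfsg.hermForm n F q x u = 0 → sact y x = x + ψ x • u) →
    ∀ x, IsRat F₀ P x → Cfsg.hermForm n F q x x = 0 → Cfsg.hermForm n F q x u = 0 → ψ x ∈ F₀

variable {Φ : Frob F q} {F₀ : Subfield F} {ε : F} {P Q : (Matrix (Fin n) (Fin n) F)}

theorem RatU.act_expand (R : RatU Φ F₀ ε P Q) (s : ↥(Cfsg.SU n F q)) (v : (Fin n → F)) :
    sact s v - v = ∑ j, (Q *ᵥ v) j • (sact s (P *ᵥ Pi.single j 1) - P *ᵥ Pi.single j 1) := by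
  conv_lhs => rw [R.expand v]
  unfold sact
  rw [Matrix.mulVec_sum, ← Finset.sum_sub_distrib]
  apply Finset.sum_congr rfl
  intro j _
  rw [Matrix.mulVec_smul, ← smul_sub]

theorem RatU.crit_mod (R : RatU Φ F₀ ε P Q) (u : (Fin n → F)) (hu : IsRat F₀ P u) (hu0 : u ≠ 0) (y : (Fin n → F))
    (h : ∀ x, IsRat F₀ P x → Cfsg.hermForm n F q x u = 0 → Cfsg.hermForm n F q x y ∈ F₀) :
    ∃ (v : (Fin n → F)) (μ : F), IsRat F₀ P v ∧ y = v + μ • u := by
  obtain ⟨w, hw, hwu⟩ := R.dual1 u hu hu0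
  refine ⟨y - (Cfsg.hermForm n F q y w) • u, Cfsg.hermForm n F q y w, ?_, by module⟩
  apply R.crit
  intro x hx
  have hx' : IsRat F₀ P (x - (Cfsg.hermForm n F q x u) • w) := isRat_sub hx (isRat_smul _ (R.frat x u hx hu) hw)
  have h1 := h _ hx' (by rw [uherm_sub_left, uherm_smul_left, hwu, mul_one, sub_self])
  have e : Cfsg.hermForm n F q (y - (Cfsg.hermForm n F q y w) • u) x = Φ.φ (Cfsg.hermForm n F q (x - (Cfsg.hermForm n F q x u) • w) y) := by
    rw [uherm_conj Φ, uherm_sub_left, uherm_smul_left, uherm_sub_right Φ, uherm_smul_right Φ,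
      uherm_conj Φ]
    ring
  rw [e]
  exact R.stab _ h1

set_option maxHeartbeats 1000000 in
theorem RatU.cen (R : RatU Φ F₀ ε P Q) (hF : Fintype.card F = q ^ 2) (hn : 13 ≤ n)
    (M : Subgroup ↥(Cfsg.SU n F q)) (hKr : ∀ g : ↥(Cfsg.SU n F q), (∀ x, IsRat F₀ P x → IsRat F₀ P (sact g x)) → g ∈ M)
    (hR : PropRU F₀ P M) (a : (Fin n → F)) (c : F) (hc : c ≠ 0) (hcs : c + Φ.φ c = 0)
    (haa : Cfsg.hermForm n F q a a = 0) (ga : ↥(Cfsg.SU n F q)) (hga : IsUt ga a c) (hT : ga ∈ M)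
    (u : (Fin n → F)) (hu : IsRat F₀ P u) (hu0 : u ≠ 0) (huu : Cfsg.hermForm n F q u u = 0) (hau : Cfsg.hermForm n F q a u = 0) :
    ∃ (t : F) (v : (Fin n → F)), IsRat F₀ P v ∧ a = t • v := by
  by_cases hai : ∃ t : F, a = t • u
  · obtain ⟨t, ht⟩ := hai
    exact ⟨t, u, hu, ht⟩
  have hua : Cfsg.hermForm n F q u a = 0 := um_symm Φ _ _ hau
  have hφc : Φ.φ c = -c := by linear_combination hcs
  have star : ∀ b x : (Fin n → F), IsRat F₀ P b → Cfsg.hermForm n F q b b = 0 → Cfsg.hermForm n F q b u = 0 → IsRat F₀ P x → Cfsg.hermForm n F q x x = 0 → Cfsg.hermForm n F q x u = 0 →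
      c * Cfsg.hermForm n F q a b * Cfsg.hermForm n F q x a ∈ F₀ := by
    intro b x hb hbb hbu hx hxx hxu
    have hub : Cfsg.hermForm n F q u b = 0 := um_symm Φ _ _ hbu
    obtain ⟨g₁, hg₁⟩ := exists_sg hF Φ u b huu hbb hub 1
    have hg₁M : g₁ ∈ M := hKr g₁ (R.sg_rat u b hu hb 1 F₀.one_mem g₁ hg₁)
    have h2 := isSg_conj Φ ga g₁ u b 1 hg₁
    have e1 : sact ga u = u := by rw [hga u, hua, mul_zero, zero_smul, add_zero]
    obtain ⟨b', hb'⟩ : ∃ b' : (Fin n → F), b' = b + (c * Cfsg.hermForm n F q b a) • a := ⟨_, rfl⟩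
    have e2 : sact ga b = b' := by rw [hga b, hb']
    rw [e1, e2] at h2
    have hub' : Cfsg.hermForm n F q u b' = 0 := by
      rw [hb', uherm_add_right Φ, uherm_smul_right Φ, hub, hua, mul_zero, add_zero]
    have hYM : ga * g₁ * ga⁻¹ ∈ M := M.mul_mem (M.mul_mem hT hg₁M) (M.inv_mem hT)
    have h3 := hR u hu hu0 huu _ hYM (fun x => -(Cfsg.hermForm n F q x b')) (by
      rw [h2 u, huu, hub']
      simp only [mul_zero, zero_smul, add_zero, sub_zero]) (by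
      intro x hx
      rw [h2 x, hx, map_one]
      module) x hx hxx hxu
    have e : c * Cfsg.hermForm n F q a b * Cfsg.hermForm n F q x a = -(Cfsg.hermForm n F q x b') + Cfsg.hermForm n F q x b := by
      rw [hb', uherm_add_right Φ, uherm_smul_right Φ, map_mul, hφc, uherm_conj Φ]
      ring
    rw [e]
    exact F₀.add_mem h3 (R.frat x b hx hb)
  obtain ⟨e, f, he, hf, hee, hff, hfe, heu, hfu⟩ := R.hyp1 hn u hu hu0
  have h1 : ∃ b₀, IsRat F₀ P b₀ ∧ Cfsg.hermForm n F q b₀ b₀ = 0 ∧ Cfsg.hermForm n F q b₀ u = 0 ∧ Cfsg.hermForm n F q b₀ a ≠ 0 := by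
    by_contra hcon
    push Not at hcon
    apply hai
    apply R.perp_span a u hu hu0
    intro x hx hxu
    obtain ⟨α, hα, β, hβ, hiso⟩ := R.iso_dec e f x he hf hx hee hff hfe
    have h2 := hcon _ (isRat_add (isRat_add hx (isRat_smul α hα he)) (isRat_smul β hβ hf)) hiso
      (by
        rw [uherm_add_left, uherm_add_left, uherm_smul_left, uherm_smul_left, hxu, heu, hfu,
          mul_zero, mul_zero, add_zero, add_zero])
    rw [uherm_add_left, uherm_add_left, uherm_smul_left, uherm_smul_left, hcon e he hee heu,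
      hcon f hf hff hfu, mul_zero, mul_zero, add_zero, add_zero] at h2
    exact h2
  obtain ⟨b₀, hb₀, hb₀b₀, hb₀u, hb₀a⟩ := h1
  obtain ⟨d, hd⟩ : ∃ d, d = Cfsg.hermForm n F q b₀ a := ⟨_, rfl⟩
  have hd0 : d ≠ 0 := by rw [hd]; exact hb₀a
  have hab₀ : Cfsg.hermForm n F q a b₀ = Φ.φ d := by rw [hd, uherm_conj Φ]
  have hφd0 : Φ.φ d ≠ 0 := (map_ne_zero Φ.φ).mpr hd0
  obtain ⟨κ, hκ⟩ : ∃ κ, κ = c * Φ.φ d * d := ⟨_, rfl⟩
  have hκF : κ ∈ F₀ := by
    have h := star b₀ b₀ hb₀ hb₀b₀ hb₀u hb₀ hb₀b₀ hb₀u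
    rwa [hab₀, ← hd, ← hκ] at h
  have hκ0 : κ ≠ 0 := by rw [hκ]; exact mul_ne_zero (mul_ne_zero hc hφd0) hd0
  have hκs : κ + Φ.φ κ = 0 := by
    rw [hκ, map_mul, map_mul, Φ.hφ2, hφc]
    ring
  obtain ⟨a', ha'⟩ : ∃ a' : (Fin n → F), a' = (Φ.φ d)⁻¹ • a := ⟨_, rfl⟩
  have haa' : a = Φ.φ d • a' := by
    rw [ha', smul_smul, mul_inv_cancel₀ hφd0, one_smul]
  have h2i : ∀ x, IsRat F₀ P x → Cfsg.hermForm n F q x x = 0 → Cfsg.hermForm n F q x u = 0 → Cfsg.hermForm n F q x a' ∈ F₀ := by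
    intro x hx hxx hxu
    have e1 : Cfsg.hermForm n F q x a' = (c * Cfsg.hermForm n F q a b₀ * Cfsg.hermForm n F q x a) * κ⁻¹ := by
      rw [ha', uherm_smul_right Φ, map_inv₀, Φ.hφ2, hab₀, hκ]
      field_simp
    rw [e1]
    exact F₀.mul_mem (star b₀ x hb₀ hb₀b₀ hb₀u hx hxx hxu) (F₀.inv_mem hκF)
  have h2 : ∀ x, IsRat F₀ P x → Cfsg.hermForm n F q x u = 0 → Cfsg.hermForm n F q x a' ∈ F₀ := by
    intro x hx hxu
    obtain ⟨α, hα, β, hβ, hiso⟩ := R.iso_dec e f x he hf hx hee hff hfe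
    have h3 := h2i _ (isRat_add (isRat_add hx (isRat_smul α hα he)) (isRat_smul β hβ hf)) hiso
      (by
        rw [uherm_add_left, uherm_add_left, uherm_smul_left, uherm_smul_left, hxu, heu, hfu,
          mul_zero, mul_zero, add_zero, add_zero])
    have h4 := h2i e he hee heu
    have h5 := h2i f hf hff hfu
    have e1 : Cfsg.hermForm n F q x a' = Cfsg.hermForm n F q (x + α • e + β • f) a' - α * Cfsg.hermForm n F q e a' - β * Cfsg.hermForm n F q f a' := by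
      rw [uherm_add_left, uherm_add_left, uherm_smul_left, uherm_smul_left]
      ring
    rw [e1]
    exact F₀.sub_mem (F₀.sub_mem h3 (F₀.mul_mem hα h4)) (F₀.mul_mem hβ h5)
  obtain ⟨v, μ, hv, hvμ⟩ := R.crit_mod u hu hu0 a' h2
  have ha'u : Cfsg.hermForm n F q a' u = 0 := by rw [ha', uherm_smul_left, hau, mul_zero]
  have hua' : Cfsg.hermForm n F q u a' = 0 := um_symm Φ _ _ ha'u
  have ha'a' : Cfsg.hermForm n F q a' a' = 0 := by
    rw [ha', uherm_smul_left, uherm_smul_right Φ, haa, mul_zero, mul_zero]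
  have hve : v = a' - μ • u := by
    rw [hvμ]
    module
  have hvu : Cfsg.hermForm n F q v u = 0 := by
    rw [hve, uherm_sub_left, uherm_smul_left, ha'u, huu, mul_zero, sub_zero]
  have huv : Cfsg.hermForm n F q u v = 0 := um_symm Φ _ _ hvu
  have hvv : Cfsg.hermForm n F q v v = 0 := by
    rw [hve]
    simp only [uherm_sub_left, uherm_sub_right Φ, uherm_smul_left, uherm_smul_right Φ, ha'a',
      ha'u, hua', huu, mul_zero, sub_zero]
  have hvi : ∀ t : F, v ≠ t • u := by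
    intro t ht
    apply hai
    refine ⟨Φ.φ d * (t + μ), ?_⟩
    rw [haa', hvμ, ht]
    module
  have hga' : IsUt ga (v + μ • u) κ := by
    have h3 : IsUt ga (Φ.φ d • a') c := by rw [← haa']; exact hga
    have h4 := isUt_scale Φ ga a' c (Φ.φ d) h3
    rw [Φ.hφ2] at h4
    have e1 : c * (Φ.φ d * d) = κ := by rw [hκ]; ring
    rw [e1, hvμ] at h4
    exact h4
  have hκs' : -κ + Φ.φ (-κ) = 0 := by
    rw [map_neg]
    linear_combination -hκs
  obtain ⟨tv, htv⟩ := exists_ut Φ v (-κ) hvv hκs'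
  have htvM : tv ∈ M := hKr tv (R.ut_rat v hv (-κ) (F₀.neg_mem hκF) tv htv)
  have hY' : ga * tv ∈ M := M.mul_mem hT htvM
  have h3 := hR u hu hu0 huu _ hY' (fun x => κ * μ * Cfsg.hermForm n F q x v) (by
    rw [yfu Φ ga tv v u μ κ hvv hvu huu hga' htv u, huv, huu]
    simp only [mul_zero, zero_smul, add_zero]) (by
    intro x hx
    rw [yfu Φ ga tv v u μ κ hvv hvu huu hga' htv x, hx]
    simp only [mul_zero, zero_smul, add_zero])
  obtain ⟨x₁, hx₁, hx₁x₁, hx₁v, hx₁u⟩ := R.partner_perp u v hu hv hvv hvu hvi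
  have h4 : κ * μ * Cfsg.hermForm n F q x₁ v ∈ F₀ := h3 x₁ hx₁ hx₁x₁ hx₁u
  have hμ : μ ∈ F₀ := by
    obtain ⟨μ', hμ'⟩ : ∃ μ', μ' = κ * μ * Cfsg.hermForm n F q x₁ v := ⟨_, rfl⟩
    rw [← hμ'] at h4
    have e1 : μ = μ' * κ⁻¹ := by
      rw [hμ', hx₁v]
      field_simp
    rw [e1]
    exact F₀.mul_mem h4 (F₀.inv_mem hκF)
  refine ⟨Φ.φ d, a', ?_, haa'⟩
  rw [hvμ]
  exact isRat_add hv (isRat_smul μ hμ hu)

variable {PG : GL (Fin n) F}

theorem RatU.pt (R : RatU Φ F₀ ε (PG : Matrix (Fin n) (Fin n) F) Q) (hF : Fintype.card F = q ^ 2) (hn : 13 ≤ n)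
    (M : Subgroup ↥(Cfsg.SU n F q)) (hKr : ∀ g : ↥(Cfsg.SU n F q), (∀ x, IsRat F₀ (PG : Matrix (Fin n) (Fin n) F) x → IsRat F₀ (PG : Matrix (Fin n) (Fin n) F) (sact g x)) → g ∈ M)
    (hR : PropRU F₀ (PG : Matrix (Fin n) (Fin n) F) M)
    (x : ↥(Cfsg.SU n F q)) (hx : x ∈ M) (u₁ : (Fin n → F)) (hu₁ : IsRat F₀ (PG : Matrix (Fin n) (Fin n) F) u₁) (hu₁0 : u₁ ≠ 0) (hu₁u₁ : Cfsg.hermForm n F q u₁ u₁ = 0)
    (h : ∃ (t : F) (v : (Fin n → F)), IsRat F₀ (PG : Matrix (Fin n) (Fin n) F) v ∧ sact x u₁ = t • v) :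
    Matrix.SpecialLinearGroup.toGL (x : Matrix.SpecialLinearGroup (Fin n) F) ∈ Cfsg.Geo.subfieldSubgroup F₀ PG := by
  have spade : ∀ u : (Fin n → F), IsRat F₀ (PG : Matrix (Fin n) (Fin n) F) u → u ≠ 0 → Cfsg.hermForm n F q u u = 0 →
      (∃ (t : F) (v : (Fin n → F)), IsRat F₀ (PG : Matrix (Fin n) (Fin n) F) v ∧ sact x u = t • v) →
      ∀ w : (Fin n → F), IsRat F₀ (PG : Matrix (Fin n) (Fin n) F) w → Cfsg.hermForm n F q w w = 0 → Cfsg.hermForm n F q w u = 0 →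
        ∃ (c : F) (w' : (Fin n → F)), IsRat F₀ (PG : Matrix (Fin n) (Fin n) F) w' ∧ sact x w = c • w' := by
    intro u hu hu0 huu ⟨t, v, hv, htv⟩ w hw hww hwu
    obtain ⟨tw, htw⟩ := exists_ut Φ w ε hww R.es
    have htwM : tw ∈ M := hKr tw (R.ut_rat w hw ε R.eF tw htw)
    have hT := isUt_conj x tw w ε htw
    have hTM : x * tw * x⁻¹ ∈ M := M.mul_mem (M.mul_mem hx htwM) (M.inv_mem hx)
    have ht0 : t ≠ 0 := by
      intro h0
      apply sact_ne_zero x u hu0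
      rw [htv, h0, zero_smul]
    have hv0 : v ≠ 0 := by
      intro h0
      apply sact_ne_zero x u hu0
      rw [htv, h0, smul_zero]
    have hφt0 : Φ.φ t ≠ 0 := (map_ne_zero Φ.φ).mpr ht0
    have hvv : Cfsg.hermForm n F q v v = 0 := by
      have h1 : Cfsg.hermForm n F q (sact x u) (sact x u) = 0 := by rw [sact_herm]; exact huu
      rw [htv, uherm_smul_left, uherm_smul_right Φ] at h1
      rcases mul_eq_zero.mp h1 with h2 | h2
      · exact absurd h2 ht0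
      · rcases mul_eq_zero.mp h2 with h3 | h3
        · exact absurd h3 hφt0
        · exact h3
    have hperp : Cfsg.hermForm n F q (sact x w) v = 0 := by
      have h1 : Cfsg.hermForm n F q (sact x w) (sact x u) = 0 := by rw [sact_herm]; exact hwu
      rw [htv, uherm_smul_right Φ] at h1
      rcases mul_eq_zero.mp h1 with h2 | h2
      · exact absurd h2 hφt0
      · exact h2
    exact R.cen hF hn M hKr hR _ ε R.e0 R.es (by rw [sact_herm]; exact hww) _ hT hTM v hv hv0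
      hvv hperp
  apply R.mem_of_points hn
  intro w hw hww
  obtain ⟨u₂, hu₂, hu₂0, hu₂u₂, hu₂L⟩ := R.perpLI [u₁, w] (by
    intro v hv
    simp only [List.mem_cons, List.not_mem_nil, or_false] at hv
    rcases hv with rfl | rfl
    · exact hu₁
    · exact hw) (by simp only [List.length_cons, List.length_nil]; omega)
  have h1 := spade u₁ hu₁ hu₁0 hu₁u₁ h u₂ hu₂ hu₂u₂ (hu₂L u₁ (by simp))
  have hwu₂ : Cfsg.hermForm n F q w u₂ = 0 := um_symm Φ _ _ (hu₂L w (by simp))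
  exact spade u₂ hu₂ hu₂0 hu₂u₂ h1 w hw hww hwu₂

/-- the elements acting trivially modulo `W` -/
def fixW (W : Submodule F (Fin n → F)) : Subgroup ↥(Cfsg.SU n F q) where
  carrier := {x | ∀ v : (Fin n → F), sact x v - v ∈ W ∧ sact x⁻¹ v - v ∈ W}
  mul_mem' := by
    intro x y hx hy v
    have hxW : ∀ w ∈ W, sact x w ∈ W := by
      intro w hw
      have := W.add_mem (hx w).1 hw
      rwa [sub_add_cancel] at this
    have hyW : ∀ w ∈ W, sact y⁻¹ w ∈ W := by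
      intro w hw
      have := W.add_mem (hy w).2 hw
      rwa [sub_add_cancel] at this
    constructor
    · have e : sact (x * y) v - v = sact x (sact y v - v) + (sact x v - v) := by
        rw [sact_mul, sact_sub]
        abel
      rw [e]
      exact W.add_mem (hxW _ (hy v).1) (hx v).1
    · have e : sact (x * y)⁻¹ v - v = sact y⁻¹ (sact x⁻¹ v - v) + (sact y⁻¹ v - v) := by
        rw [_root_.mul_inv_rev, sact_mul, sact_sub]
        abel
      rw [e]
      exact W.add_mem (hyW _ (hx v).2) (hy v).2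
  one_mem' := by
    intro v
    rw [_root_.inv_one, sact_one, sub_self]
    exact ⟨W.zero_mem, W.zero_mem⟩
  inv_mem' := by
    intro x hx v
    rw [_root_.inv_inv]
    exact ⟨(hx v).2, (hx v).1⟩

end step2
end Cfsg.Agent.H6SuSub
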