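import Mathlib
import Cfsg.Agent.Helper6.UnitMax
import Cfsg.Agent.S5016
import Cfsg.Agent.Helper26.RankOne

set_option autoImplicit false

namespace Cfsg.Agent.H6UtRoot

open Cfsg Matrix Cfsg.Agent.Helper3 Cfsg.Agent.Helper16 Cfsg.Agent.Helper6 Cfsg.Agent.Helper26

variable {F : Type*} [Field F] [Fintype F] {n q : ℕ}

/-- the group of unitary transvections with centre `p` -/
def Tg (Φ : Frob F q) (p : Fin n → F) : Subgroup ↥(Cfsg.SU n F q) :=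
  Subgroup.closure {g | ∃ c : F, c + Φ.φ c = 0 ∧ IsUt g p c}

theorem isUt_mul (g g' : ↥(Cfsg.SU n F q)) (p : Fin n → F) (c c' : F)
    (hp : Cfsg.hermForm n F q p p = 0) (h : IsUt g p c) (h' : IsUt g' p c') :
    IsUt (g * g') p (c + c') := by
  intro x
  rw [sact_mul, h' x, h, uherm_add_left, uherm_smul_left, hp]
  module

theorem mem_tg (Φ : Frob F q) (p : Fin n → F) (hp : Cfsg.hermForm n F q p p = 0)
    (g : ↥(Cfsg.SU n F q)) : g ∈ Tg Φ p ↔ ∃ c : F, c + Φ.φ c = 0 ∧ IsUt g p c := by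
  constructor
  · intro hg
    refine Subgroup.closure_induction (p := fun g _ => ∃ c : F, c + Φ.φ c = 0 ∧ IsUt g p c)
      ?_ ?_ ?_ ?_ hg
    · intro x hx
      exact hx
    · exact ⟨0, by rw [map_zero, add_zero], isUt_one p⟩
    · rintro x y - - ⟨c, hc, h1⟩ ⟨d, hd, h2⟩
      exact ⟨c + d, by rw [map_add]; linear_combination hc + hd, isUt_mul x y p c d hp h1 h2⟩
    · rintro x - ⟨c, hc, h1⟩
      exact ⟨-c, by rw [map_neg]; linear_combination -hc, isUt_inv x p c hp h1⟩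
  · intro h
    exact Subgroup.subset_closure h

theorem isUt_ne_one (Φ : Frob F q) (g : ↥(Cfsg.SU n F q)) (p : Fin n → F) (c : F) (hp0 : p ≠ 0)
    (hc : c ≠ 0) (h : IsUt g p c) : g ≠ 1 := by
  rintro rfl
  obtain ⟨v, hv⟩ := um_nondeg' Φ p hp0
  have hv' := um_ne_symm Φ p v hv
  have h1 := h v
  rw [sact_one] at h1
  have h2 : (c * Cfsg.hermForm n F q v p) • p = 0 :=
    add_left_cancel (a := v) (by rw [add_zero]; exact h1.symm)
  rcases smul_eq_zero.1 h2 with h3 | h3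
  · rcases mul_eq_zero.1 h3 with h4 | h4
    · exact hc h4
    · exact hv' h4
  · exact hp0 h3

theorem tg_exists (hF : Fintype.card F = q ^ 2) (Φ : Frob F q) (p : Fin n → F) (hp0 : p ≠ 0)
    (hp : Cfsg.hermForm n F q p p = 0) : ∃ g ∈ Tg Φ p, g ≠ 1 := by
  obtain ⟨e, he0, he⟩ := exists_skew hF Φ
  obtain ⟨g, hg⟩ := exists_ut Φ p e hp he
  exact ⟨g, (mem_tg Φ p hp g).2 ⟨e, he, hg⟩, isUt_ne_one Φ g p e hp0 he0 hg⟩

theorem tg_comm (Φ : Frob F q) (p : Fin n → F) (hp : Cfsg.hermForm n F q p p = 0) :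
    IsMulCommutative (Tg Φ p) :=
  ⟨⟨by
    rintro ⟨a, ha⟩ ⟨b, hb⟩
    obtain ⟨c, -, h1⟩ := (mem_tg Φ p hp a).1 ha
    obtain ⟨d, -, h2⟩ := (mem_tg Φ p hp b).1 hb
    apply Subtype.ext
    show a * b = b * a
    exact isUt_unique _ _ p (c + d) (isUt_mul a b p c d hp h1 h2)
      (by rw [add_comm]; exact isUt_mul b a p d c hp h2 h1)⟩⟩

theorem conjBy_tg (Φ : Frob F q) (g : ↥(Cfsg.SU n F q)) (p : Fin n → F)
    (hp : Cfsg.hermForm n F q p p = 0) :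
    Cfsg.conjBy (Tg Φ p) g = Tg Φ (sact g p) := by
  have hp' : Cfsg.hermForm n F q (sact g p) (sact g p) = 0 := by rw [sact_herm]; exact hp
  ext x
  rw [Subgroup.mem_map, mem_tg Φ _ hp']
  constructor
  · rintro ⟨t, ht, rfl⟩
    obtain ⟨c, hc, h1⟩ := (mem_tg Φ p hp t).1 ht
    exact ⟨c, hc, isUt_conj g t p c h1⟩
  · rintro ⟨c, hc, h1⟩
    refine ⟨g⁻¹ * x * g, (mem_tg Φ p hp _).2 ⟨c, hc, ?_⟩, ?_⟩
    · have h2 := isUt_conj g⁻¹ x (sact g p) c h1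
      rw [sact_inv_left, inv_inv] at h2
      exact h2
    · show g * (g⁻¹ * x * g) * g⁻¹ = x
      group

theorem tg_smul_le (Φ : Frob F q) (p : Fin n → F) (hp : Cfsg.hermForm n F q p p = 0) (μ : F) :
    Tg Φ (μ • p) ≤ Tg Φ p := by
  unfold Tg
  rw [Subgroup.closure_le]
  rintro g ⟨c, hc, h1⟩
  refine (mem_tg Φ p hp g).2 ⟨c * (μ * Φ.φ μ), ?_, ?_⟩
  · rw [map_mul, map_mul, Φ.hφ2]
    linear_combination (μ * Φ.φ μ) * hc
  · intro x
    rw [h1 x, uherm_smul_right Φ]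
    module

theorem tg_smul (Φ : Frob F q) (p : Fin n → F) (hp : Cfsg.hermForm n F q p p = 0) (μ : F)
    (hμ : μ ≠ 0) : Tg Φ (μ • p) = Tg Φ p := by
  apply le_antisymm (tg_smul_le Φ p hp μ)
  have hp' : Cfsg.hermForm n F q (μ • p) (μ • p) = 0 := by
    rw [uherm_smul_left, uherm_smul_right Φ, hp]
    ring
  have h1 := tg_smul_le Φ (μ • p) hp' μ⁻¹
  rwa [smul_smul, inv_mul_cancel₀ hμ, one_smul] at h1

theorem ut_comm_of (Φ : Frob F q) (a b : ↥(Cfsg.SU n F q)) (p r : Fin n → F) (c d : F)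
    (hpr : Cfsg.hermForm n F q p r = 0) (h1 : IsUt a p c) (h2 : IsUt b r d) :
    a * b = b * a := by
  have hrp := um_symm Φ p r hpr
  apply su_ext
  intro x
  rw [sact_mul, sact_mul, h2 x, h1 x, h1, h2]
  simp only [uherm_add_left, uherm_smul_left, hpr, hrp]
  module

theorem ut_comm_imp (a b : ↥(Cfsg.SU n F q)) (p r : Fin n → F) (c d : F)
    (hp0 : p ≠ 0) (hp : Cfsg.hermForm n F q p p = 0) (h1 : IsUt a p c) (h2 : IsUt b r d)
    (hab : a * b = b * a) :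
    c * d * (Cfsg.hermForm n F q p r * Cfsg.hermForm n F q r p) = 0 := by
  have e1 : sact (a * b) p = p + (d * Cfsg.hermForm n F q p r) • r
      + (c * d * (Cfsg.hermForm n F q p r * Cfsg.hermForm n F q r p)) • p := by
    rw [sact_mul, h2 p, h1]
    simp only [uherm_add_left, uherm_smul_left, hp]
    module
  have e2 : sact (b * a) p = p + (d * Cfsg.hermForm n F q p r) • r := by
    rw [sact_mul, h1 p, hp, mul_zero, zero_smul, add_zero, h2 p]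
  rw [hab, e2] at e1
  have e3 : (c * d * (Cfsg.hermForm n F q p r * Cfsg.hermForm n F q r p)) • p = 0 :=
    add_left_cancel (a := p + (d * Cfsg.hermForm n F q p r) • r) (by rw [add_zero]; exact e1.symm)
  rcases smul_eq_zero.1 e3 with h3 | h3
  · exact h3
  · exact absurd h3 hp0

theorem tg_comm_bot (Φ : Frob F q) (p r : Fin n → F) (hp : Cfsg.hermForm n F q p p = 0)
    (hr : Cfsg.hermForm n F q r r = 0) (hpr : Cfsg.hermForm n F q p r = 0) :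
    ⁅Tg Φ p, Tg Φ r⁆ = ⊥ := by
  rw [Subgroup.commutator_eq_bot_iff_le_centralizer]
  intro a ha
  rw [Subgroup.mem_centralizer_iff]
  intro b hb
  obtain ⟨c, -, h1⟩ := (mem_tg Φ p hp a).1 ha
  obtain ⟨d, -, h2⟩ := (mem_tg Φ r hr b).1 hb
  exact (ut_comm_of Φ a b p r c d hpr h1 h2).symm

theorem tg_ne (hF : Fintype.card F = q ^ 2) (Φ : Frob F q) (p r : Fin n → F) (hp0 : p ≠ 0)
    (hp : Cfsg.hermForm n F q p p = 0) (hr : Cfsg.hermForm n F q r r = 0)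
    (hκ : Cfsg.hermForm n F q p r ≠ 0) : Tg Φ p ≠ Tg Φ r := by
  intro hEq
  obtain ⟨a, ha, ha1⟩ := tg_exists hF Φ p hp0 hp
  obtain ⟨c, hc, h1⟩ := (mem_tg Φ p hp a).1 ha
  have ha' : a ∈ Tg Φ r := hEq ▸ ha
  obtain ⟨d, hd, h2⟩ := (mem_tg Φ r hr a).1 ha'
  have e1 := h1 r
  rw [h2 r, hr, mul_zero, zero_smul, add_zero] at e1
  have e2 : (c * Cfsg.hermForm n F q r p) • p = 0 :=
    add_left_cancel (a := r) (by rw [add_zero]; exact e1.symm)
  have hc0 : c ≠ 0 := by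
    rintro rfl
    exact ha1 (isUt_unique a 1 p 0 h1 (isUt_one p))
  rcases smul_eq_zero.1 e2 with h3 | h3
  · rcases mul_eq_zero.1 h3 with h4 | h4
    · exact hc0 h4
    · exact um_ne_symm Φ p r hκ h4
  · exact hp0 h3

theorem tg_cond (hF : Fintype.card F = q ^ 2) (Φ : Frob F q) (p r : Fin n → F) (hp0 : p ≠ 0)
    (hr0 : r ≠ 0) (hp : Cfsg.hermForm n F q p p = 0) (hr : Cfsg.hermForm n F q r r = 0)
    (hκ : Cfsg.hermForm n F q p r ≠ 0) : Cfsg.RankOneCondition (Tg Φ p) (Tg Φ r) := by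
  intro a ha ha1
  obtain ⟨c, hc, h1⟩ := (mem_tg Φ p hp a).1 ha
  have hc0 : c ≠ 0 := by
    rintro rfl
    exact ha1 (isUt_unique a 1 p 0 h1 (isUt_one p))
  have hκ' : Cfsg.hermForm n F q r p ≠ 0 := um_ne_symm Φ p r hκ
  have hφc : Φ.φ c = -c := by linear_combination hc
  obtain ⟨κ, hκd⟩ : ∃ κ, κ = Cfsg.hermForm n F q p r := ⟨_, rfl⟩
  obtain ⟨κ', hκd'⟩ : ∃ κ', κ' = Cfsg.hermForm n F q r p := ⟨_, rfl⟩
  have e1 : Φ.φ κ = κ' := by rw [hκd, hκd']; exact uherm_conj Φ p r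
  have e2 : Φ.φ κ' = κ := by rw [hκd, hκd']; exact uherm_conj Φ r p
  rw [← hκd] at hκ
  rw [← hκd'] at hκ'
  have hd0 : (c * (κ * κ'))⁻¹ ≠ 0 := inv_ne_zero (mul_ne_zero hc0 (mul_ne_zero hκ hκ'))
  have hdsk : (c * (κ * κ'))⁻¹ + Φ.φ ((c * (κ * κ'))⁻¹) = 0 := by
    rw [map_inv₀, map_mul, map_mul, e1, e2, hφc]
    field_simp
    ring
  obtain ⟨b, hb⟩ := exists_ut Φ r _ hr hdsk
  refine ⟨b, (mem_tg Φ r hr b).2 ⟨_, hdsk, hb⟩, isUt_ne_one Φ b r _ hr0 hd0 hb, ?_⟩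
  rw [conjBy_tg Φ b⁻¹ p hp, conjBy_tg Φ a⁻¹ r hr]
  have hb' := isUt_inv b r _ hr hb
  have ha' := isUt_inv a p c hp h1
  have hiso : Cfsg.hermForm n F q (sact a⁻¹ r) (sact a⁻¹ r) = 0 := by rw [sact_herm]; exact hr
  have e : sact b⁻¹ p = (-(c * κ')⁻¹) • sact a⁻¹ r := by
    rw [hb' p, ha' r, ← hκd, ← hκd']
    match_scalars
    · field_simp
    · field_simp
  rw [e, tg_smul Φ _ hiso _ (neg_ne_zero.2 (inv_ne_zero (mul_ne_zero hc0 hκ')))]

theorem tg_rank_one (hF : Fintype.card F = q ^ 2) (Φ : Frob F q) (p r : Fin n → F) (hp0 : p ≠ 0)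
    (hr0 : r ≠ 0) (hp : Cfsg.hermForm n F q p p = 0) (hr : Cfsg.hermForm n F q r r = 0)
    (hκ : Cfsg.hermForm n F q p r ≠ 0) : Cfsg.IsRankOnePair (Tg Φ p) (Tg Φ r) :=
  ⟨tg_ne hF Φ p r hp0 hp hr hκ, isNilpotent_of_isMulCommutative (tg_comm Φ p hp),
    isNilpotent_of_isMulCommutative (tg_comm Φ r hr), tg_cond hF Φ p r hp0 hr0 hp hr hκ,
    tg_cond hF Φ r p hr0 hp0 hr hp (um_ne_symm Φ p r hκ)⟩

theorem tg_nocentral (hF : Fintype.card F = q ^ 2) (Φ : Frob F q) (p r : Fin n → F)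
    (hp0 : p ≠ 0) (hp : Cfsg.hermForm n F q p p = 0) (hr : Cfsg.hermForm n F q r r = 0)
    (hκ : Cfsg.hermForm n F q p r ≠ 0) :
    ∃ a ∈ Tg Φ p, ∃ b ∈ Tg Φ r, (a * b * a⁻¹ * b⁻¹) * a ≠ a * (a * b * a⁻¹ * b⁻¹) := by
  obtain ⟨e, he0, he⟩ := exists_skew hF Φ
  obtain ⟨a, ha⟩ := exists_ut Φ p e hp he
  obtain ⟨b, hb⟩ := exists_ut Φ r e hr he
  refine ⟨a, (mem_tg Φ p hp a).2 ⟨e, he, ha⟩, b, (mem_tg Φ r hr b).2 ⟨e, he, hb⟩, ?_⟩
  intro hcon
  have h1 : a * (b * a⁻¹ * b⁻¹) = (b * a⁻¹ * b⁻¹) * a := by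
    have h2 : a * ((b * a⁻¹ * b⁻¹) * a) = a * (a * (b * a⁻¹ * b⁻¹)) := by
      simpa [mul_assoc] using hcon
    exact (mul_left_cancel h2).symm
  have ht : IsUt (b * a⁻¹ * b⁻¹) (sact b p) (-e) := isUt_conj b a⁻¹ p (-e) (isUt_inv a p e hp ha)
  have h3 := ut_comm_imp a (b * a⁻¹ * b⁻¹) p (sact b p) e (-e) hp0 hp ha ht h1
  have hκ' : Cfsg.hermForm n F q r p ≠ 0 := um_ne_symm Φ p r hκ
  have h4 : Cfsg.hermForm n F q (sact b p) p
      = e * Cfsg.hermForm n F q p r * Cfsg.hermForm n F q r p := by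
    rw [hb p, uherm_add_left, uherm_smul_left, hp]
    ring
  have h5 : Cfsg.hermForm n F q (sact b p) p ≠ 0 := by
    rw [h4]
    exact mul_ne_zero (mul_ne_zero he0 hκ) hκ'
  have h6 : Cfsg.hermForm n F q p (sact b p) ≠ 0 := um_ne_symm Φ _ _ h5
  have h7 : e * -e * (Cfsg.hermForm n F q p (sact b p) * Cfsg.hermForm n F q (sact b p) p) ≠ 0 :=
    mul_ne_zero (mul_ne_zero he0 (neg_ne_zero.2 he0)) (mul_ne_zero h6 h5)
  exact h7 h3

theorem ts_iff (Φ : Frob F q) (p : Fin n → F) (hp0 : p ≠ 0)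
    (hp : Cfsg.hermForm n F q p p = 0) (g : ↥(Cfsg.SU n F q)) :
    ((∀ v : Fin n → F, ∃ c : F, sact g v = v + c • p) ∧
      ∀ v : Fin n → F, Cfsg.hermForm n F q v p = 0 → sact g v = v)
      ↔ ∃ c : F, c + Φ.φ c = 0 ∧ IsUt g p c := by
  constructor
  · rintro ⟨h1, h2⟩
    obtain ⟨u₀, hu₀⟩ := um_nondeg' Φ p hp0
    have hu₀' := um_ne_symm Φ p u₀ hu₀
    obtain ⟨u, hu⟩ : ∃ u, Cfsg.hermForm n F q u p = 1 :=
      ⟨(Cfsg.hermForm n F q u₀ p)⁻¹ • u₀, by rw [uherm_smul_left, inv_mul_cancel₀ hu₀']⟩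
    have hpu : Cfsg.hermForm n F q p u = 1 := by rw [← uherm_conj Φ u p, hu, map_one]
    obtain ⟨c, hc⟩ := h1 u
    have hut : IsUt g p c := by
      intro v
      have hw : Cfsg.hermForm n F q (v - Cfsg.hermForm n F q v p • u) p = 0 := by
        rw [uherm_sub_left, uherm_smul_left, hu, mul_one, sub_self]
      have e1 := h2 _ hw
      have e2 : v = (v - Cfsg.hermForm n F q v p • u) + Cfsg.hermForm n F q v p • u := by module
      calc sact g v = sact g ((v - Cfsg.hermForm n F q v p • u)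
              + Cfsg.hermForm n F q v p • u) := by rw [← e2]
        _ = (v - Cfsg.hermForm n F q v p • u) + Cfsg.hermForm n F q v p • (u + c • p) := by
            rw [sact_add, sact_smul, e1, hc]
        _ = v + (c * Cfsg.hermForm n F q v p) • p := by module
    refine ⟨c, ?_, hut⟩
    have e := sact_herm g u u
    simp only [hc, uherm_add_left, uherm_add_right Φ, uherm_smul_left, uherm_smul_right Φ, hp,
      hu, hpu] at e
    linear_combination e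
  · rintro ⟨c, hc, h1⟩
    exact ⟨fun v => ⟨c * Cfsg.hermForm n F q v p, h1 v⟩,
      fun v hv => by rw [h1 v, hv, mul_zero, zero_smul, add_zero]⟩

end Cfsg.Agent.H6UtRoot
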