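import Mathlib
import Cfsg.Agent.Helper6.UtRoot

set_option autoImplicit false

namespace Cfsg.Agent.H6UtRoot

open Cfsg Matrix Cfsg.Agent.Helper3 Cfsg.Agent.Helper16 Cfsg.Agent.Helper6 Cfsg.Agent.Helper26

variable {F : Type*} [Field F] [Fintype F] {n : ℕ}

/-- the action of a 2×2 matrix on the hyperbolic plane `⟨p, r⟩`, extended by the identity -/
def Tl (q : ℕ) (p r : Fin n → F) (M : Matrix (Fin 2) (Fin 2) F) (v : Fin n → F) : Fin n → F :=
  v + ((M 0 0 - 1) * Cfsg.hermForm n F q v r + M 0 1 * Cfsg.hermForm n F q v p) • p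
    + (M 1 0 * Cfsg.hermForm n F q v r + (M 1 1 - 1) * Cfsg.hermForm n F q v p) • r

theorem Tl_apply (q : ℕ) (p r : Fin n → F) (M : Matrix (Fin 2) (Fin 2) F) (v : Fin n → F) :
    Tl q p r M v
      = v + ((M 0 0 - 1) * Cfsg.hermForm n F q v r + M 0 1 * Cfsg.hermForm n F q v p) • p
        + (M 1 0 * Cfsg.hermForm n F q v r + (M 1 1 - 1) * Cfsg.hermForm n F q v p) • r := rfl

theorem Tl_r (q : ℕ) (p r : Fin n → F) (hr : Cfsg.hermForm n F q r r = 0)
    (hpr : Cfsg.hermForm n F q p r = 1) (M : Matrix (Fin 2) (Fin 2) F) (v : Fin n → F) :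
    Cfsg.hermForm n F q (Tl q p r M v) r
      = M 0 0 * Cfsg.hermForm n F q v r + M 0 1 * Cfsg.hermForm n F q v p := by
  rw [Tl_apply, uherm_add_left, uherm_add_left, uherm_smul_left, uherm_smul_left, hpr, hr]
  ring

theorem Tl_p (q : ℕ) (p r : Fin n → F) (hp : Cfsg.hermForm n F q p p = 0)
    (hrp : Cfsg.hermForm n F q r p = 1) (M : Matrix (Fin 2) (Fin 2) F) (v : Fin n → F) :
    Cfsg.hermForm n F q (Tl q p r M v) p
      = M 1 0 * Cfsg.hermForm n F q v r + M 1 1 * Cfsg.hermForm n F q v p := by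
  rw [Tl_apply, uherm_add_left, uherm_add_left, uherm_smul_left, uherm_smul_left, hp, hrp]
  ring

theorem Tl_mul (q : ℕ) (p r : Fin n → F) (hp : Cfsg.hermForm n F q p p = 0)
    (hr : Cfsg.hermForm n F q r r = 0) (hpr : Cfsg.hermForm n F q p r = 1)
    (hrp : Cfsg.hermForm n F q r p = 1) (M N : Matrix (Fin 2) (Fin 2) F) (v : Fin n → F) :
    Tl q p r (M * N) v = Tl q p r M (Tl q p r N v) := by
  rw [Tl_apply q p r M, Tl_r q p r hr hpr, Tl_p q p r hp hrp, Tl_apply, Tl_apply]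
  simp only [Matrix.mul_apply, Fin.sum_univ_two]
  module

theorem Tl_one (q : ℕ) (p r : Fin n → F) (v : Fin n → F) : Tl q p r 1 v = v := by
  rw [Tl_apply]
  simp

theorem Tl_up (q : ℕ) (p r : Fin n → F) (c : F) (v : Fin n → F) :
    Tl q p r !![1, c; 0, 1] v = v + (c * Cfsg.hermForm n F q v p) • p := by
  rw [Tl_apply]
  simp

theorem Tl_lo (q : ℕ) (p r : Fin n → F) (c : F) (v : Fin n → F) :
    Tl q p r !![1, 0; c, 1] v = v + (c * Cfsg.hermForm n F q v r) • r := by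
  rw [Tl_apply]
  simp

section tw

variable {L : Type*} [Field L]

/-- the twisted embedding of 2×2 matrices -/
def tw (ι : L →+* F) (ε : F) (M : Matrix.SpecialLinearGroup (Fin 2) L) :
    Matrix (Fin 2) (Fin 2) F :=
  !![ι (M.1 0 0), ε * ι (M.1 0 1); ε⁻¹ * ι (M.1 1 0), ι (M.1 1 1)]

theorem tw_mul (ι : L →+* F) (ε : F) (hε : ε ≠ 0) (M N : Matrix.SpecialLinearGroup (Fin 2) L) :
    tw ι ε (M * N) = tw ι ε M * tw ι ε N := by
  have h1 : (M * N).1 = M.1 * N.1 := rfl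
  ext i j
  fin_cases i <;> fin_cases j <;>
    simp [tw, h1, Matrix.mul_apply, Fin.sum_univ_two] <;> field_simp

theorem tw_one (ι : L →+* F) (ε : F) :
    tw ι ε (1 : Matrix.SpecialLinearGroup (Fin 2) L) = 1 := by
  ext i j
  fin_cases i <;> fin_cases j <;> simp [tw]

theorem tw_up (ι : L →+* F) (ε : F) (t : L) :
    tw ι ε (Cfsg.Agent.S5016.up t) = !![1, ε * ι t; 0, 1] := by
  ext i j
  fin_cases i <;> fin_cases j <;> simp [tw]

theorem tw_lo (ι : L →+* F) (ε : F) (t : L) :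
    tw ι ε (Cfsg.Agent.S5016.lo t) = !![1, 0; ε⁻¹ * ι t, 1] := by
  ext i j
  fin_cases i <;> fin_cases j <;> simp [tw]

end tw

section hom

variable {q : ℕ} {L : Type*} [Field L]

theorem exists_acts (Φ : Frob F q) (p r : Fin n → F)
    (hp : Cfsg.hermForm n F q p p = 0) (hr : Cfsg.hermForm n F q r r = 0)
    (hpr : Cfsg.hermForm n F q p r = 1) (hrp : Cfsg.hermForm n F q r p = 1)
    (ι : L →+* F) (hι1 : ∀ x, Φ.φ (ι x) = ι x) (ε : F) (hε0 : ε ≠ 0) (hε : ε + Φ.φ ε = 0)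
    (M : Matrix.SpecialLinearGroup (Fin 2) L) :
    ∃ g ∈ Tg Φ p ⊔ Tg Φ r, ∀ v, sact g v = Tl q p r (tw ι ε M) v := by
  have hφε : Φ.φ ε = -ε := by linear_combination hε
  let Hs : Subgroup (Matrix.SpecialLinearGroup (Fin 2) L) :=
    { carrier := {M | ∃ g ∈ Tg Φ p ⊔ Tg Φ r, ∀ v, sact g v = Tl q p r (tw ι ε M) v}
      mul_mem' := by
        rintro M N ⟨g, hg, h1⟩ ⟨g', hg', h2⟩
        refine ⟨g * g', Subgroup.mul_mem _ hg hg', fun v => ?_⟩
        rw [sact_mul, h2 v, h1, tw_mul ι ε hε0, Tl_mul q p r hp hr hpr hrp]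
      one_mem' := ⟨1, Subgroup.one_mem _, fun v => by rw [sact_one, tw_one, Tl_one]⟩
      inv_mem' := by
        rintro M ⟨g, hg, h1⟩
        refine ⟨g⁻¹, Subgroup.inv_mem _ hg, fun v => ?_⟩
        have h2 : sact g (Tl q p r (tw ι ε M⁻¹) v) = v := by
          rw [h1, ← Tl_mul q p r hp hr hpr hrp, ← tw_mul ι ε hε0, mul_inv_cancel, tw_one, Tl_one]
        have h3 := congrArg (sact g⁻¹) h2
        rw [sact_inv_left] at h3
        exact h3.symm }
  have hup : Cfsg.upperUnipotentSL2 L ≤ Hs := by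
    intro M hM
    obtain ⟨t, rfl⟩ := Cfsg.Agent.S5016.mem_upper.1 hM
    have hsk : ε * ι t + Φ.φ (ε * ι t) = 0 := by
      rw [map_mul, hι1, hφε]
      ring
    obtain ⟨g, hg⟩ := exists_ut Φ p (ε * ι t) hp hsk
    exact ⟨g, Subgroup.mem_sup_left ((mem_tg Φ p hp g).2 ⟨_, hsk, hg⟩),
      fun v => by rw [tw_up, Tl_up]; exact hg v⟩
  have hlo : Cfsg.lowerUnipotentSL2 L ≤ Hs := by
    intro M hM
    obtain ⟨t, rfl⟩ := Cfsg.Agent.S5016.mem_lower.1 hM
    have hsk : ε⁻¹ * ι t + Φ.φ (ε⁻¹ * ι t) = 0 := by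
      rw [map_mul, map_inv₀, hι1, hφε, inv_neg]
      ring
    obtain ⟨g, hg⟩ := exists_ut Φ r (ε⁻¹ * ι t) hr hsk
    exact ⟨g, Subgroup.mem_sup_right ((mem_tg Φ r hr g).2 ⟨_, hsk, hg⟩),
      fun v => by rw [tw_lo, Tl_lo]; exact hg v⟩
  exact (sup_le hlo hup) (Cfsg.Agent.S5016.generate M)

theorem exists_hom (hF : Fintype.card F = q ^ 2) (Φ : Frob F q) (p r : Fin n → F)
    (hp : Cfsg.hermForm n F q p p = 0) (hr : Cfsg.hermForm n F q r r = 0)
    (hpr : Cfsg.hermForm n F q p r = 1)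
    (ι : L →+* F) (hι1 : ∀ x, Φ.φ (ι x) = ι x) (hι2 : ∀ y, Φ.φ y = y → ∃ x, ι x = y) :
    ∃ ψ : Matrix.SpecialLinearGroup (Fin 2) L →* ↥(Cfsg.SU n F q),
      ψ.range = Tg Φ p ⊔ Tg Φ r ∧
      ψ.ker ≤ Subgroup.center (Matrix.SpecialLinearGroup (Fin 2) L) ∧
      (Cfsg.upperUnipotentSL2 L).map ψ = Tg Φ p ∧ (Cfsg.lowerUnipotentSL2 L).map ψ = Tg Φ r := by
  obtain ⟨ε, hε0, hε⟩ := exists_skew hF Φ
  have hφε : Φ.φ ε = -ε := by linear_combination hε
  have hrp : Cfsg.hermForm n F q r p = 1 := by rw [← uherm_conj Φ p r, hpr, map_one]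
  have hex := fun M => exists_acts Φ p r hp hr hpr hrp ι hι1 ε hε0 hε M
  choose f hf1 hf2 using hex
  let ψ : Matrix.SpecialLinearGroup (Fin 2) L →* ↥(Cfsg.SU n F q) :=
    MonoidHom.mk' f (fun M N => su_ext _ _ (fun v => by
      rw [sact_mul, hf2, hf2, hf2, tw_mul ι ε hε0, Tl_mul q p r hp hr hpr hrp]))
  have hψ : ∀ M v, sact (ψ M) v = Tl q p r (tw ι ε M) v := hf2
  have hup : ∀ t, IsUt (ψ (Cfsg.Agent.S5016.up t)) p (ε * ι t) := fun t v => by
    rw [hψ, tw_up, Tl_up]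
  have hlo : ∀ t, IsUt (ψ (Cfsg.Agent.S5016.lo t)) r (ε⁻¹ * ι t) := fun t v => by
    rw [hψ, tw_lo, Tl_lo]
  have hmu : (Cfsg.upperUnipotentSL2 L).map ψ = Tg Φ p := by
    ext A
    rw [Subgroup.mem_map, mem_tg Φ p hp]
    constructor
    · rintro ⟨M, hM, rfl⟩
      obtain ⟨t, rfl⟩ := Cfsg.Agent.S5016.mem_upper.1 hM
      refine ⟨ε * ι t, ?_, hup t⟩
      rw [map_mul, hι1, hφε]
      ring
    · rintro ⟨c, hc, h1⟩
      have hφc : Φ.φ c = -c := by linear_combination hc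
      obtain ⟨t, ht⟩ := hι2 (c / ε) (by
        rw [map_div₀, hφc, hφε]
        field_simp)
      refine ⟨Cfsg.Agent.S5016.up t, Cfsg.Agent.S5016.up_mem t, isUt_unique _ _ p c ?_ h1⟩
      have h2 := hup t
      rw [ht, mul_div_cancel₀ c hε0] at h2
      exact h2
  have hml : (Cfsg.lowerUnipotentSL2 L).map ψ = Tg Φ r := by
    ext A
    rw [Subgroup.mem_map, mem_tg Φ r hr]
    constructor
    · rintro ⟨M, hM, rfl⟩
      obtain ⟨t, rfl⟩ := Cfsg.Agent.S5016.mem_lower.1 hM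
      refine ⟨ε⁻¹ * ι t, ?_, hlo t⟩
      rw [map_mul, map_inv₀, hι1, hφε, inv_neg]
      ring
    · rintro ⟨c, hc, h1⟩
      have hφc : Φ.φ c = -c := by linear_combination hc
      obtain ⟨t, ht⟩ := hι2 (c * ε) (by
        rw [map_mul, hφc, hφε]
        ring)
      refine ⟨Cfsg.Agent.S5016.lo t, Cfsg.Agent.S5016.lo_mem t, isUt_unique _ _ r c ?_ h1⟩
      have h2 := hlo t
      have h3 : ε⁻¹ * ι t = c := by
        rw [ht]
        field_simp
      rw [h3] at h2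
      exact h2
  refine ⟨ψ, ?_, ?_, hmu, hml⟩
  · have htop : (⊤ : Subgroup (Matrix.SpecialLinearGroup (Fin 2) L))
        = Cfsg.lowerUnipotentSL2 L ⊔ Cfsg.upperUnipotentSL2 L :=
      (eq_top_iff.2 (fun g _ => Cfsg.Agent.S5016.generate g)).symm
    rw [MonoidHom.range_eq_map, htop, Subgroup.map_sup, hmu, hml, sup_comm]
  · intro M hM
    rw [MonoidHom.mem_ker] at hM
    have h1 : ∀ v, Tl q p r (tw ι ε M) v = v := by
      intro v
      rw [← hψ, hM, sact_one]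
    have ha : ι (M.1 0 0) = 1 := by
      have h := Tl_r q p r hr hpr (tw ι ε M) p
      rw [h1, hpr, hp] at h
      have h' : tw ι ε M 0 0 = ι (M.1 0 0) := rfl
      rw [h'] at h
      linear_combination -h
    have hc : ε⁻¹ * ι (M.1 1 0) = 0 := by
      have h := Tl_p q p r hp hrp (tw ι ε M) p
      rw [h1, hpr, hp] at h
      have h' : tw ι ε M 1 0 = ε⁻¹ * ι (M.1 1 0) := rfl
      rw [h'] at h
      linear_combination -h
    have hb : ε * ι (M.1 0 1) = 0 := by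
      have h := Tl_r q p r hr hpr (tw ι ε M) r
      rw [h1, hrp, hr] at h
      have h' : tw ι ε M 0 1 = ε * ι (M.1 0 1) := rfl
      rw [h'] at h
      linear_combination -h
    have hd : ι (M.1 1 1) = 1 := by
      have h := Tl_p q p r hp hrp (tw ι ε M) r
      rw [h1, hrp, hr] at h
      have h' : tw ι ε M 1 1 = ι (M.1 1 1) := rfl
      rw [h'] at h
      linear_combination -h
    have hinj := ι.injective
    have ha' : M.1 0 0 = 1 := hinj (by rw [ha, map_one])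
    have hd' : M.1 1 1 = 1 := hinj (by rw [hd, map_one])
    have hc' : M.1 1 0 = 0 := by
      rcases mul_eq_zero.1 hc with h | h
      · exact absurd h (inv_ne_zero hε0)
      · exact hinj (by rw [h, map_zero])
    have hb' : M.1 0 1 = 0 := by
      rcases mul_eq_zero.1 hb with h | h
      · exact absurd h hε0
      · exact hinj (by rw [h, map_zero])
    have hM1 : M = 1 := by
      ext i j
      fin_cases i <;> fin_cases j <;> simp [ha', hb', hc', hd']
    rw [hM1]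
    exact Subgroup.one_mem _

theorem exists_L (hF : Fintype.card F = q ^ 2) (Φ : Frob F q) :
    ∃ (L : Type) (_ : Field L) (_ : Fintype L) (ι : L →+* F), Fintype.card L = q ∧
      (∀ x, Φ.φ (ι x) = ι x) ∧ ∀ y, Φ.φ y = y → ∃ x, ι x = y := by
  classical
  let F₀ : Subfield F := RingHom.eqLocusField Φ.φ (RingHom.id F)
  haveI : Fintype ↥F₀ := Fintype.ofFinite _
  haveI : Small.{0} ↥F₀ := inferInstance
  let e : Shrink.{0} ↥F₀ ≃+* ↥F₀ := Shrink.ringEquiv.{0, _} ↥F₀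
  haveI : Fintype (Shrink.{0} ↥F₀) := Fintype.ofEquiv ↥F₀ (equivShrink _)
  have hfix : ∀ a : ↥F₀, Φ.φ a.1 = a.1 := fun a => a.2
  refine ⟨Shrink.{0} ↥F₀, inferInstance, inferInstance, F₀.subtype.comp e.toRingHom, ?_, ?_, ?_⟩
  · have h1 : Fintype.card (Shrink.{0} ↥F₀) = Fintype.card ↥F₀ := Fintype.card_congr e.toEquiv
    rw [h1]
    obtain ⟨b₀, hb₀⟩ := exists_tr_one hF Φ
    obtain ⟨ε, hε0, hε⟩ := exists_skew hF Φ
    have hφε : Φ.φ ε = -ε := by linear_combination hε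
    have hφb : Φ.φ b₀ = 1 - b₀ := by linear_combination hb₀
    let f : ↥F₀ × ↥F₀ → F := fun ab => ab.1.1 * b₀ + ab.2.1 * ε
    have hf : Function.Bijective f := by
      constructor
      · rintro ⟨a, b⟩ ⟨a', b'⟩ hab
        have hab' : a.1 * b₀ + b.1 * ε = a'.1 * b₀ + b'.1 * ε := hab
        have h2 := congrArg Φ.φ hab'
        simp only [map_add, map_mul, hfix, hφε, hφb] at h2
        have ha : a.1 = a'.1 := by linear_combination hab' + h2
        have hb : b.1 = b'.1 := by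
          have h3 : (b.1 - b'.1) * ε = 0 := by
            rw [ha] at hab'
            linear_combination hab'
          rcases mul_eq_zero.1 h3 with h4 | h4
          · exact sub_eq_zero.1 h4
          · exact absurd h4 hε0
        exact Prod.ext (Subtype.ext ha) (Subtype.ext hb)
      · intro x
        have ha : Φ.φ (x + Φ.φ x) = x + Φ.φ x := by
          rw [map_add, Φ.hφ2]
          ring
        have hb : Φ.φ ((x - (x + Φ.φ x) * b₀) / ε) = (x - (x + Φ.φ x) * b₀) / ε := by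
          rw [map_div₀, map_sub, map_mul, ha, hφε, hφb]
          field_simp
          ring
        refine ⟨(⟨x + Φ.φ x, ha⟩, ⟨(x - (x + Φ.φ x) * b₀) / ε, hb⟩), ?_⟩
        show (x + Φ.φ x) * b₀ + (x - (x + Φ.φ x) * b₀) / ε * ε = x
        field_simp
        ring
    have hcard := Fintype.card_of_bijective hf
    rw [Fintype.card_prod, hF] at hcard
    have h2 : Fintype.card ↥F₀ ^ 2 = q ^ 2 := by rw [sq]; exact hcard
    exact Nat.pow_left_injective two_ne_zero h2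
  · intro x
    exact hfix (e x)
  · intro y hy
    exact ⟨e.symm ⟨y, hy⟩, by simp⟩

end hom

end Cfsg.Agent.H6UtRoot
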