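import Mathlib

set_option autoImplicit false

namespace Cfsg.Agent.Helper6

variable {G Ω : Type*} [Group G] [MulAction G Ω]

/-- A non-identity element fixes at most two points (Finset form). -/
theorem zfix_le_two
    (h3 : ∀ g : G, ∀ a b c : Ω, a ≠ b → b ≠ c → a ≠ c → g • a = a → g • b = b → g • c = c → g = 1)
    (s : G) (hs : s ≠ 1) (S : Finset Ω) (hS : ∀ x ∈ S, s • x = x) : S.card ≤ 2 := by
  by_contra hcon
  rw [not_le, Finset.two_lt_card] at hcon
  obtain ⟨a, ha, b, hb, c, hc, hab, hac, hbc⟩ := hcon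
  exact hs (h3 s a b c hab hbc hac (hS a ha) (hS b hb) (hS c hc))

/-- The number of fixed points as a Finset cardinality. -/
theorem zfix_card [Fintype Ω] [DecidableEq Ω] (s : G) :
    Nat.card (MulAction.fixedBy Ω s) = (Finset.univ.filter (fun x : Ω => s • x = x)).card := by
  rw [Nat.card_eq_fintype_card]
  exact Fintype.card_of_subtype _ (fun x => by simp [MulAction.mem_fixedBy])

/-- Parity of the number of fixed points of an involution. -/
theorem zfix_parity [Fintype Ω] [DecidableEq Ω] (s : G) (hs : s ^ 2 = 1) :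
    (Finset.univ.filter (fun x : Ω => s • x = x)).card ≡ Fintype.card Ω [MOD 2] := by
  haveI : Fact (Nat.Prime 2) := ⟨Nat.prime_two⟩
  have h1 : (MulAction.toPerm s : Equiv.Perm Ω) ^ 2 ^ 1 = 1 := by
    rw [pow_one]
    ext x
    simp only [Equiv.Perm.coe_pow, Equiv.Perm.coe_one, id_eq]
    show s • s • x = x
    rw [← mul_smul, ← pow_two, hs, one_smul]
  have h2 := Equiv.Perm.card_compl_support_modEq h1
  have h3 : (MulAction.toPerm s : Equiv.Perm Ω).supportᶜ
      = Finset.univ.filter (fun x : Ω => s • x = x) := by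
    ext x
    simp [Equiv.Perm.mem_support]
  rw [h3] at h2
  exact h2

/-- An element of order two: basic facts. -/
theorem zinvol (s : G) (hs : orderOf s = 2) : s * s = 1 ∧ s ≠ 1 ∧ s⁻¹ = s := by
  have h1 : s ^ 2 = 1 := by rw [← hs]; exact pow_orderOf_eq_one s
  have h2 : s * s = 1 := by rw [← pow_two]; exact h1
  refine ⟨h2, ?_, inv_eq_of_mul_eq_one_right h2⟩
  intro h
  rw [h, orderOf_one] at hs
  omega

theorem zorder_two (s : G) (h1 : s * s = 1) (h2 : s ≠ 1) : orderOf s = 2 := by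
  haveI : Fact (Nat.Prime 2) := ⟨Nat.prime_two⟩
  exact orderOf_eq_prime (by rw [pow_two]; exact h1) h2

/-- Conjugating an involution `u` moving `x` so that it swaps `a` and `b`. -/
theorem zconj_swap
    (h2 : ∀ {a b c d : Ω}, a ≠ b → c ≠ d → ∃ g : G, g • a = c ∧ g • b = d)
    {u : G} (hu : orderOf u = 2) {x : Ω} (hx : u • x ≠ x) {a b : Ω} (hab : a ≠ b) :
    ∃ s : G, orderOf s = 2 ∧ s • a = b ∧ s • b = a ∧
      Nat.card (MulAction.fixedBy Ω s) = Nat.card (MulAction.fixedBy Ω u) := by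
  obtain ⟨huu, hu1, huinv⟩ := zinvol u hu
  obtain ⟨h, hhx, hhy⟩ := h2 (Ne.symm hx) hab
  have hinvx : h⁻¹ • a = x := by rw [← hhx, inv_smul_smul]
  have hinvy : h⁻¹ • b = u • x := by rw [← hhy, inv_smul_smul]
  have hsa : (h * u * h⁻¹) • a = b := by
    rw [mul_smul, mul_smul, hinvx, hhy]
  have hsb : (h * u * h⁻¹) • b = a := by
    rw [mul_smul, mul_smul, hinvy, ← mul_smul u u, huu, one_smul, hhx]
  refine ⟨h * u * h⁻¹, ?_, hsa, hsb, ?_⟩
  · apply zorder_two
    · have : h * u * h⁻¹ * (h * u * h⁻¹) = h * (u * u) * h⁻¹ := by group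
      rw [this, huu, mul_one, mul_inv_cancel]
    · intro h1
      rw [h1, one_smul] at hsa
      exact hab hsa
  · apply Nat.card_congr
    refine ⟨fun z => ⟨h⁻¹ • z.1, ?_⟩, fun z => ⟨h • z.1, ?_⟩, ?_, ?_⟩
    · have hz := z.2
      rw [MulAction.mem_fixedBy] at hz ⊢
      have h1 : u • h⁻¹ • z.1 = h⁻¹ • ((h * u * h⁻¹) • z.1) := by
        simp only [mul_smul, inv_smul_smul]
      rw [h1, hz]
    · have hz := z.2
      rw [MulAction.mem_fixedBy] at hz ⊢
      rw [mul_smul, mul_smul, inv_smul_smul, hz]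
    · intro z
      apply Subtype.ext
      simp
    · intro z
      apply Subtype.ext
      simp

/-- Conjugating an involution fixing `a`, `b` to one fixing `x`, `y`. -/
theorem zconj_fix
    (h2 : ∀ {a b c d : Ω}, a ≠ b → c ≠ d → ∃ g : G, g • a = c ∧ g • b = d)
    {u : G} (hu : orderOf u = 2) {a b : Ω} (hab : a ≠ b) (hua : u • a = a) (hub : u • b = b)
    {x y : Ω} (hxy : x ≠ y) :
    ∃ v : G, orderOf v = 2 ∧ v • x = x ∧ v • y = y := by
  obtain ⟨huu, hu1, huinv⟩ := zinvol u hu
  obtain ⟨h, hhx, hhy⟩ := h2 hab hxy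
  have hinvx : h⁻¹ • x = a := by rw [← hhx, inv_smul_smul]
  have hinvy : h⁻¹ • y = b := by rw [← hhy, inv_smul_smul]
  refine ⟨h * u * h⁻¹, ?_, ?_, ?_⟩
  · apply zorder_two
    · have : h * u * h⁻¹ * (h * u * h⁻¹) = h * (u * u) * h⁻¹ := by group
      rw [this, huu, mul_one, mul_inv_cancel]
    · intro h1
      apply hu1
      have h4 : u = h⁻¹ * (h * u * h⁻¹) * h := by group
      rw [h4, h1]
      group
  · rw [mul_smul, mul_smul, hinvx, hua, hhx]
  · rw [mul_smul, mul_smul, hinvy, hub, hhy]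

/-- The dihedral argument: two involutions `v` (fixing `x`, `a`) and `w` (fixing `x`, `b`) give an
element fixing `x` and swapping `a`, `b`. -/
theorem zswap_fix [Finite G]
    (h3 : ∀ g : G, ∀ a b c : Ω, a ≠ b → b ≠ c → a ≠ c → g • a = a → g • b = b → g • c = c → g = 1)
    {v w : G} (hv : orderOf v = 2) (hw : orderOf w = 2) {x a b : Ω} (hxa : x ≠ a) (hxb : x ≠ b)
    (hab : a ≠ b) (hvx : v • x = x) (hva : v • a = a) (hwx : w • x = x) (hwb : w • b = b) :
    ∃ z : G, z • x = x ∧ z • a = b ∧ z • b = a := by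
  obtain ⟨hvv, hv1, hvinv⟩ := zinvol v hv
  obtain ⟨hww, hw1, hwinv⟩ := zinvol w hw
  obtain ⟨r, hr⟩ : ∃ r, r = v * w := ⟨_, rfl⟩
  have hrx1 : r • x = x := by rw [hr, mul_smul, hwx, hvx]
  have hrx : ∀ j : ℕ, r ^ j • x = x := by
    intro j
    induction j with
    | zero => simp
    | succ j ih => rw [pow_succ, mul_smul, hrx1, ih]
  have hrinv : r⁻¹ = w * v := by rw [hr, mul_inv_rev, hvinv, hwinv]
  have hvr : v * r = w := by rw [hr, ← mul_assoc, hvv, one_mul]
  have hrw : r * w = v := by rw [hr, mul_assoc, hww, mul_one]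
  have hRv : ∀ j : ℕ, v * r ^ j * v = (r ^ j)⁻¹ := by
    intro j
    have h1 : v * r * v⁻¹ = r⁻¹ := by
      rw [hvinv, hrinv, hvr]
    calc v * r ^ j * v = v * r ^ j * v⁻¹ := by rw [hvinv]
      _ = (v * r * v⁻¹) ^ j := (conj_pow).symm
      _ = (r⁻¹) ^ j := by rw [h1]
      _ = (r ^ j)⁻¹ := inv_pow r j
  have hRw : ∀ j : ℕ, w * r ^ j * w = (r ^ j)⁻¹ := by
    intro j
    have h1 : w * r * w⁻¹ = r⁻¹ := by
      rw [hwinv, hrinv, mul_assoc, hrw]
    calc w * r ^ j * w = w * r ^ j * w⁻¹ := by rw [hwinv]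
      _ = (w * r * w⁻¹) ^ j := (conj_pow).symm
      _ = (r⁻¹) ^ j := by rw [h1]
      _ = (r ^ j)⁻¹ := inv_pow r j
  have hm : 0 < orderOf r := orderOf_pos r
  rcases Nat.even_or_odd' (orderOf r) with ⟨k, hk | hk⟩
  · exfalso
    have hk0 : k ≠ 0 := by omega
    have hc1 : r ^ k ≠ 1 := pow_ne_one_of_lt_orderOf hk0 (by omega)
    have hcc : r ^ k * r ^ k = 1 := by
      rw [← pow_add, ← two_mul, ← hk, pow_orderOf_eq_one]
    have hcinv : (r ^ k)⁻¹ = r ^ k := inv_eq_of_mul_eq_one_right hcc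
    have hcv : v * r ^ k = r ^ k * v := by
      have h1 := hRv k
      rw [hcinv] at h1
      calc v * r ^ k = v * r ^ k * v * v := by rw [mul_assoc (v * r ^ k), hvv, mul_one]
        _ = r ^ k * v := by rw [h1]
    have hcw : w * r ^ k = r ^ k * w := by
      have h1 := hRw k
      rw [hcinv] at h1
      calc w * r ^ k = w * r ^ k * w * w := by rw [mul_assoc (w * r ^ k), hww, mul_one]
        _ = r ^ k * w := by rw [h1]
    have hca : r ^ k • a = a := by
      by_contra hne
      have hfix : v • (r ^ k • a) = r ^ k • a := by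
        rw [← mul_smul, hcv, mul_smul, hva]
      have hne2 : x ≠ r ^ k • a := by
        intro h
        have h5 : r ^ k • x = r ^ k • a := by rw [hrx k]; exact h
        exact hxa (MulAction.injective (r ^ k) h5)
      exact hv1 (h3 v x a (r ^ k • a) hxa (Ne.symm hne) hne2 hvx hva hfix)
    have hcb : r ^ k • b = b := by
      by_contra hne
      have hfix : w • (r ^ k • b) = r ^ k • b := by
        rw [← mul_smul, hcw, mul_smul, hwb]
      have hne2 : x ≠ r ^ k • b := by
        intro h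
        have h5 : r ^ k • x = r ^ k • b := by rw [hrx k]; exact h
        exact hxb (MulAction.injective (r ^ k) h5)
      exact hw1 (h3 w x b (r ^ k • b) hxb (Ne.symm hne) hne2 hwx hwb hfix)
    exact hc1 (h3 (r ^ k) x a b hxa hab hxb (hrx k) hca hcb)
  · have hr2k : r ^ k * r ^ k * r = 1 := by
      rw [← pow_add, ← pow_succ, ← two_mul, ← hk, pow_orderOf_eq_one]
    have hconj : r ^ k * v = w * r ^ k := by
      have h1 := hRv k
      have h2 : r ^ k * v = v * (r ^ k)⁻¹ := by
        rw [← h1, ← mul_assoc, ← mul_assoc, hvv, one_mul]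
      have h3' : (r ^ k)⁻¹ = r ^ k * r := by
        apply inv_eq_of_mul_eq_one_right
        rw [← mul_assoc]; exact hr2k
      calc r ^ k * v = v * (r ^ k)⁻¹ := h2
        _ = v * (r ^ k * r) := by rw [h3']
        _ = v * (r * r ^ k) := by rw [← pow_succ, pow_succ']
        _ = w * r ^ k := by rw [← mul_assoc, hvr]
    have hka : r ^ k • a = b := by
      by_contra hne
      have hfix : w • (r ^ k • a) = r ^ k • a := by
        rw [← mul_smul, ← hconj, mul_smul, hva]
      have hne2 : x ≠ r ^ k • a := by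
        intro h
        have h5 : r ^ k • x = r ^ k • a := by rw [hrx k]; exact h
        exact hxa (MulAction.injective (r ^ k) h5)
      exact hw1 (h3 w x b (r ^ k • a) hxb (Ne.symm hne) hne2 hwx hwb hfix)
    have hzz : r ^ k * v * (r ^ k * v) = 1 := by
      have h1 := hRv k
      calc r ^ k * v * (r ^ k * v) = r ^ k * (v * r ^ k * v) := by group
        _ = 1 := by rw [h1, mul_inv_cancel]
    have hza : (r ^ k * v) • a = b := by rw [mul_smul, hva, hka]
    refine ⟨r ^ k * v, ?_, hza, ?_⟩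
    · rw [mul_smul, hvx, hrx]
    · rw [← hza, ← mul_smul, hzz, one_smul]

end Cfsg.Agent.Helper6
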